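import Cfsg.Agent.H98.TensorForm
import Cfsg.Agent.H98.Descent
import Cfsg.Agent.H98.FieldSub
import Cfsg.Agent.H3.SympBasis

/-! Lemmas for the linear case of Aschbacher's theorem. -/

set_option autoImplicit false
set_option linter.unusedSectionVars false
set_option linter.unusedVariables false
set_option linter.unusedSimpArgs false
set_option linter.style.haveILetI false

namespace Cfsg.Agent.H98

open scoped MatrixGroups Matrix Kronecker
open Cfsg.Geo

variable {ι : Type} [Fintype ι] [DecidableEq ι] {F : Type*} [Field F]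

theorem IsSesq.comp_equiv {σ : F ≃+* F} {ε : F} {f : (ι → F) → (ι → F) → F} (hf : IsSesq σ ε f)
    {κ : Type} [Fintype κ] [DecidableEq κ] (T : (κ → F) ≃ₗ[F] (ι → F)) :
    IsSesq σ ε (fun x y : κ → F => f (T x) (T y)) where
  invol := hf.invol
  eps := hf.eps
  add_left x y v := by rw [map_add, hf.add_left]
  smul_left c x v := by rw [map_smul, hf.smul_left]
  herm v w := hf.herm _ _
  nondeg v hv := by
    have hv' : T v ≠ 0 := by simpa using hv
    obtain ⟨⟨x, hx⟩, ⟨y, hy⟩⟩ := hf.nondeg _ hv'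
    exact ⟨⟨T.symm x, by simpa using hx⟩, ⟨T.symm y, by simpa using hy⟩⟩

theorem even_card_of_symplectic {f : (ι → F) → (ι → F) → F} (hf : IsSymplecticForm f) :
    Even (Fintype.card ι) := by
  let B : LinearMap.BilinForm F (ι → F) := LinearMap.mk₂ F f hf.bilinear.add_left
    hf.bilinear.smul_left hf.bilinear.add_right hf.bilinear.smul_right
  have hs := isSesq_of_symplectic hf
  obtain ⟨m, hm⟩ := H3.even_finrank_of_isAlt B hf.alternating
    ⟨fun v hv => hs.eq_zero_of_left hv, fun v hv => hs.eq_zero_of_right hv⟩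
  rw [Module.finrank_fintype_fun_eq_card] at hm
  exact ⟨m, by omega⟩

theorem mem_sim_of_gram {σ : F ≃+* F} {G : Matrix ι ι F} {g : GL ι F} {c : F} (hc : c ≠ 0)
    (h : (g : Matrix ι ι F)ᵀ * G * (g : Matrix ι ι F).map σ = c • G) :
    g ∈ similarityGroup (fun u v : ι → F => u ⬝ᵥ (G *ᵥ fun i => σ (v i))) := by
  refine ⟨Units.mk0 c hc, fun u v => ?_⟩
  beta_reduce
  rw [IsSesq.map_mulVec, Matrix.mulVec_mulVec, ← Matrix.vecMul_transpose, ← Matrix.dotProduct_mulVec,
    Matrix.mulVec_mulVec, ← mul_assoc, h, Matrix.smul_mulVec, dotProduct_smul, smul_eq_mul,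
    Units.val_mk0]

theorem frmG_mem_sim {κ : Type} [Fintype κ] [DecidableEq κ] (e : ι ≃ κ) (P : GL ι F)
    {f : (κ → F) → (κ → F) → F} {g : GL ι F} (h : (frmG e P).symm g ∈ similarityGroup f) :
    g ∈ similarityGroup (fun u v => f ((frmV e P).symm u) ((frmV e P).symm v)) := by
  obtain ⟨c, hc⟩ := h
  refine ⟨c, fun u v => ?_⟩
  have : ∀ u, (frmV e P).symm ((g : Matrix ι ι F) *ᵥ u) =
      (((frmG e P).symm g : GL κ F) : Matrix κ κ F) *ᵥ (frmV e P).symm u := by
    intro u
    rw [LinearEquiv.symm_apply_eq, ← frm_mulVec, ← coe_frmG, MulEquiv.apply_symm_apply,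
      LinearEquiv.apply_symm_apply]
  simp only [this, hc]

/-- The standard alternating `2 × 2` matrix. -/
def J2 (F : Type*) [Field F] : Matrix (Fin 2) (Fin 2) F := !![0, 1; -1, 0]

theorem transpose_mul_J2_mul (x : Matrix (Fin 2) (Fin 2) F) : xᵀ * J2 F * x = x.det • J2 F := by
  ext i j
  fin_cases i <;> fin_cases j <;> simp [J2, Matrix.mul_apply, Fin.sum_univ_two, Matrix.det_fin_two] <;>
    ring

theorem J2_eq : J2 F = (-1 : F) • (J2 F)ᵀ := by
  ext i j
  fin_cases i <;> fin_cases j <;> simp [J2]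

theorem det_J2 : (J2 F).det = 1 := by simp [J2, Matrix.det_fin_two]

theorem permM_transpose {τ α : Type} [Fintype τ] [DecidableEq τ] [Fintype α] [DecidableEq α]
    (s : Equiv.Perm τ) : (permM α F s)ᵀ = permM α F s.symm := by
  ext x y
  have : x = y ∘ s ↔ y = x ∘ s.symm := by
    constructor
    · rintro rfl; ext i; simp
    · rintro rfl; ext i; simp
  simp [permM, this]

/-- The tensor-wreath group with two-dimensional factors preserves a bilinear form up to scalars. -/
theorem wreath_two_le_sim {t : ℕ} (e : ι ≃ (Fin t → Fin 2)) (P : GL ι F) :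
    ∃ f : (ι → F) → (ι → F) → F, IsSesq (RingEquiv.refl F) ((-1) ^ t) f ∧
      tensorWreathSubgroup 2 t e P ≤ similarityGroup f := by
  let G : Matrix (Fin t → Fin 2) (Fin t → Fin 2) F := pureT fun _ => J2 F
  have hJ : IsUnit (J2 F).det := by rw [det_J2]; exact isUnit_one
  have hG : IsUnit G.det := Matrix.isUnit_det_of_left_inverse (pureT_const_inv_mul hJ)
  have hs : G = ((-1 : F) ^ t) • (G.map (RingEquiv.refl F))ᵀ := by
    have : G.map (RingEquiv.refl F) = G := rfl
    rw [this, pureT_transpose]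
    have h2 := pureT_smul (fun _ : Fin t => (-1 : F)) (fun _ => (J2 F)ᵀ)
    rw [Finset.prod_const, Finset.card_univ, Fintype.card_fin] at h2
    rw [← h2]
    simp only [← J2_eq]
    rfl
  have h0 := isSesq_of_gram (σ := RingEquiv.refl F) (fun _ => rfl) (neg_one_pow_eq_or F t) hG hs
  refine ⟨_, h0.comp_equiv (frmV e P).symm, fun g hg => ?_⟩
  apply frmG_mem_sim e P (f := fun u v => u ⬝ᵥ G *ᵥ fun i => (RingEquiv.refl F) (v i))
  refine wreath_le (fun x => ?_) (fun s => ?_) (mem_tensorWreathSubgroup.1 hg)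
  · refine mem_sim_of_gram (c := ∏ i, (x i : Matrix (Fin 2) (Fin 2) F).det) ?_ ?_
    · exact Finset.prod_ne_zero_iff.2 fun i _ => (x i).det_ne_zero
    · have : ∀ M : Matrix (Fin t → Fin 2) (Fin t → Fin 2) F, M.map (RingEquiv.refl F) = M :=
        fun _ => rfl
      rw [this, coe_pureG, pureT_transpose, pureT_mul, pureT_mul, ← pureT_smul]
      congr 1
      ext1 i
      exact transpose_mul_J2_mul _
  · refine mem_sim_of_gram (c := 1) one_ne_zero ?_
    have : ∀ M : Matrix (Fin t → Fin 2) (Fin t → Fin 2) F, M.map (RingEquiv.refl F) = M :=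
      fun _ => rfl
    have h2 : permM (Fin 2) F s * G = G * permM (Fin 2) F s :=
      (cj_eq_iff _ _ _).1 (cj_permG_pureT s fun _ => J2 F)
    rw [this, coe_permG, permM_transpose, mul_assoc, ← h2, ← mul_assoc, one_smul]
    have h3 := permM_mul_permM_symm (α := Fin 2) (F := F) s.symm
    rw [Equiv.symm_symm] at h3
    rw [h3, one_mul]

theorem two_ne_zero_of_odd_card [Fintype F] (h : Odd (Fintype.card F)) : (2 : F) ≠ 0 := by
  intro h2
  haveI : CharP F 2 := CharTwo.of_one_ne_zero_of_two_eq_zero one_ne_zero h2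
  obtain ⟨n, -, hn⟩ := FiniteField.card F 2
  rw [hn] at h
  exact (Nat.not_odd_iff_even.2 ((Nat.even_pow' n.ne_zero).2 even_two)) h

theorem odd_card_of_two_ne_zero [Fintype F] (h : (2 : F) ≠ 0) : Odd (Fintype.card F) := by
  obtain ⟨p, hp, n, hpp, hn⟩ := FiniteField.card' F
  rw [hn]
  refine (hpp.eq_two_or_odd'.resolve_left ?_).pow
  rintro rfl
  exact h (CharP.cast_eq_zero F 2)

theorem sim_le_quadSim_half {f : (ι → F) → (ι → F) → F} :
    similarityGroup f ≤ quadSimilarityGroup (fun v => 2⁻¹ * f v v) := by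
  rintro g ⟨c, hc⟩
  exact ⟨c, fun v => by beta_reduce; rw [hc]; ring⟩

/-- An irreducible group of similarities of a form lies in a member of class 8. -/
theorem class8_of_sim [Fintype F] {n : ℕ} (hn : 3 ≤ n) {σ : F ≃+* F} {ε : F}
    {f : (Fin n → F) → (Fin n → F) → F} (hf : IsSesq σ ε f) (hε : σ ≠ RingEquiv.refl F → ε = 1)
    {H : Subgroup (GL (Fin n) F)} (hI : Irr H) (hH : H ≤ similarityGroup f) :
    ∃ M, InLinearClass n F M ∧ H ≤ M := by
  by_cases hs : σ = RingEquiv.refl F
  · subst hs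
    have hsymp : (∀ v, f v v = 0) → ∃ M, InLinearClass n F M ∧ H ≤ M := by
      intro h
      have he := even_card_of_symplectic (hf.symplectic h)
      rw [Fintype.card_fin] at he
      have h4 : 4 ≤ n := by obtain ⟨k, hk⟩ := he; omega
      refine ⟨_, ?_, hH⟩
      iterate 9 right
      exact Or.inl ⟨f, hf.symplectic h, he, h4, rfl⟩
    by_cases h2 : (2 : F) = 0
    · exact hsymp (alternating_of_irr (by rw [Fintype.card_fin]; omega) h2 hf hI hH)
    rcases hf.eps with rfl | rfl
    · refine ⟨_, ?_, hH.trans sim_le_quadSim_half⟩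
      iterate 11 right
      exact ⟨_, (isNondegenerateQuadraticForm_half h2 hf).1, odd_card_of_two_ne_zero h2, hn, rfl⟩
    · apply hsymp
      intro v
      have := hf.herm v v
      apply mul_left_cancel₀ h2
      rw [RingEquiv.refl_apply] at this
      linear_combination this
  · obtain rfl := hε hs
    refine ⟨_, ?_, hH⟩
    iterate 10 right
    exact Or.inl ⟨σ, f, hf.unitary hs, hn, rfl⟩

theorem exists_prime_subfield_of_realisable [Fintype F] {H L : Subgroup (GL ι F)} (hL : grpAlg L = ⊤)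
    (hn : NzG H L) {F₀ : Subfield F} (h0 : F₀ ≠ ⊤) (hr : RealisableOver F₀ (matrixSet L)) :
    ∃ (F₁ : Subfield F) (r : ℕ) (P : GL ι F), r.Prime ∧ Fintype.card F = Nat.card F₁ ^ r ∧
      H ≤ subfieldSubgroup F₁ P := by
  obtain ⟨F₁, r, hle, hr', hc⟩ := exists_prime_index_subfield F₀ h0
  obtain ⟨B, hB⟩ := hr
  exact ⟨F₁, r, B⁻¹, hr', hc, le_subfieldSubgroup hL hn F₁ B fun s hs i j => hle (hB s hs i j)⟩

namespace ExtraData

variable {H R : Subgroup (GL ι F)} {r m : ℕ}

theorem pow_card_center (E : ExtraData H r m R) {c : Fˣ} (hc : scal ι c ∈ R) :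
    c ^ Nat.card (Subgroup.center R) = 1 := by
  haveI : Nonempty ι := Fintype.card_pos_iff.1 (by rw [E.card_index]; exact pow_pos E.prime.pos _)
  have hz : (⟨scal ι c, hc⟩ : R) ∈ Subgroup.center R := by
    rw [Subgroup.mem_center_iff]
    intro g
    exact Subtype.ext (scal_comm c (g : GL ι F)).symm
  have h1 := pow_card_eq_one' (G := Subgroup.center R) (x := ⟨_, hz⟩)
  have h2 : scal ι c ^ Nat.card (Subgroup.center R) = 1 :=
    congrArg (fun z : Subgroup.center R => ((z : R) : GL ι F)) h1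
  apply scal_injective (ι := ι)
  rw [scal_pow, h2, scal_one]

theorem realisable [Finite F] (E : ExtraData H r m R) (F₀ : Subfield F)
    (h : ∀ c : Fˣ, c ^ Nat.card (Subgroup.center R) = 1 → (c : F) ∈ F₀) :
    RealisableOver F₀ (matrixSet R) := by
  refine realisable_of_trace E.span F₀ fun x hx => ?_
  by_cases hs : x ∈ scalars ι F
  · obtain ⟨c, rfl⟩ := mem_scalars_iff'.1 hs
    rw [coe_scal, Matrix.trace_smul, Matrix.trace_one, smul_eq_mul]
    exact F₀.mul_mem (h c (E.pow_card_center hx)) (natCast_mem F₀ _)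
  · rw [E.trace_eq_zero x hx hs]; exact F₀.zero_mem

theorem exists_form (E : ExtraData H r m R) {σ : F ≃+* F} (hσ : ∀ a, σ (σ a) = a)
    (h : ∀ c : Fˣ, c ^ Nat.card (Subgroup.center R) = 1 → σ c = ((c⁻¹ : Fˣ) : F)) :
    ∃ (ε : F) (f : (ι → F) → (ι → F) → F), IsSesq σ ε f ∧ (σ ≠ RingEquiv.refl F → ε = 1) ∧
      Fixes R f ∧ H ≤ similarityGroup f := by
  haveI : Nonempty ι := Fintype.card_pos_iff.1 (by rw [E.card_index]; exact pow_pos E.prime.pos _)
  obtain ⟨ε, f, hf, h1, h2⟩ := exists_form_of_trace hσ E.span (fun x hx => by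
    by_cases hs : x ∈ scalars ι F
    · obtain ⟨c, rfl⟩ := mem_scalars_iff'.1 hs
      rw [← scal_inv, coe_scal, coe_scal, Matrix.trace_smul, Matrix.trace_smul, Matrix.trace_one,
        smul_eq_mul, smul_eq_mul, map_mul, map_natCast, h c (E.pow_card_center hx)]
    · rw [E.trace_eq_zero x hx hs, E.trace_eq_zero x⁻¹ (R.inv_mem hx) (by simpa using hs), map_zero])
  exact ⟨ε, f, hf, h2, h1, le_similarityGroup_of_nz hf E.span h1 E.nz⟩

theorem card_center_dvd (E : ExtraData H r m R) [Finite F] :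
    Nat.card (Subgroup.center R) ∣ Nat.card F - 1 := by
  rcases E.card_center with ⟨-, h, h'⟩ | ⟨-, h, h'⟩ | ⟨h2, h, h'⟩
  · rwa [h]
  · rwa [h]
  · rw [h]
    haveI := Fintype.ofFinite F
    have h3 := odd_card_of_two_ne_zero (F := F) (by have := E.ne_char; rw [h2] at this; exact_mod_cast this)
    rw [Nat.card_eq_fintype_card]
    obtain ⟨k, hk⟩ := h3
    exact ⟨k, by omega⟩

end ExtraData

/-- The fixed field of a proper power of the Frobenius map. -/
theorem exists_subfield_pow [Fintype F] {p e d : ℕ} [CharP F p] (hp : p.Prime)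
    (he : Fintype.card F = p ^ e) (hd : 0 < d) (hde : d < e) :
    ∃ F₀ : Subfield F, F₀ ≠ ⊤ ∧ ∀ x, x ∈ F₀ ↔ x ^ p ^ d = x := by
  haveI := Fact.mk hp
  refine ⟨RingHom.eqLocusField (iterateFrobenius F p d) (RingHom.id F), fun h => ?_, fun x => Iff.rfl⟩
  have h1 : ∀ x : Fˣ, x ^ (p ^ d - 1) = 1 := by
    intro x
    have hx : (x : F) ∈ RingHom.eqLocusField (iterateFrobenius F p d) (RingHom.id F) := by
      rw [h]; trivial
    have hx' : (x : F) ^ p ^ d = x := hx
    apply mul_right_cancel (b := x)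
    rw [← pow_succ, Nat.sub_add_cancel (Nat.one_le_pow _ _ hp.pos), one_mul]
    exact Units.ext (by simpa using hx')
  rw [FiniteField.forall_pow_eq_one_iff, he] at h1
  have h2 : 1 < p ^ d := Nat.one_lt_pow hd.ne' hp.one_lt
  have h3 := Nat.le_of_dvd (by omega) h1
  have h4 := Nat.pow_lt_pow_right hp.one_lt hde
  omega

theorem exists_frobenius_half [Fintype F] {p d : ℕ} [CharP F p] (hp : p.Prime)
    (he : Fintype.card F = p ^ (2 * d)) :
    ∃ σ : F ≃+* F, (∀ a, σ (σ a) = a) ∧ ∀ a, σ a = a ^ p ^ d := by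
  haveI := Fact.mk hp
  refine ⟨iterateFrobeniusEquiv F p d, fun a => ?_, fun a => rfl⟩
  change (a ^ p ^ d) ^ p ^ d = a
  rw [← pow_mul, ← pow_add, ← two_mul, ← he, FiniteField.pow_card]

end Cfsg.Agent.H98
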