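import Cfsg.Agent.H98.ExtGUSp
import Cfsg.Agent.H27.OBasic

/-! Maximality of the extension field subgroup of type `GU_m(q)` in `Ω_{2m}(q)`, `m ≥ 5`. -/

set_option autoImplicit false
set_option linter.unusedSectionVars false
set_option linter.unusedVariables false
set_option linter.unusedSimpArgs false
set_option linter.style.haveILetI false

namespace Cfsg.Agent.H98

open Module Cfsg.Agent.H27 Cfsg.Geo Cfsg.Agent.H11

variable {F K V : Type*} [Field F] [Field K] [Algebra F K] [Finite K] [AddCommGroup V]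
  [Module F V] [Module K V] [IsScalarTower F K V] [Finite V] {σ : K →+* K}

variable (F K V) in
/-- Restriction of scalars. -/
def resH : (V ≃ₗ[K] V) →* (V ≃ₗ[F] V) where
  toFun h := h.restrictScalars F
  map_one' := rfl
  map_mul' _ _ := rfl

/-- A map sending the `K`-points of a `K`-line to `K`-points is semilinear on them. -/
theorem sl1_of_points {g : V ≃ₗ[F] V} {v w : V} (hv : v ≠ 0) (hw : w ∉ KP F K v)
    (h : ∀ a b k : K, g (k • (a • v + b • w)) ∈ KP F K (g (a • v + b • w))) : SL1 K g v := by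
  have hgv : g v ≠ 0 := by simpa using hv
  have h1 : ∀ k : K, g (k • v) ∈ KP F K (g v) := fun k => by simpa using h 1 0 k
  have h2 : ∀ k : K, g (k • w) ∈ KP F K (g w) := fun k => by simpa using h 0 1 k
  have h3 : g w ∉ KP F K (g v) := fun h4 => by
    rw [← Submodule.eq_of_le_of_finrank_le (S₁ := (KP F K v).map (g : V →ₗ[F] V))
      (S₂ := KP F K (g v)) (fun x hx => by
      obtain ⟨k, rfl⟩ := mem_map_KP.1 hx
      exact h1 k) (by rw [finrank_map_KP hv, finrank_KP hgv])] at h4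
    obtain ⟨k, hk⟩ := mem_map_KP.1 h4
    exact hw (mem_KP.2 ⟨k, g.injective hk⟩)
  obtain ⟨χ, h4, h5⟩ := exists_dualK h3
  choose f hf using fun k => mem_KP.1 (h1 k)
  choose f' hf' using fun k => mem_KP.1 (h2 k)
  have key : ∀ l k, f' (k * l) = f k * f' l := fun l k => by
    obtain ⟨c, hc⟩ := mem_KP.1 (h 1 l k)
    rw [one_smul, smul_add, smul_smul, map_add, map_add, ← hf, ← hf', ← hf', smul_add] at hc
    have h6 := congrArg χ hc
    simp only [map_add, map_smul, h4, h5, smul_eq_mul, mul_zero, zero_add, mul_one] at h6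
    rw [smul_smul, h6, add_left_inj] at hc
    rw [← h6, smul_left_cancel' hgv hc]
  have h6 : f' 1 = 1 := by simpa [h5] using congrArg χ (hf' 1)
  have h7 : ∀ k, f' k = f k := fun k => by simpa [h6] using key 1 k
  exact sl1_of_norm hv fun k => ⟨f k, fun x => by rw [← hf, ← hf, ← h7, key, h7, mul_smul]⟩

theorem le_of_iso {K V : Type*} [Field K] [AddCommGroup V] [Module K V] {σ : K →+* K}
    {C : V →ₛₗ[σ] V →ₗ[K] K} (S : SkH C) {P W : Submodule K V} {v x₀ : V} (hv : C v v = 0)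
    (hvP : v ∈ P) (hx₀ : x₀ ∈ P) (h0 : C v x₀ ≠ 0) (hvW : v ∈ W)
    (h : ∀ w ∈ P, C w w = 0 → C v w ≠ 0 → w ∈ W) : P ≤ W := by
  have key : ∀ x ∈ P, C v x ≠ 0 → x ∈ W := fun x hxP hx => by
    obtain ⟨d, hd⟩ := S.tr ((C v x)⁻¹ • x)
    have h1 : C v ((C v x)⁻¹ • x) = 1 := by simp [inv_mul_cancel₀ hx]
    have h2 := W.sub_mem (h ((C v x)⁻¹ • x + d • v)
      (P.add_mem (P.smul_mem _ hxP) (P.smul_mem _ hvP)) (by
      generalize (C v x)⁻¹ • x = b' at hd h1
      simp only [map_add, map_smul, LinearMap.map_smulₛₗ, LinearMap.add_apply, LinearMap.smul_apply,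
        smul_eq_mul, hd, h1, S.one_symm h1, hv]
      ring) (by rw [map_add, h1]; simp [hv])) (W.smul_mem d hvW)
    rwa [add_sub_cancel_right, W.smul_mem_iff (inv_ne_zero hx)] at h2
  intro x hxP
  by_cases hx : C v x = 0
  · simpa using W.sub_mem (key (x + x₀) (P.add_mem hxP hx₀) (by simpa [hx] using h0))
      (key x₀ hx₀ h0)
  · exact key x hxP hx

theorem exists_nonsing_perp [Finite F] {Q : QuadraticForm F V} (h : ND Q) {W : Submodule F V}
    (hW : 2 * finrank F W < finrank F V) : ∃ r, Q r ≠ 0 ∧ ∀ w ∈ W, pB Q w r = 0 := by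
  by_contra hc
  push Not at hc
  have h0 : ∀ r ∈ perp (pB Q) W, Q r = 0 := fun r hr => by
    by_contra h1
    obtain ⟨w, h2, h3⟩ := hc r h1
    exact h3 (hr w h2)
  have h1 := finrank_perp h W
  have h2 := finrank_perp h (perp (pB Q) W)
  have h3 : finrank F (perp (pB Q) W) ≤ finrank F (perp (pB Q) (perp (pB Q) W)) :=
    Submodule.finrank_mono fun x hx y hy => by
      have := Qadd (Q := Q) y x
      rw [h0 _ (add_mem hy hx), h0 _ hx, h0 _ hy] at this
      linear_combination -this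
  omega

theorem finrank_KP_le (v : V) : finrank F (KP F K v) ≤ finrank F K := by
  by_cases hv : v = 0
  · rw [hv, KP, Submodule.span_zero_singleton, Submodule.restrictScalars_bot, finrank_bot]
    exact Nat.zero_le _
  · exact (finrank_KP hv).le

/-- `Q` is the norm form of the Hermitian form `η C`. -/
structure UO (C : V →ₛₗ[σ] V →ₗ[K] K) (Q : QuadraticForm F V) (η : K) : Prop extends UX F C where
  trB : ∀ x y, pB Q x y = Algebra.trace F K (η * C x y)
  hQ : ∀ x, algebraMap F K (Q x) = η * C x x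
  ne0 : η ≠ 0
  sk : σ η = -η
  dim : 5 ≤ finrank K V

namespace UO

variable [Finite F] {C : V →ₛₗ[σ] V →ₗ[K] K} {Q : QuadraticForm F V} {η : K} (S : UO C Q η)
  {M : Subgroup (V ≃ₗ[F] V)}
include S

theorem tr2 (k : K) (x y : V) : pB Q x (k • y) = Algebra.trace F K (k * (η * C x y)) := by
  rw [S.trB, map_smul, smul_eq_mul, mul_left_comm]

theorem algB (x y : V) : algebraMap F K (pB Q x y) = η * (C x y - σ (C x y)) := by
  rw [S.trB, S.trc, map_mul, S.sk]; ring

theorem B_zero {x y : V} (h : C x y = 0) : pB Q x y = 0 := by rw [S.trB, h, mul_zero, map_zero]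

theorem C_zero {x y : V} (h : ∀ k : K, pB Q x (k • y) = 0) : C x y = 0 :=
  (mul_eq_zero.1 (eq_zero_of_trace (F := F) fun k => by rw [mul_comm, ← S.tr2, h])).resolve_left
    S.ne0

theorem Q_zero {x : V} : Q x = 0 ↔ C x x = 0 := by
  rw [← map_eq_zero (algebraMap F K), S.hQ, mul_eq_zero, or_iff_right S.ne0]

theorem ndQ : ND Q := fun x hx => S.nd x fun y => S.C_zero fun k => hx _

theorem dimF : finrank F V = 2 * finrank K V := by
  rw [← finrank_mul_ext (F := F) (K := K), S.two]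

theorem five : 5 ≤ finrank F V := by have := S.dimF; have := S.dim; omega

theorem eF_K {v : V} (hv : C v v = 0) (k : K) (x : V) :
    eF Q v (k • v) x = x + (η * (k - σ k) * C v x) • v := by
  rw [eF, S.Q_zero.2 (show C (k • v) (k • v) = 0 by simp [hv]), zero_mul, add_zero,
    ← algebraMap_smul K (pB Q v x), ← algebraMap_smul K (pB Q _ x), S.algB, S.algB]
  simp only [LinearMap.map_smulₛₗ, LinearMap.smul_apply, smul_eq_mul, map_mul, S.inv]
  module

theorem gg_le {h : V ≃ₗ[K] V} (hh : h ∈ GG C) : h.restrictScalars F ∈ GamK K ⊓ OM Q :=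
  ⟨restrict_mem_GamK h, S.gen ((OM Q).comap (resH F K V)) (fun v hv c hc => by
    obtain ⟨d, hd⟩ := S.exists_sub (μ := c / η) (by rw [map_div₀, hc, S.sk, div_neg])
    obtain ⟨g, hg, hf⟩ := exists_eich S.ndQ S.five (S.Q_zero.2 hv) (v := d • v)
      (S.B_zero (by simp [hv]))
    obtain ⟨t, -, ht⟩ := S.exists_tvS hv hc
    refine ⟨t, Has.mem ⟨g, hg, hf⟩ fun x => ?_, ht⟩
    rw [S.eF_K hv, hd, mul_div_cancel₀ _ S.ne0]
    exact ht x) hh⟩

theorem adjust {g : V ≃ₗ[K] V} (hg : g ∈ Iso C) (v y : V) :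
    ∃ s, s * g ∈ GG C ∧ s v = v ∧ s y = y := by
  obtain ⟨r, h1, h2⟩ := exists_nonsing_perp S.ndQ (W := KP F K v ⊔ KP F K y) (by
    have := Submodule.finrank_add_le_finrank_add_finrank (KP F K v) (KP F K y)
    have := finrank_KP_le (F := F) (K := K) v
    have := finrank_KP_le (F := F) (K := K) y
    have := S.two; have := S.dimF; have := S.dim
    omega)
  obtain ⟨s, h3, h4, h5⟩ := S.exists_refl (r := r) (fun h => h1 (S.Q_zero.2 h))
    (l := (LinearMap.det (g : V →ₗ[K] V))⁻¹) (by rw [map_inv₀, ← mul_inv, S.det g hg, inv_one])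
  have h6 : C r v = 0 := S.C_zero fun k =>
    pB_zero (h2 _ (Submodule.mem_sup_left (smul_mem_KP v k)))
  have h7 : C r y = 0 := S.C_zero fun k =>
    pB_zero (h2 _ (Submodule.mem_sup_right (smul_mem_KP y k)))
  exact ⟨s, ⟨mul_mem h3 hg, mem_SLV.2 (by rw [det_mul', h4, inv_mul_cancel₀ (det_ne_zero' g)])⟩,
    by simp [h5, h6], by simp [h5, h7]⟩

theorem su_trans {v w : V} (hv : v ≠ 0) (hw : w ≠ 0) (h : C v v = C w w) :
    ∃ g ∈ GG C, g v = w := by
  obtain ⟨g, h1, h2⟩ := iso_trans S.toSkH hv hw h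
  obtain ⟨s, h3, h4, -⟩ := S.adjust h1 w w
  exact ⟨_, h3, by rw [le_mul_apply, h2, h4]⟩

theorem mem_KP_of_perp {v x : V} (hv : v ≠ 0) (h : ∀ y, C v y = 0 → C x y = 0) :
    x ∈ KP F K v := by
  obtain ⟨x₀, h0⟩ := S.exists_one hv
  refine mem_KP.2 ⟨σ (C x x₀), (sub_eq_zero.1 (S.nd _ fun y => ?_)).symm⟩
  have := h (y - C v y • x₀) (by simp [h0])
  simp only [map_sub, map_smul, LinearMap.sub_apply, LinearMap.smul_apply, smul_eq_mul,
    LinearMap.map_smulₛₗ, S.inv, RingHom.id_apply] at this ⊢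
  linear_combination this

variable (hH : GamK K ⊓ OM Q ≤ M)
include hH

theorem rr_K {v : V} (hv : C v v = 0) (k : K) : k • v ∈ RR M (S.Q_zero.2 hv) :=
  ⟨S.B_zero (by simp [hv]), fun c => by
    obtain ⟨t, ht, htf⟩ := S.exists_tvS hv (c := η * (c • k - σ (c • k))) (by
      rw [map_mul, map_sub, S.inv, S.sk]; ring)
    exact ⟨_, hH (S.gg_le ht), fun x => by rw [← smul_assoc, S.eF_K hv]; exact htf x⟩⟩

theorem mem_of_fix {v : V} (hv0 : v ≠ 0) (hv : C v v = 0) {f : V ≃ₗ[F] V} (hf : f ∈ OG Q)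
    (h : ∀ y, C v y = 0 → f y = y) : f ∈ M := by
  obtain ⟨x₀, h0⟩ := S.exists_one hv0
  obtain ⟨ν, hν⟩ := exists_coordMap (K := K) hv0 ((f : V →ₗ[F] V) - 1) fun x =>
    S.mem_KP_of_perp hv0 fun y hy => S.C_zero fun k => by
      have := OG_pB hf x (k • y)
      rw [h (k • y) (by simp [hy])] at this
      simp [this]
  have hν' : ∀ x, f x = x + ν x • v := fun x => by simp [← hν]
  obtain ⟨a, b, hab⟩ := S.exists_ab (ν ∘ₗ (LinearMap.toSpanSingleton K V x₀).restrictScalars F)
  replace hab : ∀ s : K, ν (s • x₀) = a * s + b * σ s := hab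
  have h1 : ∀ s : K, (a * s + b * σ s) * σ s - (σ a * σ s + σ b * s) * s = 0 := fun s => by
    have := hf (s • x₀)
    rw [hν', Qadd, S.Q_zero.2 (show C (_ • v) (_ • v) = 0 by simp [hv]), add_zero,
      add_eq_left] at this
    have h2 := S.algB (s • x₀) (ν (s • x₀) • v)
    rw [this] at h2
    simp only [map_zero, hab, LinearMap.map_smulₛₗ, LinearMap.smul_apply, smul_eq_mul,
      S.one_symm h0, map_mul, map_add, map_neg, map_one, S.inv, RingHom.id_apply] at h2
    apply mul_left_cancel₀ S.ne0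
    linear_combination h2
  obtain ⟨ω, hω⟩ := S.exists_ne
  have h2 : σ ω - ω ≠ 0 := sub_ne_zero.2 hω
  have e1 := h1 1
  have e2 := h1 ω
  have e3 := h1 (1 + ω)
  simp only [map_add, map_one] at e1 e3
  have h3 : σ b = -b := by
    apply mul_left_cancel₀ h2
    linear_combination e3 - e1 - e2 - (σ ω + ω) * e1
  have h4 : b = 0 := by
    apply mul_left_cancel₀ (mul_ne_zero h2 h2)
    rw [h3] at e1 e2
    linear_combination e2 - ω * σ ω * e1
  have h5 : σ a = a := by rw [h4, map_zero] at e1; linear_combination -e1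
  obtain ⟨t, ht, htf⟩ := S.exists_tvS hv h5
  refine Has.mem ⟨_, hH (S.gg_le ht), htf⟩ fun x => ?_
  have h6 := h (x - C v x • x₀) (by simp [h0])
  rw [map_sub, hν' (_ • x₀), hab, h4, sub_eq_iff_eq_add] at h6
  rw [h6, LinearMap.smul_apply, smul_eq_mul]; module

theorem ee_of_perp (hM : M ≤ OG Q) {v u : V} (hv0 : v ≠ 0) (hv : C v v = 0) (hu : C v u = 0)
    {e : V ≃ₗ[F] V} (he : e ∈ M) (h : ∀ y, C v y = 0 → e y = y - pB Q u y • v) : EE Q M v u := by
  obtain ⟨g, hg, hf⟩ := exists_eich S.ndQ S.five (S.Q_zero.2 hv) (S.B_zero hu)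
  have := S.mem_of_fix hH hv0 hv (mul_mem (inv_mem (hM he)) (OM_le hg)) fun y hy => by
    rw [le_mul_apply, hf, eF, S.B_zero hy]
    simp only [zero_smul, add_zero, mul_zero, ← h y hy, le_inv_apply]
  exact ⟨g, by simpa using mul_mem he this, hf⟩

theorem le_of_rr (hM : M ≤ OG Q) {v y : V} (hv0 : v ≠ 0) (hv : C v v = 0) (hy : C y y = 0)
    (hvy : C v y = 0) (hyX : y ∉ KP F K v) (h : y ∈ RR M (S.Q_zero.2 hv)) : OM Q ≤ M := by
  have full : ∀ u, C v u = 0 → u ∈ RR M (S.Q_zero.2 hv) := by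
    let W : Submodule K V :=
      { carrier := {u | ∀ k : K, k • u ∈ RR M (S.Q_zero.2 hv)}
        add_mem' := fun ha hb k => by rw [smul_add]; exact add_mem (ha k) (hb k)
        zero_mem' := fun k => by simp
        smul_mem' := fun c a ha k => by rw [smul_smul]; exact ha _ }
    have key : ∀ w, C v w = 0 → C w w = 0 → w ∈ W := fun w h1 h2 k => by
      by_cases h3 : k • w ∈ KP F K v
      · obtain ⟨c, hc⟩ := mem_KP.1 h3
        exact hc ▸ S.rr_K hH hv c
      obtain ⟨g, h4, h5, h6⟩ := iso_step S.toSkH hyX h3 (by simp [h1, hvy]) (by simp [h2, hy])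
      obtain ⟨s, h7, h8, h9⟩ := S.adjust h4 v (k • w)
      have h10 := hH (S.gg_le h7)
      have := rr_conj h h10 (hM h10) (S.Q_zero.2 hv) (show s (g v) = v by rw [h5, h8])
      rwa [show (s * g).restrictScalars F y = k • w from by rw [← h9, ← h6]; rfl] at this
    obtain ⟨x₀, h1, h2⟩ : ∃ x₀, C v x₀ = 0 ∧ C y x₀ ≠ 0 := by
      by_contra hc
      push Not at hc
      exact hyX (S.mem_KP_of_perp hv0 hc)
    intro u hu
    simpa using le_of_iso S.toSkH (P := LinearMap.ker (C v)) hy hvy h1 h2 (key y hvy hy)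
      (fun w h3 h4 _ => key w h3 h4) hu 1
  have full' : ∀ w (hw : C w w = 0), w ≠ 0 → ∀ u, C w u = 0 → u ∈ RR M (S.Q_zero.2 hw) := by
    intro w hw hw0 u hu
    obtain ⟨g, h1, rfl⟩ := S.su_trans hv0 hw0 (hv.trans hw.symm)
    have h2 := hH (S.gg_le h1)
    have := rr_conj (full (g⁻¹ u) (by rw [← h1.1, le_apply_inv, hu])) h2 (hM h2)
      (S.Q_zero.2 hw) rfl
    rwa [show g.restrictScalars F (g⁻¹ u) = u from le_apply_inv g u] at this
  have ao : ∀ w, C w w = 0 → w ≠ 0 → AO Q M w := fun w hw hw0 => by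
    obtain ⟨x₀, h0⟩ := S.exists_one hw0
    obtain ⟨u, -, h1, h2⟩ := S.exists_partner (P := ⊤) hw trivial (b := x₀) trivial (by simp [h0])
    obtain ⟨r, h3, h4⟩ := exists_nonsing_perp S.ndQ (W := KP F K w ⊔ KP F K u) (by
      have := Submodule.finrank_add_le_finrank_add_finrank (KP F K w) (KP F K u)
      have := finrank_KP_le (F := F) (K := K) w
      have := finrank_KP_le (F := F) (K := K) u
      have := S.two; have := S.dimF; have := S.dim
      omega)
    have h5 : C r w = 0 := S.C_zero fun k =>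
      pB_zero (h4 _ (Submodule.mem_sup_left (smul_mem_KP w k)))
    have h6 : C r u = 0 := S.C_zero fun k =>
      pB_zero (h4 _ (Submodule.mem_sup_right (smul_mem_KP u k)))
    obtain ⟨k, hk⟩ : ∃ k : K, pB Q r (k • r) ≠ 0 :=
      not_forall.1 fun h => h3 (S.Q_zero.2 (S.C_zero h))
    have h7 : pB Q w u = 0 := (algebraMap F K).injective (by rw [S.algB, h2]; simp)
    have h8 := rr_move (full' w hw hw0 (k • r) (by simp [S.zero_symm h5]))
      (full' u h1 (by rintro rfl; simp at h2) r (S.zero_symm h6)) (pB_zero h7) (S.B_zero h5)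
    rw [S.B_zero (show C u (k • r) = 0 by simp [S.zero_symm h6]), zero_smul, mul_zero, add_zero,
      zero_sub, neg_mem_iff, Submodule.smul_mem_iff _ hk] at h8
    refine ⟨S.Q_zero.2 hw, fun x hx => ?_⟩
    obtain ⟨c, hc⟩ := S.fixed (x := C w x) (by
      have := S.algB w x
      rw [hx, map_zero, eq_comm, mul_eq_zero, or_iff_right S.ne0, sub_eq_zero] at this
      exact this.symm)
    simpa using add_mem (full' w hw hw0 (x - c • u) (by
      rw [map_sub, LinearMap.map_smul_of_tower, h2, ← hc, Algebra.smul_def]; simp))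
      (Submodule.smul_mem _ c h8)
  obtain ⟨x₀, h0⟩ := S.exists_one hv0
  obtain ⟨u, -, h1, h2⟩ := S.exists_partner (P := ⊤) hv trivial (b := x₀) trivial (by simp [h0])
  obtain ⟨ω, hω⟩ := S.exists_ne
  have h3 : pB Q v (ω • u) ≠ 0 := fun h => by
    have := S.algB v (ω • u)
    rw [h, map_zero, map_smul, h2, smul_eq_mul, mul_one, eq_comm, mul_eq_zero,
      or_iff_right S.ne0, sub_eq_zero] at this
    exact hω this.symm
  exact OM_le_of_two S.ndQ S.five (ao v hv hv0)
    (ao (ω • u) (by simp [h1]) (by rintro h; simp [h] at h3)) h3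

theorem fix_le (hM : M ≤ OG Q) (hne : ¬ OM Q ≤ M) {v : V} (hv0 : v ≠ 0) (hv : C v v = 0) :
    fixV M v ≤ stab (KP F K v) := by
  intro g hg
  by_contra hg'
  obtain ⟨x, hx, hyX⟩ := exists_of_not_mem_stab hg'
  obtain ⟨ω, rfl⟩ := mem_KP.1 hx
  have h1 := rr_conj (S.rr_K hH hv ω) hg.1 (hM hg.1) (S.Q_zero.2 hv) hg.2
  have h2 : C (g (ω • v)) (g (ω • v)) = 0 := S.Q_zero.1 (by
    rw [hM hg.1]; exact S.Q_zero.2 (by simp [hv]))
  generalize g (ω • v) = y at hyX h1 h2
  by_cases h3 : C v y = 0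
  · exact hne (S.le_of_rr hH hM hv0 hv h2 h3 hyX h1)
  obtain ⟨a, ha⟩ := S.fixed (x := C v y) (by
    have := S.algB v y
    rw [h1.1, map_zero, eq_comm, mul_eq_zero, or_iff_right S.ne0, sub_eq_zero] at this
    exact this.symm)
  have ha0 : a ≠ 0 := by rintro rfl; exact h3 (by rw [← ha, map_zero])
  obtain ⟨w, hw, hw1, hw0⟩ := exists_sing_sub (Q := Q)
    (X := perp (pB Q) (KP F K v ⊔ KP F K y)) (by
      have := finrank_perp S.ndQ (KP F K v ⊔ KP F K y)
      have := Submodule.finrank_add_le_finrank_add_finrank (KP F K v) (KP F K y)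
      have := finrank_KP_le (F := F) (K := K) v
      have := finrank_KP_le (F := F) (K := K) y
      have := S.two; have := S.dimF; have := S.dim
      omega)
  replace hw1 := S.Q_zero.1 hw1
  have h5 : C w v = 0 := S.C_zero fun k =>
    pB_zero (hw _ (Submodule.mem_sup_left (smul_mem_KP v k)))
  have h6 : C w y = 0 := S.C_zero fun k =>
    pB_zero (hw _ (Submodule.mem_sup_right (smul_mem_KP y k)))
  refine hne (S.le_of_rr hH hM hw0 hw1 hv h5 (fun h => ?_) ⟨S.B_zero h5, fun c => ?_⟩)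
  · obtain ⟨k, rfl⟩ := mem_KP.1 h
    simp [h6] at h3
  obtain ⟨z, hz, hzf⟩ := (h1.2 (-(c / a))).exists
  obtain ⟨e, he, hef⟩ := S.exists_E (u := w) (v := v) (t := 0) hw1 h5 (by simp [hv])
  have hzw : ∀ k : K, z (k • w) = k • w := fun k => by
    rw [hzf, eF, S.B_zero (show C v (k • w) = 0 by simp [S.zero_symm h5]),
      S.B_zero (show C (-(c / a) • y) (k • w) = 0 by simp [S.C_smul, S.zero_symm h6])]
    simp
  have he' := hH (S.gg_le he)
  refine S.ee_of_perp hH hM hw0 hw1 (by rw [LinearMap.map_smul_of_tower, h5, smul_zero])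
    (mul_mem (inv_mem (mul_mem hz he')) (mul_mem he' hz)) fun x hx => ?_
  apply (z * e.restrictScalars F).injective
  rw [← le_mul_apply, mul_inv_cancel_left]
  change e (z x) = z (e _)
  have h7 : C w (z x) = 0 := by simp [hzf, eF, hx, h5, h6]
  have h8 : C v (z x) = C v x - algebraMap F K (c * pB Q v x) := by
    rw [hzf, eF]
    simp only [map_add, map_sub, LinearMap.map_smul_of_tower, hv, ← ha, Algebra.smul_def,
      map_mul, map_neg, map_div₀]
    have : algebraMap F K a ≠ 0 := by simpa using ha0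
    field_simp; ring
  rw [hef, hef, h7, h8, ← algebraMap_smul K (pB Q _ x) w]
  simp only [map_add, map_sub, map_smul, hx, hw1, S.zero_symm h5, hzw, LinearMap.smul_apply,
    smul_eq_mul, zero_smul, map_zero, mul_zero, sub_zero]
  module

omit hH in
theorem isMaximalIn : IsMaximalIn (OM Q) (GamK K ⊓ OM Q) := by
  have hd := S.dim
  obtain ⟨v, -, hv, hv0⟩ := exists_sing_sub (Q := Q) (X := ⊤)
    (by rw [finrank_top]; have := S.five; omega)
  replace hv := S.Q_zero.1 hv
  have hw : ∀ v, v ≠ 0 → ∃ w, C w w = 0 ∧ C v w = 0 ∧ w ∉ KP F K v := fun v hv0 => by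
    obtain ⟨x₀, h0⟩ := S.exists_one hv0
    obtain ⟨w, hw, hw1, hw0⟩ := exists_sing_sub (Q := Q)
      (X := perp (pB Q) (KP F K v ⊔ KP F K x₀)) (by
        have := finrank_perp S.ndQ (KP F K v ⊔ KP F K x₀)
        have := Submodule.finrank_add_le_finrank_add_finrank (KP F K v) (KP F K x₀)
        have := finrank_KP_le (F := F) (K := K) v
        have := finrank_KP_le (F := F) (K := K) x₀
        have := S.two; have := S.dimF
        omega)
    refine ⟨w, S.Q_zero.1 hw1, S.zero_symm (S.C_zero fun k =>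
      pB_zero (hw _ (Submodule.mem_sup_left (smul_mem_KP v k)))), fun h => ?_⟩
    obtain ⟨k, rfl⟩ := mem_KP.1 h
    have := S.C_zero fun k => pB_zero (hw _ (Submodule.mem_sup_right (smul_mem_KP x₀ k)))
    simp only [LinearMap.map_smulₛₗ, LinearMap.smul_apply, h0, smul_eq_mul, mul_one,
      map_eq_zero] at this
    simp [this] at hw0
  refine isMaximalIn_of inf_le_right ?_ fun M hH hM g hg hg' => ?_
  · obtain ⟨w, h1, h2, h3⟩ := hw v hv0
    obtain ⟨g, hg, hf⟩ := exists_eich S.ndQ S.five (S.Q_zero.2 hv) (S.B_zero h2)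
    refine ⟨g, hg, fun ⟨⟨τ, hτ⟩, _⟩ => h3 (S.mem_KP_of_perp hv0 fun y hy => S.C_zero fun k => ?_)⟩
    have h4 : ∀ y, C v y = 0 → g y = y - pB Q w y • v := fun y hy => by
      simp [hf, eF, S.B_zero hy]
    have h5 : τ = 1 := aut_unique hv0 (fun k => hτ k v) fun k => by
      simp [h4 _ hv, h4 (k • v) (by simp [hv]), S.B_zero (S.zero_symm h2),
        S.B_zero (show C w (k • v) = 0 by simp [S.zero_symm h2])]
    obtain ⟨ω, hω⟩ := S.exists_ne
    have h6 := hτ ω (k • y)
    rw [h4 _ (by simp [hy]), h4 _ (by simp [hy]), h5, AlgEquiv.one_apply, smul_sub, sub_right_inj,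
      ← algebraMap_smul K, ← algebraMap_smul K (pB Q w (k • y)), smul_smul ω (algebraMap F K _)] at h6
    have h7 := smul_left_cancel' hv0 h6
    have h8 := congrArg σ h7
    rw [S.σ_alg, map_mul, S.σ_alg, h7] at h8
    by_contra h9
    exact hω (mul_right_cancel₀ (by simpa using h9) h8).symm
  by_contra hne
  have hM' := hM.trans OM_le
  have hpt : ∀ u, C u u = 0 → ∀ k : K, g (k • u) ∈ KP F K (g u) := fun u hu k => by
    by_cases hu0 : u = 0
    · simp [hu0]
    obtain ⟨h, h1, h3⟩ := S.su_trans hu0 (w := g u) (by simpa using hu0)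
      (hu.trans (S.Q_zero.1 (by rw [hM' hg]; exact S.Q_zero.2 hu)).symm)
    have h4 := S.fix_le hH hM' hne hu0 hu (x := (h.restrictScalars F)⁻¹ * g)
      ⟨mul_mem (inv_mem (hH (S.gg_le h1))) hg, by
        rw [le_mul_apply, ← h3]; exact le_inv_apply (h.restrictScalars F) u⟩
    obtain ⟨c, hc⟩ := mem_KP.1 (stab_apply h4 (smul_mem_KP u k))
    refine mem_KP.2 ⟨c, ?_⟩
    rw [← h3, ← map_smul, hc]
    exact le_apply_inv (h.restrictScalars F) _
  have key : ∀ u, u ≠ 0 → C u u = 0 → SL1 K g u := fun u hu0 hu => by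
    obtain ⟨w, h1, h2, h3⟩ := hw u hu0
    exact sl1_of_points hu0 h3 fun a b => hpt _ (by simp [hu, h1, h2, S.zero_symm h2])
  obtain ⟨τ, hτ⟩ := key v hv0 hv
  refine hg' ⟨mem_GamK_of_span (σ := τ) (S := {u | u = v ∨ (C u u = 0 ∧ C v u ≠ 0)})
    (fun W hW => top_of_iso S.toSkH hv0 hv (hW (Or.inl rfl)) fun u h1 h2 => hW (Or.inr ⟨h1, h2⟩))
    ?_, hM hg⟩
  rintro u (rfl | ⟨h1, h2⟩)
  · exact hτ
  obtain ⟨τ', hτ'⟩ := key u (by rintro rfl; simp at h2) h1
  rwa [← aut_eq_of_form (B := fun x y => pB Q x y) (C := η • C) S.σ_aut S.tr2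
    (OG_pB (hM' hg)) hτ hτ' (mul_ne_zero S.ne0 h2)]

end UO

theorem norm_form [Nontrivial V] {Q : QuadraticForm F V} (hQ : ND Q) (hr : finrank F K = 2)
    {τ : K ≃ₐ[F] K} (hτ1 : τ ≠ 1) (hτ : ∀ (k : K) x y, pB Q (k • x) y = pB Q x (τ k • y))
    (hsc : ∀ k : K, ∃ c : F, ∀ v, Q (k • v) = c * Q v) (k : K) (x : V) :
    pB Q x (k • x) = Algebra.trace F K k * Q x := by
  choose c hc using hsc
  obtain ⟨v, hv⟩ := exists_ne (0 : V)
  have key : ∀ k, algebraMap F K (c k) = τ k * k := fun k =>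
    smul_left_cancel' hv (sub_eq_zero.1 (hQ _ fun y => by
      have h1 := hc k (y + v)
      rw [smul_add, Qadd, Qadd, hc, hc, hτ, smul_smul] at h1
      rw [← pB_eq, pB_comm, map_sub, algebraMap_smul, map_smul, smul_eq_mul]
      linear_combination -h1))
  have h1 := hc (1 + k) x
  rw [add_smul, one_smul, Qadd, hc] at h1
  have h2 : Algebra.trace F K k = c (1 + k) - 1 - c k := (algebraMap F K).injective (by
    rw [trace_two hr hτ1, map_sub, map_sub, key, key, map_add, map_one, map_one]; ring)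
  rw [h2]; linear_combination h1

theorem isMaximalIn_gu_o {F : Type*} [Field F] [Fintype F] {ι : Type} [Fintype ι] [DecidableEq ι]
    (hn : 10 ≤ Fintype.card ι) {Q : (ι → F) → F} (hQ : IsNondegenerateQuadraticForm Q)
    {K : Subalgebra F (Matrix ι ι F)} (hK : IsFieldSubalgebra 2 K)
    (hac : IsAdjointClosedFor (QuadraticMap.polar Q) K)
    (hnsa : ¬ IsSelfAdjointFor (QuadraticMap.polar Q) K)
    (hsc : ∀ k ∈ K, ∃ c : F, ∀ v, Q (Matrix.mulVec k v) = c * Q v) :
    IsMaximalIn (omegaGL Q) (subalgebraNormalizer K ⊓ omegaGL Q) := by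
  haveI : Nonempty ι := Fintype.card_pos_iff.1 (by omega)
  obtain ⟨Q, rfl, hnd⟩ := exists_qf hQ
  haveI : Fintype (KF hK) := Fintype.ofFinite _
  have hr := KF.finrank_eq hK
  haveI := Fact.mk (card_sq_of_two hr)
  obtain ⟨τ, hτ⟩ := exists_adj_aut (K := KF hK) (B := pB Q)
    (fun y hy => hnd y fun x => pB_zero (hy x)) fun k => by
      obtain ⟨k', h1, h2⟩ := hac _ (KF.mat_mem hK k)
      obtain ⟨k', rfl⟩ := KF.exists_mat hK h1
      exact ⟨k', h2⟩
  have hτ1 : τ ≠ 1 := by
    rintro rfl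
    refine hnsa fun k hk x y => ?_
    obtain ⟨k, rfl⟩ := KF.exists_mat hK hk
    exact hτ k x y
  have hc := aut_eq_cj hr hτ1
  obtain ⟨C, hC⟩ := exists_traceForm (pB Q) (H10.cj (KF hK) (Fintype.card F))
    fun k x y => by rw [hτ, hc]
  have hdim := finrank_KF_mul hK
  obtain ⟨ζ, h0, hζ⟩ := H10.exists_skew (KF hK) (Fintype.card F)
  have hh : ∀ x y, C y x = H10.cj _ (Fintype.card F) (C x y) := fun x y =>
    eq_of_trace (F := F) fun k => by
      rw [mul_comm, ← smul_eq_mul, ← map_smul, ← hC, pB_comm, hτ, hC, map_smul, ← hc,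
        ← trace_aut τ, smul_eq_mul, map_mul, aut_aut_two hr, mul_comm]
  have S : UO (ζ • C) Q ζ⁻¹ :=
    { toUH := uH_of (fun x y => by simp [hh x y, hζ])
        (fun x hx => hnd x fun y => by
          have : C x y = 0 := by simpa [h0] using hx y
          rw [← pB_eq, hC, this, map_zero]) (by omega)
      two := hr
      aut := ⟨τ, hτ1, hc⟩
      trB := fun x y => by simp [hC, h0]
      hQ := fun x => by
        rw [LinearMap.smul_apply, LinearMap.smul_apply, smul_eq_mul, inv_mul_cancel_left₀ h0]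
        refine eq_of_trace (F := F) fun k => ?_
        rw [mul_comm (C x x), ← smul_eq_mul k, ← map_smul, ← hC, norm_form hnd hr hτ1 hτ
          (fun k => hsc _ (KF.mat_mem hK k)), ← Algebra.smul_def, map_smul, smul_eq_mul, mul_comm]
      ne0 := inv_ne_zero h0
      sk := by rw [map_inv₀, hζ, inv_neg]
      dim := by omega }
  have h := isMaximalIn_comap (toLE _ F) S.isMaximalIn
  rwa [Subgroup.comap_inf, comap_GamK, comap_OM] at h

end Cfsg.Agent.H98
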