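import Cfsg.Agent.H98.ExtForm

/-! Maximality of `GU_m(q).2` in `Sp_{2m}(q)`, `q` odd, `m ≥ 3`. -/

set_option autoImplicit false
set_option linter.unusedSectionVars false
set_option linter.unusedVariables false
set_option linter.unusedSimpArgs false
set_option linter.style.haveILetI false

namespace Cfsg.Agent.H98

open Module Cfsg.Agent.H27 Cfsg.Geo

variable {F K V : Type*} [Field F] [Field K] [Algebra F K] [Finite K] [AddCommGroup V]
  [Module F V] [Module K V] [IsScalarTower F K V] [Finite V] {σ : K →+* K}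

variable (F) in
/-- A skew-Hermitian form over a quadratic extension of `F`. -/
structure UX (C : V →ₛₗ[σ] V →ₗ[K] K) : Prop extends UH C where
  two : finrank F K = 2
  aut : ∃ τ : K ≃ₐ[F] K, τ ≠ 1 ∧ ∀ x, τ x = σ x

/-- The elements `x ↦ x + (s χ x + t σ (χ x)) v` of `M`. -/
def lv2 (σ : K →+* K) (M : Subgroup (V ≃ₗ[F] V)) {χ : V →ₗ[K] K} {v : V} (hv : χ v = 0) :
    AddSubgroup (K × K) where
  carrier := {a | Has M fun x => x + (a.1 * χ x + a.2 * σ (χ x)) • v}
  zero_mem' := (has_id M).congr fun x => by simp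
  add_mem' ha hb := (Has.comp ha hb).congr fun x => by
    simp only [map_add, map_smul, hv, smul_zero, add_zero, Prod.fst_add, Prod.snd_add]; module
  neg_mem' ha := Has.inv ha fun x => by
    simp only [map_add, map_smul, hv, smul_zero, add_zero, Prod.fst_neg, Prod.snd_neg]; module

namespace UX

variable {C : V →ₛₗ[σ] V →ₗ[K] K} (S : UX F C)
include S

theorem prime : (finrank F K).Prime := S.two ▸ Nat.prime_two

theorem trc (x : K) : algebraMap F K (Algebra.trace F K x) = x + σ x := by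
  obtain ⟨τ, h1, h2⟩ := S.aut
  rw [trace_two S.two h1, h2]

theorem tr_σ (x : K) : Algebra.trace F K (σ x) = Algebra.trace F K x := by
  obtain ⟨τ, h1, h2⟩ := S.aut
  rw [← h2, trace_aut]

theorem fixed {x : K} (h : σ x = x) : ∃ c : F, algebraMap F K c = x := by
  obtain ⟨τ, h1, h2⟩ := S.aut
  exact mem_range_of_fixed S.prime h1 (by rw [h2, h])

theorem σ_alg (c : F) : σ (algebraMap F K c) = algebraMap F K c := by
  obtain ⟨τ, h1, h2⟩ := S.aut
  rw [← h2, AlgEquiv.commutes]

theorem σ_aut (ρ : K ≃ₐ[F] K) (x : K) : σ (ρ x) = ρ (σ x) := by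
  obtain ⟨τ, h1, h2⟩ := S.aut
  rcases gal_two S.two h1 ρ with rfl | rfl
  · rfl
  · rw [h2, h2]

theorem span {ω : K} (hω : σ ω ≠ ω) (k : K) :
    ∃ a b : F, k = algebraMap F K a + algebraMap F K b * ω := by
  obtain ⟨τ, h1, h2⟩ := S.aut
  exact span_two S.two h1 (by rwa [h2]) k

theorem mem_map {ω : K} (hω : σ ω ≠ ω) {g : V ≃ₗ[F] V} {v y : V} :
    y ∈ (KP F K v).map (g : V →ₗ[F] V) ↔ ∃ a b : F, a • g v + b • g (ω • v) = y := by
  obtain ⟨τ, h1, h2⟩ := S.aut
  exact map_KP_two S.two h1 (by rwa [h2])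

theorem exists_ab (α : Module.End F K) : ∃ a b, ∀ x, α x = a * x + b * σ x := by
  obtain ⟨τ, h1, h2⟩ := S.aut
  exact ⟨co α 1, co α τ, fun x => by rw [← sum_co α x, sum_gal_two S.two h1, h2]; rfl⟩

theorem sl1_of_ab {g : V ≃ₗ[F] V} {v : V} {a b : K} (h : ∀ k, g (k • v) = (a * k + b * σ k) • v)
    (hab : a * b = 0) : SL1 K g v := by
  obtain ⟨τ, h1, h2⟩ := S.aut
  have h3 : g v = (a + b) • v := by simpa using h 1
  rcases mul_eq_zero.1 hab with rfl | rfl
  · exact ⟨τ, fun k => by rw [h, h3, h2]; module⟩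
  · exact ⟨1, fun k => by rw [h, h3, AlgEquiv.one_apply]; module⟩

theorem C_smul (c : F) (x y : V) : C (c • x) y = algebraMap F K c * C x y := by
  rw [← algebraMap_smul K, LinearMap.map_smulₛₗ, S.σ_alg]; rfl

theorem exists_one {v : V} (hv : v ≠ 0) : ∃ x, C v x = 1 := by
  obtain ⟨y, hy⟩ := not_forall.1 fun h => hv (S.nd v h)
  exact ⟨(C v y)⁻¹ • y, by rw [map_smul, smul_eq_mul, inv_mul_cancel₀ hy]⟩

theorem exists_perp (hm : 3 ≤ finrank K V) (v : V) : ∃ u, C v u = 0 ∧ u ∉ KP F K v := by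
  obtain ⟨x, -, h1, h3⟩ := exists_ker_list [C v] (W := ⊤) (S := Submodule.span K {v}) (by
    have := finrank_span_single_le (F := K) v
    rw [finrank_top]; simp; omega)
  exact ⟨x, h1 _ (by simp), h3⟩

end UX

/-- `B` is the trace of the skew-Hermitian form `C`. -/
structure USp (C : V →ₛₗ[σ] V →ₗ[K] K) (B : V →ₗ[F] V →ₗ[F] F) : Prop extends UX F C where
  trB : ∀ x y, B x y = Algebra.trace F K (C x y)
  odd : (2 : K) ≠ 0

namespace USp

variable {C : V →ₛₗ[σ] V →ₗ[K] K} {B : V →ₗ[F] V →ₗ[F] F} (S : USp C B)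
  {M : Subgroup (V ≃ₗ[F] V)}
include S

theorem tr1 (k : K) (x y : V) : B (k • x) y = Algebra.trace F K (σ k * C x y) := by
  rw [S.trB, LinearMap.map_smulₛₗ, LinearMap.smul_apply, smul_eq_mul]

theorem tr2 (k : K) (x y : V) : B x (k • y) = Algebra.trace F K (k * C x y) := by
  rw [S.trB, map_smul, smul_eq_mul]

theorem altB (x : V) : B x x = 0 := (algebraMap F K).injective (by
  rw [S.trB, S.trc, S.norm_skew, add_neg_cancel, map_zero])

theorem ndB (x : V) (h : ∀ y, B x y = 0) : x = 0 :=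
  S.nd x fun y => eq_zero_of_trace (F := F) fun k => by rw [mul_comm, ← S.tr2, h]

theorem iso {h : V ≃ₗ[K] V} (hh : h ∈ Iso C) : h.restrictScalars F ∈ GamK K ⊓ Iso B :=
  ⟨restrict_mem_GamK h, fun x y => by rw [S.trB, S.trB]; exact congrArg _ (hh x y)⟩

theorem lv_conj {v : V} (hv : C v v = 0) {e : V ≃ₗ[F] V} (he : e ∈ M) (hi : e ∈ Iso B) {a b : K}
    (h1 : ∀ k, e (k • v) = (a * k + b * σ k) • v) {s t : K} (h : (s, t) ∈ lv2 σ M hv) :
    (a * s * σ a + a * t * σ b + b * σ s * σ b + b * σ t * σ a,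
      a * s * b + a * t * a + b * σ s * a + b * σ t * b) ∈ lv2 σ M hv :=
  (Has.conj h he).congr fun x => by
    have h2 : C v (e⁻¹ x) = σ a * C v x + b * σ (C v x) := eq_of_trace (F := F) fun k => by
      have := hi (σ k • v) (e⁻¹ x)
      rw [le_apply_inv, h1, S.tr1, S.tr1, S.inv, map_add σ, map_mul σ, map_mul σ, S.inv,
        add_mul, map_add, ← S.tr_σ (σ b * _ * _), map_mul σ, map_mul σ, S.inv, S.inv] at this
      rw [mul_comm, ← this, add_mul, map_add]
      congr 2 <;> ring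
    simp only [map_add, le_apply_inv, h1, h2, map_mul, S.inv]
    module

theorem lv_F (hH : GamK K ⊓ Iso B ≤ M) {v : V} (hv : C v v = 0) {c : K} (hc : σ c = c) :
    (c, 0) ∈ lv2 σ M hv := by
  obtain ⟨g, hg, hf⟩ := S.exists_tvS hv hc
  exact ⟨_, hH (S.iso hg.1), fun x => by simpa using hf x⟩

theorem not_as (hm : 2 ≤ finrank K V) (hH : GamK K ⊓ Iso B ≤ M) (hne : ¬ Iso B ≤ M) {v : V}
    (hv0 : v ≠ 0) (hv : C v v = 0) : ¬ AS B M v := by
  intro h
  have T := skH_alt S.altB S.ndB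
  have key : ∀ u, C u u = 0 → AS B M u := fun u hu => by
    by_cases h0 : u = 0
    · rw [h0]; exact as_zero
    obtain ⟨g, h1, rfl⟩ := iso_trans S.toSkH hv0 h0 (hv.trans hu.symm)
    exact h.conj (hH (S.iso h1)) (S.iso h1).2
  refine hne (iso_le_of_alt S.altB S.ndB M fun w c => (?_ : AS B M w).2 c rfl)
  by_cases hw : C w w = 0
  · exact key w hw
  obtain ⟨u, h1, h2⟩ := exists_iso_ne' S.toUH hm (w := w) (by rintro rfl; simp at hw)
  have h3 : C (σ ((C w w / 2 + 1) / C u w) • u) w = C w w / 2 + 1 := by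
    rw [LinearMap.map_smulₛₗ, S.inv, LinearMap.smul_apply, smul_eq_mul, div_mul_cancel₀ _ h2]
  have h4 : C (σ ((C w w / 2 + 1) / C u w) • u) (σ ((C w w / 2 + 1) / C u w) • u) = 0 := by
    simp [h1]
  generalize σ ((C w w / 2 + 1) / C u w) • u = u' at h3 h4
  have h5 := S.odd
  have := T.as_add (key u' h4) (key (w - u') (by
    simp only [map_sub, LinearMap.sub_apply, S.skew u' w, h3, h4, map_add, map_div₀, map_ofNat,
      S.norm_skew, map_one]
    field_simp; ring)) (fun h6 => h5 (by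
      have := congrArg (algebraMap F K) h6
      rw [S.trB, S.trc, map_sub, h3, h4, sub_zero, map_add, map_div₀, S.norm_skew, map_ofNat,
        map_one, map_zero] at this
      linear_combination this)) (S.altB _)
  rwa [sub_add_cancel] at this

theorem sl1 (hm : 2 ≤ finrank K V) (hH : GamK K ⊓ Iso B ≤ M) (hM : M ≤ Iso B)
    (hne : ¬ Iso B ≤ M) {v : V} (hv0 : v ≠ 0) (hv : C v v = 0) :
    ∀ g ∈ M, g ∈ stab (KP F K v) → SL1 K g v := by
  intro g hg hg'
  obtain ⟨g₁, -, h1, -⟩ := exists_coord hv0 hg'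
  obtain ⟨a, b, hab⟩ := S.exists_ab g₁
  simp only [hab] at h1
  refine S.sl1_of_ab h1 (by_contra fun h2 => S.not_as hm hH hne hv0 hv ⟨S.altB v, fun c _ => ?_⟩)
  have h3 : (0, 2 * (a * b)) ∈ lv2 σ M hv := by
    convert sub_mem (S.lv_conj hv hg (hM hg) h1 (S.lv_F hH hv (map_one σ)))
      (S.lv_F hH hv (c := a * σ a + b * σ b) (by simp [S.inv, mul_comm])) using 1
    simp; ring
  let T : Subring K :=
    { carrier := {k | ∀ t, (0, t) ∈ lv2 σ M hv → (0, k * t) ∈ lv2 σ M hv}
      mul_mem' := fun ha hb t ht => by rw [mul_assoc]; exact ha _ (hb t ht)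
      one_mem' := fun t ht => by rwa [one_mul]
      add_mem' := fun ha hb t ht => by simpa [add_mul] using add_mem (ha t ht) (hb t ht)
      zero_mem' := fun t ht => by rw [zero_mul]; exact zero_mem _
      neg_mem' := fun ha t ht => by simpa using neg_mem (ha t ht) }
  have h4 := subring_eq_top_of_sq (S := T) (fun l t ht => by
    by_cases hl : l = 0
    · rw [hl, zero_mul, zero_mul]; exact zero_mem _
    obtain ⟨d, h5, h6⟩ := iso_trans S.toSkH hv0 (smul_ne_zero hl hv0) (by simp [hv])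
    convert S.lv_conj hv (hH (S.iso h5)) (S.iso h5).2 (a := l) (b := 0) (fun k => by
      change d (k • v) = _
      rw [map_smul, h6]; module) ht using 2 <;> simp
    ring) (algebraMap F K c / (2 * (a * b))) _ h3
  rw [div_mul_cancel₀ _ (mul_ne_zero S.odd h2)] at h4
  refine Has.congr (add_mem (S.lv_F hH hv (S.σ_alg c)) h4) fun x => ?_
  rw [LinearMap.smul_apply, S.trB, smul_eq_mul, ← algebraMap_smul K (c * _), map_mul, S.trc]
  simp [mul_add]

theorem fix_le [Fintype F] (hm : 3 ≤ finrank K V) (hH : GamK K ⊓ Iso B ≤ M) (hM : M ≤ Iso B)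
    (hne : ¬ Iso B ≤ M) {v : V} (hv0 : v ≠ 0) (hv : C v v = 0) :
    fixV M v ≤ stab (KP F K v) := by
  have hs := S.sl1 (by omega) hH hM hne hv0 hv
  obtain ⟨u, hu, hu'⟩ := S.exists_perp hm v
  obtain ⟨ω, hω⟩ := S.exists_ne
  have h2 := S.odd
  choose ε hε hε' using fun a : F × F => S.exists_E (u := v) (v := a.1 • u)
    (t := algebraMap F K a.1 ^ 2 * C u u / 2 + algebraMap F K a.2) hv
    (by rw [LinearMap.map_smul_of_tower, hu, smul_zero]) (by
      simp only [map_add, map_div₀, map_mul, map_pow, S.σ_alg, S.norm_skew, map_ofNat, S.C_smul,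
        LinearMap.map_smul_of_tower, Algebra.smul_def]
      field_simp; ring)
  have he : ∀ a z, ε a z = z + (algebraMap F K a.1 * C v z) • u + (algebraMap F K a.1 * C u z +
      (algebraMap F K a.1 ^ 2 * C u u / 2 + algebraMap F K a.2) * C v z) • v := fun a z => by
    rw [hε', S.C_smul, ← algebraMap_smul K a.1 u, smul_smul, mul_comm (C v z)]
  have hf : ∀ a (k : K), ε a (k • v) = k • v := fun a k => by
    simp [he, hv, S.zero_symm hu]
  refine le_stab_of_free (ε := fun a => (ε a).restrictScalars F) hv0 (fun g hg => hg.2)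
    (fun g hg => hs g hg.1) (fun a b => LinearEquiv.ext fun z => ?_)
    (fun a => ⟨hH (S.iso (hε a).1), by simpa using hf a 1⟩)
    (fun a => stab_of_fix fun k => mem_KP.2 ⟨k, (hf a k).symm⟩) (fun g hg hg' a ha => ?_)
    fun φ ψ y y' => ?_
  · change ε (a + b) z = ε a (ε b z)
    simp only [he, map_add, map_smul, hv, hu, S.zero_symm hu, Prod.fst_add, Prod.snd_add,
      smul_eq_mul]
    match_scalars <;> field_simp <;> ring
  · set y := g (ω • v) with hy
    have hY : ∀ z, z ∈ (KP F K v).map (g : V →ₗ[F] V) ↔ ∃ a b : F, a • v + b • y = z :=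
      fun z => by rw [S.mem_map hω, hg.2]
    have hyY := (hY y).2 ⟨0, 1, by simp⟩
    have hyX : y ∉ KP F K v := fun h => hg' (stab_of_fix fun k => by
      obtain ⟨a, b, hab⟩ := (hY _).1 (mem_map_KP.2 ⟨k, rfl⟩)
      rw [← hab]
      exact add_mem (Submodule.smul_mem _ _ (self_mem_KP v)) (Submodule.smul_mem _ _ h))
    have h3 : C v y ≠ 0 := fun h3 => by
      obtain ⟨h, h4, h5, h6⟩ := iso_step S.toSkH (v := v) (y := y) (y' := y + v) hyX
        (fun h => hyX (by simpa [KP] using sub_mem h (Submodule.mem_span_singleton_self v)))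
        (by simp [hv]) (by simp [hv, h3, S.zero_symm h3])
      have h7 : ∀ a b : F, h (a • v + b • y) = (a + b) • v + b • y := fun a b => by
        rw [map_add, ← algebraMap_smul K a, ← algebraMap_smul K b, map_smul, map_smul, h5, h6]
        simp only [algebraMap_smul]; module
      have := fix_of_quad S.prime (fun _ => h2) hv0 hs hg.1 (hH (S.iso h4)) (by rw [hg.2]; exact h5)
        (H27.mem_stab_of_mapsTo fun z hz => by
          obtain ⟨a, b, rfl⟩ := (hY z).1 hz
          exact (hY _).2 ⟨_, _, (h7 a b).symm⟩) (fun z hz => by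
          obtain ⟨a, b, rfl⟩ := (hY z).1 hz
          change h (h _) - h _ = h _ - _
          rw [h7, h7]; module) y hyY
      exact hv0 (add_eq_left.1 (h6.symm.trans this))
    have h4 : σ (C v y) = -C v y := by
      have := hM hg.1 v (ω • v)
      rw [hg.2, S.tr2, hv, mul_zero, map_zero, S.trB] at this
      have h5 := S.trc (C v y)
      rw [this, map_zero] at h5
      linear_combination -h5
    obtain ⟨α, β, h5⟩ := (hY _).1 (sub_mem (stab_apply ha hyY) hyY)
    change _ = ε a y - y at h5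
    rw [he, add_assoc, add_sub_cancel_left] at h5
    have h6 : β = 0 := by simpa [hv, hu, h3] using congrArg (C v) h5
    have h7 : a.1 = 0 := by
      by_contra h7
      have h8 : algebraMap F K a.1 * C v y ≠ 0 := mul_ne_zero (by simpa using h7) h3
      rw [h6, zero_smul, add_zero, ← sub_eq_iff_eq_add, ← algebraMap_smul K, ← sub_smul,
        ← inv_smul_eq_iff₀ h8, smul_smul] at h5
      exact hu' (mem_KP.2 ⟨_, h5⟩)
    simp only [h6, h7, map_zero, zero_mul, zero_smul, zero_add, add_zero, ne_eq,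
      OfNat.ofNat_ne_zero, not_false_eq_true, zero_pow, zero_div] at h5
    have h8 := smul_left_cancel' hv0 ((algebraMap_smul K α v).trans h5)
    have h9 := S.σ_alg α
    rw [h8, map_mul, S.σ_alg, h4] at h9
    have h10 : 2 * (algebraMap F K a.2 * C v y) = 0 := by linear_combination -h9
    exact Prod.ext h7 (by simpa [h2, h3] using h10)
  · have h3 : ∀ (s c : F) z, ε (s, c) z = ε (s, 0) z + c • C v z • v := fun s c z => by
      rw [he, he, ← algebraMap_smul K c]; simp only [map_zero]; module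
    have h4 := FiniteField.sum_pow_lt_card_sub_one F 1 (by
      have := three_le_card (F := F) h2; omega)
    simp only [pow_one] at h4
    rw [Fintype.sum_prod_type]
    have h5 : ∀ s : F, ∑ c : F, φ (ε (s, c) y) * ψ (ε (s, c) y') =
        φ (C v y • v) * ψ (C v y' • v) * ∑ c : F, c ^ 2 := fun s => by
      have : ∀ c : F, φ (ε (s, c) y) * ψ (ε (s, c) y') = φ (ε (s, 0) y) * ψ (ε (s, 0) y') +
          (φ (ε (s, 0) y) * ψ (C v y' • v) + φ (C v y • v) * ψ (ε (s, 0) y')) * c +
          φ (C v y • v) * ψ (C v y' • v) * c ^ 2 := fun c => by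
        rw [h3 s c, h3 s c]; simp only [map_add, map_smul, smul_eq_mul]; ring
      rw [Finset.sum_congr rfl fun c _ => this c, Finset.sum_add_distrib, Finset.sum_add_distrib,
        ← Finset.mul_sum _ (fun c : F => c), ← Finset.mul_sum _ (fun c : F => c ^ 2), h4]
      simp
    change ∑ s : F, ∑ c : F, φ (ε (s, c) y) * ψ (ε (s, c) y') = 0
    simp [h5]

theorem iso_apply [Fintype F] (hm : 3 ≤ finrank K V) (hH : GamK K ⊓ Iso B ≤ M) (hM : M ≤ Iso B)
    (hne : ¬ Iso B ≤ M) {v : V} (hv0 : v ≠ 0) (hv : C v v = 0) {g : V ≃ₗ[F] V} (hg : g ∈ M) :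
    C (g v) (g v) = 0 := by
  by_contra hw
  have h2 := S.odd
  obtain ⟨ω, hω⟩ := S.exists_ne
  have hvY : g v ∈ (KP F K v).map (g : V →ₗ[F] V) := ⟨v, self_mem_KP v, rfl⟩
  have hti : ∀ y ∈ (KP F K v).map (g : V →ₗ[F] V), B (g v) y = 0 := fun y hy => by
    obtain ⟨k, rfl⟩ := mem_map_KP.1 hy
    rw [hM hg, S.tr2, hv, mul_zero, map_zero]
  have hne' : ∀ y, y ≠ 0 → ¬ ∀ k : K, k • y ∈ (KP F K v).map (g : V →ₗ[F] V) := fun y hy h => by
    rw [map_KP_eq hv0 hy h] at hvY hti
    refine hw (eq_zero_of_trace (F := F) fun k => ?_)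
    rw [mul_comm, ← S.tr2]
    exact hti _ (KP_smul hvY k)
  obtain ⟨y, hy, hyw⟩ : ∃ y ∈ (KP F K v).map (g : V →ₗ[F] V), y ∉ KP F K (g v) := by
    by_contra hc
    push Not at hc
    refine hne' (g v) (by simpa using hv0) fun k => ?_
    rw [Submodule.eq_of_le_of_finrank_le hc
      (by rw [finrank_map_KP hv0, finrank_KP (by simpa using hv0)])]
    exact smul_mem_KP _ _
  set w := g v with hwdef
  set y' := y - (C w y / C w w) • w with hy'
  have h3 : C w y' = 0 := by simp [hy', div_mul_cancel₀ _ hw]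
  have h4 : y' ∉ KP F K w := fun h => hyw (by
    simpa [hy'] using add_mem h (smul_mem_KP w (C w y / C w w)))
  have key : ∀ l : K, l * σ l = 1 → (l - 1) • y' ∈ (KP F K v).map (g : V →ₗ[F] V) := by
    intro l hl
    have hl0 : l ≠ 0 := by rintro rfl; simp at hl
    obtain ⟨h, h5, h6, h7⟩ := iso_step S.toSkH (v := w) (y := y') (y' := l • y') h4
      (fun h => h4 ((Submodule.smul_mem_iff (Submodule.span K {w}) hl0).1 h)) (by simp [h3]) (by
        simp only [LinearMap.map_smulₛₗ, LinearMap.smul_apply, smul_eq_mul, RingHom.id_apply]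
        linear_combination -C y' y' * hl)
    have h8 := S.fix_le hm hH hM hne hv0 hv (x := g⁻¹ * h.restrictScalars F * g)
      ⟨mul_mem (mul_mem (inv_mem hg) (hH (S.iso h5))) hg, by
        change g⁻¹ (h w) = v
        rw [h6, le_inv_apply]⟩
    obtain ⟨x, hx, rfl⟩ := hy
    have h9 : h (g x) ∈ (KP F K v).map (g : V →ₗ[F] V) :=
      ⟨_, stab_apply h8 hx, le_apply_inv g _⟩
    convert sub_mem h9 ⟨x, hx, rfl⟩ using 1
    have : (g : V →ₗ[F] V) x = y' + (C w ((g : V →ₗ[F] V) x) / C w w) • w := by simp [hy']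
    change _ = h ((g : V →ₗ[F] V) x) - _
    rw [this, map_add, map_smul, h6, h7]; module
  have hd : σ (ω - σ ω) = -(ω - σ ω) := by rw [map_sub, S.inv]; ring
  have hd0 : ω - σ ω ≠ 0 := sub_ne_zero.2 hω.symm
  generalize ω - σ ω = δ at hd hd0
  have h5 : 1 + δ ≠ 0 := fun h => h2 (by
    rw [eq_neg_of_add_eq_zero_right h, map_neg, map_one] at hd; linear_combination -hd)
  have h6 : 1 - δ ≠ 0 := fun h => h2 (by
    rw [← sub_eq_zero.1 h, map_one] at hd; linear_combination hd)
  have h7 : σ ((1 - δ) / (1 + δ)) = (1 + δ) / (1 - δ) := by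
    rw [map_div₀, map_sub, map_add, hd, map_one]; ring
  have h8 := key (-1) (by simp)
  have h9 := key ((1 - δ) / (1 + δ)) (by rw [h7]; field_simp)
  refine hne' y' (fun h => h4 (h ▸ zero_mem _)) fun k => ?_
  obtain ⟨a, b, hab⟩ := S.span (ω := ((1 - δ) / (1 + δ) - 1) / (-1 - 1)) (fun h => by
    rw [map_div₀, map_sub, map_sub, h7, map_neg, map_one, div_left_inj' (fun h => h2 (by
      linear_combination -h)), sub_left_inj, div_eq_div_iff h6 h5] at h
    exact mul_ne_zero (mul_ne_zero h2 h2) hd0 (by linear_combination h)) (k / (-1 - 1))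
  have h10 : (-1 - 1 : K) ≠ 0 := fun h => h2 (by linear_combination -h)
  convert add_mem (Submodule.smul_mem _ a h8) (Submodule.smul_mem _ b h9) using 1
  rw [div_eq_iff h10] at hab
  rw [hab, ← algebraMap_smul K a, ← algebraMap_smul K b, smul_smul, smul_smul, ← add_smul]
  congr 1
  field_simp

theorem isMaximalIn [Fintype F] (hm : 3 ≤ finrank K V) :
    IsMaximalIn (Iso B) (GamK K ⊓ Iso B) := by
  haveI : Nontrivial V := Module.nontrivial_of_finrank_pos (R := K) (by omega)
  obtain ⟨w, hw⟩ := exists_ne (0 : V)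
  obtain ⟨v, hv, hv0⟩ := exists_iso_ne' S.toUH (by omega) hw
  replace hv0 : v ≠ 0 := by rintro rfl; simp at hv0
  refine isMaximalIn_of inf_le_right ?_ fun M hH hM g hg hg' => ?_
  · obtain ⟨x₀, h0⟩ := S.exists_one hv0
    obtain ⟨g, hg, hf⟩ := (skH_alt S.altB S.ndB).exists_tvS (S.altB v) (c := 1) rfl
    exact ⟨g, hg.1, fun h => tv_not_mem_GamK S.prime hv0 hv h0
      (fun x => by rw [hf, one_smul, S.trB]) h.1⟩
  by_contra hne
  have key : ∀ u, u ≠ 0 → C u u = 0 → SL1 K g u := fun u hu0 hu => by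
    obtain ⟨h, h1, h3⟩ := iso_trans S.toSkH hu0 (w := g u) (by simpa using hu0)
      (hu.trans (S.iso_apply hm hH hM hne hu0 hu hg).symm)
    exact sl1_of_trans (S.fix_le hm hH hM hne hu0 hu) (S.sl1 (by omega) hH hM hne hu0 hu) hg
      (hH (S.iso h1)) (S.iso h1).1 h3
  obtain ⟨τ, hτ⟩ := key v hv0 hv
  refine hg' ⟨mem_GamK_of_span (σ := τ) (S := {u | u = v ∨ (C u u = 0 ∧ C v u ≠ 0)})
    (fun W hW => top_of_iso S.toSkH hv0 hv (hW (Or.inl rfl)) fun u h1 h2 => hW (Or.inr ⟨h1, h2⟩))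
    ?_, hM hg⟩
  rintro u (rfl | ⟨h1, h2⟩)
  · exact hτ
  obtain ⟨τ', hτ'⟩ := key u (by rintro rfl; simp at h2) h1
  rwa [← aut_eq_of_form (B := fun x y => B x y) S.σ_aut S.tr2 (hM hg) hτ hτ' h2]

end USp

/-- The matrix form of the maximality of `GU_m(q).2` in `Sp_{2m}(q)`. -/
theorem isMaximalIn_gu_sp {F : Type*} [Field F] [Fintype F] {m : ℕ} (hm : 3 ≤ m)
    (hodd : Odd (Fintype.card F)) {K : Subalgebra F (Matrix (Fin m ⊕ Fin m) (Fin m ⊕ Fin m) F)}
    (hK : IsFieldSubalgebra 2 K) (hac : IsAdjointClosedFor (Cfsg.sympForm m F) K)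
    (hnsa : ¬ IsSelfAdjointFor (Cfsg.sympForm m F) K) :
    IsMaximalIn (Cfsg.spGL m F) (subalgebraNormalizer K ⊓ Cfsg.spGL m F) := by
  haveI : Nonempty (Fin m) := ⟨⟨0, by omega⟩⟩
  haveI : Fintype (KF hK) := Fintype.ofFinite _
  have hr := KF.finrank_eq hK
  haveI := Fact.mk (card_sq_of_two hr)
  obtain ⟨τ, hτ⟩ := exists_adj_aut (K := KF hK) (B := sympBilin m F) sympBilin_nondegenerate.2
    fun k => by
      obtain ⟨k', h1, h2⟩ := hac _ (KF.mat_mem hK k)
      obtain ⟨k', rfl⟩ := KF.exists_mat hK h1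
      exact ⟨k', fun x y => by rw [sympBilin_apply, sympBilin_apply]; exact h2 x y⟩
  have hτ1 : τ ≠ 1 := by
    rintro rfl
    refine hnsa fun k hk x y => ?_
    obtain ⟨k, rfl⟩ := KF.exists_mat hK hk
    rw [← sympBilin_apply, ← sympBilin_apply]
    exact hτ k x y
  have hc := aut_eq_cj hr hτ1
  obtain ⟨C, hC⟩ := exists_traceForm (sympBilin m F) (H10.cj (KF hK) (Fintype.card F))
    fun k x y => by rw [hτ, hc]
  have hdim := finrank_KF_mul hK
  rw [Fintype.card_sum, Fintype.card_fin] at hdim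
  have S : USp C (sympBilin m F) :=
    { toUH := uH_of (fun x y => eq_of_trace (F := F) fun k => by
        rw [mul_comm, ← smul_eq_mul, ← map_smul, ← hC, alt_skew (B := sympBilin m F) sympBilin_isAlt, hτ, hC, map_smul,
          ← hc, ← trace_aut τ, smul_eq_mul, map_mul, aut_aut_two hr, neg_mul, map_neg, mul_comm])
        (fun x hx => sympBilin_nondegenerate.1 x fun y => by rw [hC, hx, map_zero])
        (fun h => by rw [h.2] at hodd; exact absurd hodd (by decide))
      two := hr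
      aut := ⟨τ, hτ1, hc⟩
      trB := hC
      odd := by
        simpa only [map_ofNat] using (map_ne_zero (algebraMap F (KF hK))).2
          (two_ne_zero_of_odd_card hodd) }
  have h := isMaximalIn_comap (toLE _ F) (S.isMaximalIn (by omega))
  rwa [Subgroup.comap_inf, comap_GamK, ← GG_alt S.altB S.ndB, comap_GG_symp] at h

end Cfsg.Agent.H98
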