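import Cfsg.Agent.H98.ExtHom

/-! Groups of Hermitian endomorphisms of an extension field. -/

set_option autoImplicit false
set_option linter.unusedSectionVars false
set_option linter.unusedVariables false
set_option linter.unusedSimpArgs false
set_option linter.style.haveILetI false

namespace Cfsg.Agent.H98

open Module Cfsg.Agent.H27

variable {F K : Type*} [Field F] [Field K] [Algebra F K] [Finite K]

/-- An involution `τ` of `K` extending the involution `σ` of `F`. -/
structure HX (τ : K →+* K) (σ : F →+* F) : Prop where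
  inv : ∀ x, τ (τ x) = x
  alg : ∀ c, τ (algebraMap F K c) = algebraMap F K (σ c)
  comm : ∀ (ρ : K ≃ₐ[F] K) x, τ (ρ x) = ρ (τ x)
  ne : σ ≠ RingHom.id F
  prime : (finrank F K).Prime
  odd : finrank F K ≠ 2

namespace HX

variable {τ : K →+* K} {σ : F →+* F} (S : HX τ σ)
include S

theorem invF (c : F) : σ (σ c) = c :=
  (algebraMap F K).injective (by rw [← S.alg, ← S.alg, S.inv])

theorem τ_smul (c : F) (x : K) : τ (c • x) = σ c • τ x := by
  rw [Algebra.smul_def, Algebra.smul_def, map_mul, S.alg]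

theorem tr_τ (x : K) : Algebra.trace F K (τ x) = σ (Algebra.trace F K x) :=
  (algebraMap F K).injective (by
    rw [← S.alg, trace_eq_sum_automorphisms, trace_eq_sum_automorphisms, map_sum]
    exact Finset.sum_congr rfl fun ρ _ => (S.comm ρ x).symm)

theorem decomp {θ : K} (hθ : τ θ ≠ θ) (x : K) : ∃ a b, τ a = a ∧ τ b = b ∧ x = a + b * θ := by
  have h : θ - τ θ ≠ 0 := sub_ne_zero.2 hθ.symm
  have h' : τ θ - θ ≠ 0 := sub_ne_zero.2 hθ
  refine ⟨x - (x - τ x) / (θ - τ θ) * θ, (x - τ x) / (θ - τ θ), ?_, ?_, by ring⟩ <;>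
  simp only [map_sub, map_mul, map_div₀, S.inv] <;> field_simp <;> ring

theorem decompF : ∃ ω : F, ∀ x : K, ∃ a b, τ a = a ∧ τ b = b ∧ x = a + ω • b := by
  obtain ⟨ω, hω⟩ := not_forall.1 fun h => S.ne (RingHom.ext h)
  refine ⟨ω, fun x => ?_⟩
  obtain ⟨a, b, h1, h2, h3⟩ := S.decomp (θ := algebraMap F K ω)
    (by rw [S.alg]; exact fun h => hω ((algebraMap F K).injective h)) x
  exact ⟨a, b, h1, h2, by rw [h3, Algebra.smul_def, mul_comm]⟩

theorem ext_fix {W : Type*} [AddCommGroup W] [Module F W] {f : K →ₗ[F] W}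
    (h : ∀ k, τ k = k → f k = 0) (x : K) : f x = 0 := by
  obtain ⟨ω, hω⟩ := S.decompF
  obtain ⟨a, b, h1, h2, rfl⟩ := hω x
  simp [h a h1, h b h2]

theorem exists_basis : ∃ b : Basis (Fin (finrank F K)) F K, ∀ i, τ (b i) = b i := by
  obtain ⟨s, h1, h2, h3⟩ := exists_linearIndependent F {x : K | τ x = x}
  have h4 : ⊤ ≤ Submodule.span F (Set.range ((↑) : s → K)) := fun x _ => by
    rw [Subtype.range_coe, h2, ← Submodule.Quotient.mk_eq_zero]
    exact S.ext_fix (f := Submodule.mkQ _) (fun k hk =>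
      (Submodule.Quotient.mk_eq_zero _).2 (Submodule.subset_span hk)) x
  exact ⟨(Basis.mk h3 h4).reindex ((Basis.mk h3 h4).indexEquiv (bK F K)), fun i => by
    rw [Basis.reindex_apply, Basis.mk_apply]; exact h1 (Subtype.coe_prop _)⟩

open Classical in
theorem exists_fam : ∃ b d : Fin (finrank F K) → K, (∀ i, τ (b i) = b i) ∧ (∀ i, τ (d i) = d i) ∧
    ∀ ρ π : K ≃ₐ[F] K, ∑ i, π (b i) * ρ (d i) = if ρ = π then 1 else 0 := by
  obtain ⟨b, hb⟩ := S.exists_basis
  have h1 : ∀ i j, Algebra.trace F K (b.traceDual i * b j) = if i = j then 1 else 0 :=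
    fun i j => by rw [Basis.trace_traceDual_mul]; simp only [eq_comm]
  refine ⟨b, b.traceDual, hb, fun i => eq_of_trace (F := F) fun x => ?_, fun ρ π => ?_⟩
  · conv_lhs => rw [← b.sum_repr x]
    conv_rhs => rw [← b.sum_repr x]
    simp only [Finset.mul_sum, map_sum, mul_smul_comm, map_smul]
    refine Finset.sum_congr rfl fun j _ => ?_
    conv_lhs => rw [← hb j, ← map_mul, S.tr_τ, h1]
    rw [h1]; split_ifs <;> simp
  · rw [← co_single (α := π.toLinearMap) (a := 1) (τ := π) (fun x => by simp) ρ]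
    refine (co_eq (c := fun ρ => ∑ i, π (b i) * ρ (b.traceDual i)) (fun x => ?_) ρ).symm
    simp only [Finset.sum_mul]
    rw [Finset.sum_comm]
    conv_lhs => rw [← b.sum_repr x, map_sum]
    refine Finset.sum_congr rfl fun i _ => ?_
    have : b.repr x i = Algebra.trace F K (b.traceDual i * x) := by
      conv_rhs => rw [← b.sum_repr x]
      simp only [Finset.mul_sum, map_sum, mul_smul_comm, map_smul, h1]
      simp
    rw [map_smul, Algebra.smul_def, this, trace_eq_sum_automorphisms, Finset.sum_mul]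
    exact Finset.sum_congr rfl fun ρ _ => by simp only [map_mul, AlgEquiv.toLinearMap_apply]; ring

theorem exists_div {u : K} (hu : u * τ u = 1) : ∃ l, l ≠ 0 ∧ l / τ l = u := by
  have key : ∀ a, a + u * τ a ≠ 0 → ∃ l, l ≠ 0 ∧ l / τ l = u := fun a ha =>
    ⟨_, ha, by
      rw [div_eq_iff ((map_ne_zero τ).2 ha), map_add, map_mul, S.inv]
      linear_combination -a * hu⟩
  obtain ⟨ω, hω⟩ := not_forall.1 fun h => S.ne (RingHom.ext h)
  by_cases h : 1 + u * τ 1 = 0
  · refine key (algebraMap F K ω) fun h1 => hω ((algebraMap F K).injective ?_)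
    rw [map_one] at h
    rw [← S.alg, RingHom.id_apply]
    linear_combination τ (algebraMap F K ω) * h - h1
  · exact key 1 h

omit S in
variable (τ) in
/-- `β` is the adjoint of `α` for the Hermitian trace form. -/
def IsAdj (α β : Module.End F K) : Prop :=
  ∀ k s, Algebra.trace F K (τ k * β s) = Algebra.trace F K (τ (α k) * s)

theorem exists_adj (α : Module.End F K) : ∃ β, IsAdj τ α β :=
  ⟨adjT { toFun := fun k => τ (α (τ k)), map_add' := fun a b => by simp
          map_smul' := fun c a => by rw [S.τ_smul, map_smul, S.τ_smul, S.invF]; rfl },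
    fun k s => by rw [trace_adjT]; simp [S.inv]⟩

theorem adj_mulLeft (l : K) : IsAdj τ (LinearMap.mulLeft F l) (LinearMap.mulLeft F (τ l)) :=
  fun k s => by simp [mul_left_comm, mul_assoc]

theorem adj_one_add {α β : Module.End F K} (h : IsAdj τ α β) : IsAdj τ (1 + α) (1 + β) :=
  fun k s => by simp [mul_add, add_mul, h k s]

theorem co_adj {α : Module.End F K} (h : IsAdj τ α α) (ρ : K ≃ₐ[F] K) :
    co α ρ⁻¹ = ρ⁻¹ (τ (co α ρ)) := by
  have := co_eq (α := α) (c := fun π => π (τ (co α π⁻¹))) (fun x => by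
    refine eq_of_trace (F := F) fun z => ?_
    rw [mul_comm, ← S.inv z, h, ← sum_co α (τ z), map_sum, Finset.sum_mul, Finset.sum_mul, map_sum,
      map_sum]
    refine Fintype.sum_equiv (Equiv.inv _) _ _ fun π => ?_
    simp only [Equiv.inv_apply, inv_inv]
    rw [← trace_aut π⁻¹]
    simp only [map_mul, S.comm, S.inv, AlgEquiv.aut_inv, AlgEquiv.symm_apply_apply]
    congr 1; ring) ρ⁻¹
  simpa using this

theorem mem_of_herm {A : AddSubgroup (Module.End F K)}
    (hK : ∀ k : K, τ k = k → LinearMap.mulLeft F k ∈ A)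
    (hT : ∀ α ∈ A, ∀ l : K, τ l = l → LinearMap.mulLeft F l * α * LinearMap.mulLeft F l ∈ A)
    {l : K} (hl : ∀ c, algebraMap F K c ≠ l / τ l)
    (hl' : ∀ α ∈ A, LinearMap.mulLeft F l * α * LinearMap.mulLeft F (τ l) ∈ A)
    (hs : ∀ α ∈ A, IsAdj τ α α) {y y' : Module.End F K} (hy : ¬ ∃ k, ∀ x, y x = k * x)
    (hyA : ∀ α ∈ A, y * α + α * y' ∈ A) {β : Module.End F K} (hβ : IsAdj τ β β) : β ∈ A := by
  classical
  have hr := S.prime
  have hl0 : l ≠ 0 := by rintro rfl; exact hl 0 (by simp)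
  obtain ⟨b, d, hb, hd, hbd⟩ := S.exists_fam
  let E : (K ≃ₐ[F] K) → K → Module.End F K := fun ρ κ =>
    LinearMap.mulLeft F κ * ρ.toLinearMap + (ρ⁻¹).toLinearMap * LinearMap.mulLeft F (τ κ)
  have hE : ∀ ρ κ x, E ρ κ x = κ * ρ x + ρ⁻¹ (τ κ) * ρ⁻¹ x := fun ρ κ x => by simp [E]
  have hT' : ∀ α ∈ A, ∀ l m : K, τ l = l → τ m = m → LinearMap.mulLeft F l * α *
      LinearMap.mulLeft F m + LinearMap.mulLeft F m * α * LinearMap.mulLeft F l ∈ A := by
    intro α hα l m h1 h2
    convert A.sub_mem (A.sub_mem (hT α hα (l + m) (by rw [map_add, h1, h2])) (hT α hα l h1))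
      (hT α hα m h2) using 1
    ext x
    simp [add_mul, mul_add]
    ring
  have h0 : ∀ α ∈ A, ∀ ρ κ, τ κ = κ → E ρ (κ * co α ρ) ∈ A := by
    intro α hα ρ κ hκ
    have : E ρ (κ * co α ρ) = ∑ i, (LinearMap.mulLeft F (κ * b i) * α *
        LinearMap.mulLeft F (ρ⁻¹ (d i)) + LinearMap.mulLeft F (ρ⁻¹ (d i)) * α *
        LinearMap.mulLeft F (κ * b i)) := by
      ext x
      simp only [hE, Module.End.mul_apply, LinearMap.sum_apply, LinearMap.mulLeft_apply,
        LinearMap.add_apply, ← sum_co α, Finset.mul_sum, Finset.sum_add_distrib]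
      rw [Finset.sum_comm, Finset.sum_comm (s := Finset.univ (α := Fin (finrank F K)))]
      have h1 : ∀ π : K ≃ₐ[F] K, ∑ i, κ * b i * (co α π * π (ρ⁻¹ (d i) * x)) =
          κ * co α π * π x * if π = ρ then 1 else 0 := by
        intro π
        have h := hbd (π * ρ⁻¹) 1
        simp only [mul_inv_eq_one] at h
        rw [← h, Finset.mul_sum]
        refine Finset.sum_congr rfl fun i _ => ?_
        rw [map_mul, AlgEquiv.mul_apply, AlgEquiv.one_apply]; ring
      have h2 : ∀ π : K ≃ₐ[F] K, ∑ i, ρ⁻¹ (d i) * (co α π * π (κ * b i * x)) =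
          π κ * co α π * π x * if ρ⁻¹ = π then 1 else 0 := by
        intro π
        rw [← hbd ρ⁻¹ π, Finset.mul_sum]
        refine Finset.sum_congr rfl fun i _ => ?_
        rw [map_mul, map_mul]; ring
      simp only [h1, h2, mul_ite, mul_one, mul_zero, Finset.sum_ite_eq', Finset.sum_ite_eq,
        Finset.mem_univ, if_true]
      rw [S.co_adj (hs α hα), map_mul τ, hκ, map_mul]
    rw [this]
    exact A.sum_mem fun i _ => hT' α hα _ _ (by rw [map_mul, hκ, hb]) (by rw [S.comm, hd])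
  have hfull : ∀ α ∈ A, ∀ ρ, ρ ≠ 1 → co α ρ ≠ 0 → ∀ κ, E ρ κ ∈ A := by
    intro α hα ρ hρ hc κ
    have e1 := co_comp (α := α) (β := α * LinearMap.mulLeft F (τ l)) (a := τ l) (τ := 1)
      (fun x => rfl) ρ
    have e2 := co_comp' (α := α * LinearMap.mulLeft F (τ l)) (β := LinearMap.mulLeft F l * α *
      LinearMap.mulLeft F (τ l)) (a := l) (τ := 1) (fun x => rfl) ρ
    rw [mul_one] at e1
    rw [one_mul, e1, AlgEquiv.one_apply] at e2
    obtain ⟨s, t, h1, h2, h3⟩ := S.decomp (θ := l * ρ (τ l)) (fun h => by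
      obtain ⟨c, hc⟩ := mem_range_of_fixed hr hρ (x := l / τ l) (by
        rw [map_mul, S.comm, S.inv] at h
        rw [map_div₀, div_eq_div_iff (by simpa using hl0) (by simpa using hl0)]
        linear_combination h)
      exact hl c hc) (κ / co α ρ)
    have := A.add_mem (h0 α hα ρ s h1) (h0 _ (hl' α hα) ρ t h2)
    rw [div_eq_iff hc] at h3
    convert this using 1
    ext x
    simp only [LinearMap.add_apply, hE, e2, h3, map_add, map_mul]
    ring
  obtain ⟨ξ, hξ, hc⟩ := exists_co_ne hy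
  have ded : ∀ {τ₁ τ₂ τ₃ : K ≃ₐ[F] K} {b c d : K}, τ₁ ≠ ξ → τ₂ ≠ ξ → τ₃ ≠ ξ →
      ¬ ∀ x, τ x = x → co y ξ * ξ x + b * τ₁ x + c * τ₂ x + d * τ₃ x = 0 :=
    fun {τ₁ τ₂ τ₃ b c d} h1 h2 h3 h => hc (dedekind4 h1 h2 h3 (S.ext_fix
      (f := LinearMap.mulLeft F (co y ξ) ∘ₗ ξ.toLinearMap + LinearMap.mulLeft F b ∘ₗ τ₁.toLinearMap +
        LinearMap.mulLeft F c ∘ₗ τ₂.toLinearMap + LinearMap.mulLeft F d ∘ₗ τ₃.toLinearMap) h))
  have hall : ∀ ρ, ρ = 1 ∨ ∀ κ, E ρ κ ∈ A := by
    refine gal_induction hr hξ (Or.inl rfl) fun ρ h => ?_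
    by_cases h1 : ξ * ρ = 1
    · exact Or.inl h1
    refine Or.inr ?_
    by_contra hcon
    have hz : ∀ α ∈ A, co α (ξ * ρ) = 0 := fun α hα => by
      by_contra h0
      exact hcon (hfull α hα _ h1 h0)
    by_cases hρ : ρ = 1
    · subst hρ
      refine ded (τ₁ := 1) (τ₂ := 1) (τ₃ := 1) (b := co y' ξ) (c := 0) (d := 0)
        hξ.symm hξ.symm hξ.symm fun κ hκ => ?_
      have h3 := hz _ (hyA _ (hK κ hκ))
      have e1 := co_comp (α := y) (β := y * LinearMap.mulLeft F κ) (a := κ) (τ := 1)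
        (fun x => by simp) ξ
      have e2 := co_comp' (α := y') (β := LinearMap.mulLeft F κ * y') (a := κ) (τ := 1)
        (fun x => by simp) ξ
      rw [mul_one] at e1 h3
      rw [one_mul] at e2
      rw [co_add, e1, e2] at h3
      simp only [AlgEquiv.one_apply] at h3 ⊢
      linear_combination h3
    · have hE' := h.resolve_left hρ
      refine ded (τ₁ := ξ * ρ) (τ₂ := 1) (τ₃ := ρ⁻¹) (b := co y (ξ * ρ * ρ))
        (c := ρ (co y' (ρ⁻¹ * (ξ * ρ)))) (d := ρ⁻¹ (co y' (ρ * (ξ * ρ))))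
        (by simpa using hρ) hξ.symm (fun h => h1 (by rw [← h, inv_mul_cancel])) fun κ hκ => ?_
      have h3 := hz _ (hyA _ (hE' κ))
      simp only [E, mul_add, add_mul, co_add, hκ] at h3
      have e1 := co_comp (α := y) (β := y * (LinearMap.mulLeft F κ * ρ.toLinearMap)) (a := κ)
        (τ := ρ) (fun x => by simp) ξ
      have e2 := co_comp (α := y) (β := y * ((ρ⁻¹).toLinearMap * LinearMap.mulLeft F κ))
        (a := ρ⁻¹ κ) (τ := ρ⁻¹) (fun x => by simp) (ξ * ρ * ρ)
      have e3 := co_comp' (α := y') (β := LinearMap.mulLeft F κ * ρ.toLinearMap * y')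
        (a := κ) (τ := ρ) (fun x => by simp) (ρ⁻¹ * (ξ * ρ))
      have e4 := co_comp' (α := y') (β := (ρ⁻¹).toLinearMap * LinearMap.mulLeft F κ * y')
        (a := ρ⁻¹ κ) (τ := ρ⁻¹) (fun x => by simp) (ρ * (ξ * ρ))
      rw [mul_inv_cancel_right] at e2
      rw [mul_inv_cancel_left] at e3
      rw [inv_mul_cancel_left] at e4
      rw [e1, e2, e3, e4] at h3
      have e5 : (ξ * ρ * ρ) (ρ⁻¹ κ) = (ξ * ρ) κ := by
        rw [← AlgEquiv.mul_apply, mul_inv_cancel_right]
      rw [e5] at h3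
      simp only [AlgEquiv.one_apply]
      linear_combination h3
  haveI : Finite F := Finite.of_injective _ (algebraMap F K).injective
  obtain ⟨e, he⟩ := exists_trace_eq S.ne S.invF 1 (map_one σ)
  have : β = ∑ ρ, E ρ (e • co β ρ) := by
    ext x
    rw [LinearMap.sum_apply, ← one_smul F (β x), he, add_smul, ← sum_co β x, Finset.smul_sum,
      Finset.smul_sum]
    simp only [hE, Finset.sum_add_distrib]
    congr 1
    · simp
    · refine (Fintype.sum_equiv (Equiv.inv _) _ _ fun ρ => ?_).symm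
      rw [Equiv.inv_apply, S.co_adj hβ, S.τ_smul, map_smul, smul_mul_assoc]
  rw [this]
  refine A.sum_mem fun ρ _ => ?_
  rcases hall ρ with rfl | h
  · convert hK (e • co β 1 + τ (e • co β 1)) (by rw [map_add, S.inv, add_comm]) using 1
    ext x; simp [hE, add_mul]
  · exact h _

end HX

end Cfsg.Agent.H98
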