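import Cfsg.Agent.H98.ExtGUO

/-! The trace trick for a homomorphic family, over the prime field. -/

set_option autoImplicit false
set_option linter.unusedSectionVars false
set_option linter.unusedVariables false
set_option linter.unusedSimpArgs false
set_option linter.style.haveILetI false

namespace Cfsg.Agent.H98

open Module Cfsg.Agent.H27 Cfsg.Geo Cfsg.Agent.H11

theorem PolyLE.restrict {k F A W : Type*} [Field k] [Field F] [Algebra k F] [AddCommGroup A]
    [Module F A] [Module k A] [IsScalarTower k F A] [FiniteDimensional k A] [AddCommGroup W]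
    [Module F W] [Module k W] [IsScalarTower k F W] {d : ℕ} {f : A → W} (h : PolyLE F d f) :
    PolyLE k d f := by
  induction h with
  | const d w => exact .const d w
  | smul d φ f _ ih =>
    rw [add_comm]
    exact (polyLE_linear (φ.restrictScalars k)).bilin ih
      ((LinearMap.lsmul F W).restrictScalars₁₂ k k)
  | add d f g _ _ ih ih' => exact ih.add' ih'

variable {F K V : Type*} [Field F] [Field K] [Algebra F K] [Finite K] [AddCommGroup V]
  [Module F V] [Module K V] [IsScalarTower F K V] [Finite V]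

theorem le_stab_of_hom [Finite F] {M : Subgroup (V ≃ₗ[F] V)} {v : V} (hv : v ≠ 0)
    (hM : ∀ g ∈ M, g v = v) (hs : ∀ g ∈ M, g ∈ stab (KP F K v) → SL1 K g v)
    {A : Type*} [AddCommGroup A] [Module F A] [Finite A] {ε : A → V ≃ₗ[F] V}
    (hε : ∀ a b, ε (a + b) = ε a * ε b) (mem : ∀ a, ε a ∈ M) (fix : ∀ a, ε a ∈ stab (KP F K v))
    (h2 : (2 : F) ≠ 0)
    (deg : ∀ g ∈ M, g ∉ stab (KP F K v) → ∀ N : AddSubgroup A,
      (∀ a, a ∈ N ↔ ε a ∈ stab ((KP F K v).map (g : V →ₗ[F] V))) → ∃ d c, d < 2 * c ∧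
        ringChar F ^ c * Nat.card N ≤ Nat.card A ∧
        ∀ φ ψ, PolyLE F d fun a => tens K v (ε a * g) φ ψ) : M ≤ stab (KP F K v) := by
  haveI := Fact.mk (CharP.char_is_prime F (ringChar F))
  have hp := (Fact.out : (ringChar F).Prime).two_le
  have hp2 := ringChar_ne_two_of_two_ne_zero h2
  letI : Algebra (ZMod (ringChar F)) F := ZMod.algebra F _
  letI : Module (ZMod (ringChar F)) A := Module.compHom A (algebraMap (ZMod (ringChar F)) F)
  haveI : IsScalarTower (ZMod (ringChar F)) F A := IsScalarTower.of_algebraMap_smul fun _ _ => rfl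
  haveI : Fintype A := Fintype.ofFinite _
  have h0 : ε 0 = 1 := by simpa using hε 0 0
  refine le_stab_of_sum hv hM hs fun S f hS hf => sum_mem_of_compl (k := ZMod (ringChar F))
    (fun a Y => Y.map (ε a : V →ₗ[F] V)) f S (fun Y _ => by rw [h0]; exact Submodule.map_id _)
    (fun a b Y _ => by rw [hε, map_mul_le]) (fun a Y hY => ?_) fun Y hY => ?_
  · rw [hS] at hY ⊢
    obtain ⟨h1, g, hg, rfl⟩ := hY
    refine ⟨fun h2 => h1 ?_, ε a * g, M.mul_mem (mem a) hg, map_mul_le _ _ _⟩
    exact Submodule.map_injective_of_injective (ε a).injective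
      (h2.trans (mem_stab_iff_map.1 (fix a)).symm)
  obtain ⟨h1, g, hg, rfl⟩ := (hS _).1 hY
  let N : AddSubgroup A :=
    { carrier := {a | ε a ∈ stab ((KP F K v).map (g : V →ₗ[F] V))}
      zero_mem' := by simp [h0]
      add_mem' := fun ha hb => by rw [Set.mem_ofPred, hε]; exact mul_mem ha hb
      neg_mem' := fun {a} ha => by
        rw [Set.mem_ofPred, eq_inv_of_mul_eq_one_left (show ε (-a) * ε a = 1 by
          rw [← hε, neg_add_cancel, h0])]
        exact inv_mem ha }
  obtain ⟨d, c, h3, h4, h5⟩ := deg g hg (fun h => h1 (mem_stab_iff_map.1 h)) N fun a => Iff.rfl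
  refine ⟨AddSubgroup.toZModSubmodule _ N, fun a => mem_stab_iff_map, fun N' _ hc => ?_⟩
  ext φ ψ
  simp only [← map_mul_le, hf _ (M.mul_mem (mem _) hg), Finset.sum_apply]
  refine PolyLE.sum_eq_zero (k := ZMod (ringChar F)) ((h5 φ ψ).restrict.comp N'.subtype) ?_
  have h6 := Nat.card_congr (Submodule.prodEquivOfIsCompl _ _ hc).toEquiv
  rw [Nat.card_prod, Module.natCard_eq_pow_finrank (K := ZMod (ringChar F)) (V := N'),
    Nat.card_zmod] at h6
  rw [← h6, mul_comm] at h4
  have h7 := (Nat.pow_le_pow_iff_right hp).1 (Nat.le_of_mul_le_mul_left h4 Nat.card_pos)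
  rw [ZMod.card]
  exact h3.trans_le (Nat.mul_le_mul (by omega) h7)

theorem card_mul_le_of_surj {A W : Type*} [AddCommGroup A] [Finite A] [AddCommGroup W]
    (f : A →+ W) (hf : Function.Surjective f) {N : AddSubgroup A} (h : ∀ a ∈ N, f a = 0) :
    Nat.card W * Nat.card N ≤ Nat.card A := by
  rw [AddSubgroup.card_eq_card_quotient_mul_card_addSubgroup f.ker,
    Nat.card_congr (QuotientAddGroup.quotientKerEquivOfSurjective f hf).toEquiv]
  exact Nat.mul_le_mul_left _ (AddSubgroup.card_le_of_le h)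

theorem char_pow_le [Finite F] {A : Type*} [AddCommGroup A] [Module F A] [Finite A] {c : ℕ}
    (h : c ≤ finrank F A) : ringChar F ^ c ≤ Nat.card A := by
  haveI := Fintype.ofFinite F
  rw [Module.natCard_eq_pow_finrank (K := F)]
  have h1 : ringChar F ≤ Nat.card F := Nat.le_of_dvd Nat.card_pos (by
    rw [Nat.card_eq_fintype_card, ← ringChar.spec]; exact FiniteField.cast_card_eq_zero F)
  exact (Nat.pow_le_pow_left h1 c).trans (Nat.pow_le_pow_right Nat.card_pos h)

/-- A linear map invariant under a non-trivial automorphism factors through the trace. -/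
theorem eq_trace_smul (hr : (finrank F K).Prime) {σ : K ≃ₐ[F] K} (hσ : σ ≠ 1) {l : K →ₗ[F] K}
    (h : ∀ k, l (σ k) = l k) : ∃ s, ∀ k, l k = Algebra.trace F K k • s := by
  have h1 : ∀ (ρ : K ≃ₐ[F] K) k, l (ρ k) = l k :=
    gal_induction hr hσ (fun _ => rfl) fun ρ hρ k => by rw [AlgEquiv.mul_apply, h, hρ]
  obtain ⟨θ, hθ⟩ := Algebra.trace_surjective F K 1
  refine ⟨l θ, fun k => ?_⟩
  rw [← map_smul, Algebra.smul_def, trace_eq_sum_automorphisms, Finset.sum_mul, map_sum]
  conv_lhs => rw [← mul_one k, ← map_one (algebraMap F K), ← hθ, trace_eq_sum_automorphisms,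
    Finset.mul_sum, map_sum]
  refine Fintype.sum_equiv (Equiv.inv _) _ _ fun ρ => ?_
  rw [← h1 ρ⁻¹, map_mul]; simp

theorem sum_trace_trace : ∑ i, Algebra.trace F K (bK F K i) * Algebra.trace F K (bD F K i) =
    (finrank F K : F) := by
  have := congrArg (Algebra.trace F K) (sum_trace_bD (F := F) (1 : K))
  rw [← map_one (algebraMap F K), Algebra.trace_algebraMap] at this
  simpa [mul_comm] using this

theorem conj_mem_of_sq {S : Subring (Module.End F K)} {g₁ g₂ : Module.End F K}
    (h12 : ∀ k, g₁ (g₂ k) = k) (h21 : ∀ k, g₂ (g₁ k) = k)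
    (h : ∀ l : K, l ≠ 0 → g₁ * LinearMap.mulLeft F (l * l) * g₂ ∈ S) (k : K) :
    g₁ * LinearMap.mulLeft F k * g₂ ∈ S := by
  let Ψ : K →+* Module.End F K :=
    { toFun := fun k => g₁ * LinearMap.mulLeft F k * g₂
      map_one' := by ext x; simp [h12]
      map_mul' := fun a b => by ext x; simp [h21, mul_assoc]
      map_zero' := by simp
      map_add' := fun a b => by ext x; simp [add_mul] }
  let T := S.comap Ψ
  refine subring_eq_top_of_sq (S := T) (fun x => ?_) k
  by_cases hx : x = 0
  · simp [hx]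
  · exact h x hx

end Cfsg.Agent.H98
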