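import Cfsg.Agent.H98.ExtO1

/-! Maximality of the extension field subgroups of type `O_m(K)` in `Ω_{mr}(F)`, odd
characteristic. -/

set_option autoImplicit false
set_option linter.unusedSectionVars false
set_option linter.unusedVariables false
set_option linter.unusedSimpArgs false
set_option linter.style.haveILetI false

namespace Cfsg.Agent.H98

open Module Cfsg.Agent.H27 Cfsg.Geo Cfsg.Agent.H11

variable {F K V : Type*} [Field F] [Field K] [Algebra F K] [Finite K] [AddCommGroup V]
  [Module F V] [Module K V] [IsScalarTower F K V] [Finite V]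

namespace OX

variable [Finite F] {R : QuadraticForm K V} {Q : QuadraticForm F V} (S : OX R Q)
  {M : Subgroup (V ≃ₗ[F] V)} (hH : GamK K ⊓ OM Q ≤ M)
include S hH

theorem eq_KP {w : V} (hw0 : w ≠ 0) (hw : R w = 0) {Y : Submodule F V}
    (hd : finrank F Y = finrank F K) (hY : ∀ e ∈ M, e w = w → e ∈ stab Y) : Y = KP F K w := by
  have key : ∀ u, pB R w u = 0 → ∀ y ∈ Y, eF R w u y ∈ Y := fun u hu y hy => by
    obtain ⟨g, hg, hf⟩ := S.exists_rho hw hu
    exact hf y ▸ stab_apply (hY _ (hH (S.om_le hg)) ((hf w).trans (by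
      simp [eF, pB_self, hw, pB_zero hu]))) hy
  by_cases h : ∀ y ∈ Y, pB R w y = 0
  · by_cases h1 : Y ≤ KP F K w
    · exact Submodule.eq_of_le_of_finrank_le h1 (by rw [hd, finrank_KP hw0])
    obtain ⟨y, hy, h2⟩ := SetLike.not_le_iff_exists.1 h1
    obtain ⟨u, h3, h4⟩ : ∃ u, pB R w u = 0 ∧ pB R y u ≠ 0 := by
      by_contra hc
      push Not at hc
      exact h2 (S.mem_KP_of_perp hw0 hc)
    refine (Submodule.eq_of_le_of_finrank_le (fun x hx => ?_) (by rw [hd, finrank_KP hw0])).symm
    obtain ⟨k, rfl⟩ := mem_KP.1 hx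
    simpa [eF, h y hy, pB_comm u y, div_mul_cancel₀ _ h4] using
      Y.sub_mem hy (key ((k / pB R y u) • u) (by simp [h3]) y hy)
  push Not at h
  obtain ⟨y, hy, h1⟩ := h
  obtain ⟨w', hw', h0⟩ := S.nd.exists_partner hw hw0
  obtain ⟨u, h2, -, h3⟩ := S.exists_u hw hw' (by rw [pB_eq, h0]; simp)
  have h4 : pB R u u ≠ 0 := fun h => h3 (by
    rw [pB_self, mul_eq_zero, or_iff_right S.two] at h
    rw [S.tr, h, map_zero])
  obtain ⟨t, ht⟩ := (Function.Injective.bijective_of_nat_card_le
    (f := fun t : K => (⟨_, key (t • u) (by simp [h2]) y hy⟩ : Y)) (fun t t' h => by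
      simpa [eF, pB_zero h2, h4, h1] using congrArg (fun z : Y => pB R u z) h) (by
      rw [Module.natCard_eq_pow_finrank (K := F), Module.natCard_eq_pow_finrank (K := F) (V := K),
        hd])).2 0
  exact absurd (by simpa [eF, h2, pB_self, hw] using congrArg (fun z : Y => pB R w z) ht) h1

theorem sing_of_block {w : V} {Y : Submodule F V} (hwY : w ∈ Y) (hd : finrank F Y = finrank F K)
    (hQ : ∀ y ∈ Y, Q y = 0) (hY : ∀ e ∈ M, e w = w → e ∈ stab Y) : R w = 0 := by
  classical
  by_contra hw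
  have hw0 : w ≠ 0 := by rintro rfl; simp at hw
  have hww : pB R w w ≠ 0 := by simp [pB_self, hw, S.two]
  obtain ⟨y, hy, h1⟩ : ∃ y ∈ Y, y ∉ KP F K w := by
    by_contra hc
    push Not at hc
    rw [Submodule.eq_of_le_of_finrank_le hc (by rw [hd, finrank_KP hw0])] at hQ
    refine hww (S.C_zero fun k => ?_)
    have := Qadd (Q := Q) w (k • w)
    rw [hQ _ (add_mem (self_mem_KP w) (smul_mem_KP w k)), hQ _ (self_mem_KP w),
      hQ _ (smul_mem_KP w k)] at this
    simpa using this.symm
  obtain ⟨e₀, h2, h3⟩ : ∃ u, pB R w u = 0 ∧ pB R y u ≠ 0 := by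
    by_contra hc
    push Not at hc
    exact h1 (S.mem_KP_of_perp hw0 hc)
  obtain ⟨a, h4, h5⟩ : ∃ a, pB R w a = 0 ∧ R a ≠ 0 := by
    by_contra hc
    push Not at hc
    have h6 : pB R w (y - (pB R w y / pB R w w) • w) = 0 := by simp [div_mul_cancel₀ _ hww]
    have := Qadd (Q := R) (y - (pB R w y / pB R w w) • w) e₀
    rw [hc _ (by rw [map_add, h6, h2, add_zero]), hc _ h6, hc _ h2] at this
    exact h3 (by simpa [h2] using this.symm)
  have haa : pB R a a ≠ 0 := by simp [pB_self, h5, S.two]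
  obtain ⟨e, h6, h7, h8, h9⟩ : ∃ e, pB R w e = 0 ∧ pB R a e = 0 ∧ e ≠ 0 ∧
      (pB R a y = 0 → pB R e y ≠ 0) := by
    by_cases h : pB R a y = 0
    · have : pB R (e₀ - (pB R a e₀ / pB R a a) • a) y ≠ 0 := by simpa [h, pB_comm e₀] using h3
      exact ⟨_, by simp [h2, h4], by simp [div_mul_cancel₀ _ haa], by rintro h; simp [h] at this,
        fun _ => this⟩
    · obtain ⟨e, -, h6, h7⟩ := exists_ker_list [pB R w, pB R a] (W := ⊤) (S := ⊥) (by
        have := S.dim
        rw [finrank_top, finrank_bot]; simp; omega)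
      exact ⟨e, h6 _ (by simp), h6 _ (by simp), h7, fun h' => absurd h' h⟩
  let Z := Y ⊓ (LinearMap.ker (pB R w)).restrictScalars F
  let rep : Prop → K := fun b => Classical.epsilon fun s =>
    R (a + s • e) ≠ 0 ∧ (IsSquare (R (a + s • e)) ↔ b)
  have hfix : ∀ (t : K) x, pB R w (rE R (a + t • e) x) = pB R w x := fun t x => by
    simp [rE_apply, h4, h6]
  have hZ : ∀ t : K, R (a + t • e) ≠ 0 →
      rE R (a + rep (IsSquare (R (a + t • e))) • e) (rE R (a + t • e) y) - y ∈ Z := fun t ht => by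
    obtain ⟨h10, h11⟩ := Classical.epsilon_spec (p := fun s : K => R (a + s • e) ≠ 0 ∧
      (IsSquare (R (a + s • e)) ↔ IsSquare (R (a + t • e)))) ⟨t, ht, Iff.rfl⟩
    change rE R (a + Classical.epsilon (α := K) _ • e) _ - y ∈ Y ∧
      pB R w (rE R (a + Classical.epsilon (α := K) _ • e) _ - y) = 0
    generalize Classical.epsilon (α := K) _ = s at h10 h11
    obtain ⟨l, hl⟩ : IsSquare (R (a + s • e) * R (a + t • e)) := by
      by_cases h : IsSquare (R (a + t • e))
      · exact (h11.2 h).mul h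
      · exact isSquare_mul_of_not_isSquare (mt h11.1 h) h
    have h12 := S.rE_mem_om (l := l / R (a + s • e)) (b := a + t • e) h10 (by
      rintro h; rw [div_eq_zero_iff, or_iff_left h10] at h; simp [h, ht, h10] at hl) (by
      field_simp; linear_combination hl)
    exact ⟨Y.sub_mem (stab_apply (hY _ (hH (S.om_le h12)) (by
      change rE R _ (rE R _ w) = w
      rw [rE_of_perp (x := w) (pB_zero (by simp [h4, h6])),
        rE_of_perp (pB_zero (by simp [h4, h6]))])) hy) hy, by rw [map_sub, hfix, hfix, sub_self]⟩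
  have h10 := Nat.card_le_card_of_injective (α := {t : K // R (a + t • e) ≠ 0}) (β := Prop × Z)
    (fun t => (IsSquare (R (a + t.1 • e)), ⟨_, hZ t t.2⟩)) fun t s h => by
      obtain ⟨h11, h12⟩ := Prod.ext_iff.1 h
      simp only [Subtype.mk.injEq, sub_left_inj] at h11 h12
      rw [h11, EmbeddingLike.apply_eq_iff_eq, rE_apply, rE_apply, sub_right_inj] at h12
      have h13 := congrArg (pB R a) h12
      simp only [map_smul, map_add (pB R a), h7, mul_zero, add_zero, smul_eq_mul,
        mul_left_inj' haa] at h13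
      rw [h13, smul_add, smul_add, add_right_inj, smul_smul, smul_smul, ← sub_eq_zero, ← sub_smul,
        ← mul_sub, smul_eq_zero, or_iff_left h8, mul_eq_zero] at h12
      by_contra hne
      have h14 : t.1 - s.1 ≠ 0 := sub_ne_zero.2 fun h => hne (Subtype.ext h)
      have h15 := h12.resolve_right h14
      rw [h15] at h13
      simp only [mul_eq_zero, inv_eq_zero, t.2, s.2, false_or, map_add, map_smul,
        LinearMap.add_apply, LinearMap.smul_apply, smul_eq_mul] at h13 h15
      have h16 : pB R e y = 0 := (mul_eq_zero.1 (by linear_combination h13 - h15)).resolve_left h14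
      exact h9 (by simpa [h16] using h13) h16
  haveI := Fintype.ofFinite K
  haveI := Fintype.ofFinite F
  have h11 : Fintype.card {t : K // R (a + t • e) = 0} ≤ 2 := by
    rcases isEmpty_or_nonempty {t : K // R (a + t • e) = 0} with h | ⟨⟨s, hs⟩⟩
    · simp
    rw [Fintype.card_subtype]
    refine (Finset.card_le_card (t := {s, -s}) fun t ht => ?_).trans Finset.card_le_two
    simp only [Finset.mem_filter, Finset.mem_univ, true_and, Qadd, Q_smul, map_smul, h7,
      smul_zero, add_zero, Finset.mem_insert, Finset.mem_singleton] at ht hs ⊢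
    have : R e ≠ 0 := fun h => h5 (by simpa [h] using hs)
    exact mul_self_eq_mul_self_iff.1 (mul_right_cancel₀ this (by linear_combination ht - hs))
  have h12 : finrank F Z < finrank F Y := Submodule.finrank_lt_finrank_of_lt
    (lt_of_le_of_ne inf_le_left fun h => hww (h.ge hwY).2)
  have h13 := three_le_card (F := F) S.two
  have h14 := S.prime.two_le
  rw [Nat.card_eq_fintype_card, Fintype.card_subtype_compl, Nat.card_prod,
    Module.natCard_eq_pow_finrank (K := F) (V := Z), Module.card_eq_pow_finrank (K := F) (V := K),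
    Nat.card_eq_fintype_card, Nat.card_eq_fintype_card, Fintype.card_prop] at h10
  obtain ⟨n, hn⟩ : ∃ n, finrank F K = n + 1 + 1 := ⟨finrank F K - 2, by omega⟩
  have h15 := Nat.pow_le_pow_right (n := Fintype.card F) (by omega)
    (show finrank F Z ≤ n + 1 by omega)
  have h16 := Nat.le_self_pow (n := n + 1) (by omega) (Fintype.card F)
  have h17 := Nat.mul_le_mul_left (Fintype.card F ^ (n + 1)) h13
  rw [hn, pow_succ _ (n + 1)] at h10
  omega

theorem fix_le (hM : M ≤ OG Q) (hne : ¬ OM Q ≤ M) {v : V} (hv0 : v ≠ 0) (hv : R v = 0) :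
    fixV M v ≤ stab (KP F K v) := by
  classical
  obtain ⟨w, hw, h0⟩ := S.nd.exists_partner hv hv0
  rw [← pB_eq] at h0
  have hvv : pB R v v = 0 := by simp [pB_self, hv]
  let A := LinearMap.ker ((pB R v).prod (pB R w))
  have hA : ∀ x, x ∈ A ↔ pB R v x = 0 ∧ pB R w x = 0 := fun x => Prod.ext_iff
  have hA1 : ∀ a : A, pB R v a = 0 := fun a => ((hA _).1 a.2).1
  have hA2 : ∀ a : A, pB R w a = 0 := fun a => ((hA _).1 a.2).2
  have hcA : ringChar F ^ 3 ≤ Nat.card A := char_pow_le (by
    have h1 := LinearMap.finrank_range_add_finrank_ker ((pB R v).prod (pB R w))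
    have h2 := Submodule.finrank_le (LinearMap.range ((pB R v).prod (pB R w)))
    rw [Module.finrank_prod, finrank_self] at h2
    have h3 := S.big
    have h4 := S.dim
    have h5 := S.prime.two_le
    rw [← finrank_mul_ext (K := K)] at h3 ⊢
    change _ + finrank K A = _ at h1
    rcases h5.eq_or_lt with h | h
    · rw [← h] at h3 ⊢; omega
    · exact le_trans (by omega) (Nat.mul_le_mul h (show 1 ≤ _ by omega)))
  choose ε₀ h1 h2 using fun a : A => S.exists_rho hv (hA1 a)
  let ε : A → V ≃ₗ[F] V := fun a => (ε₀ a).restrictScalars F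
  have he : ∀ a x, ε a x = eF R v a x := h2
  have hf : ∀ a (k : K), ε a (k • v) = k • v := fun a k => by simp [he, eF, hvv, pB_zero (hA1 a)]
  have hm : ∀ a, ε a ∈ fixV M v := fun a => ⟨hH (S.om_le (h1 a)), by simpa using hf a 1⟩
  have hs : ∀ g ∈ fixV M v, g ∈ stab (KP F K v) → SL1 K g v := fun g hg h =>
    S.sl1 hH hM hne hg.1 hv0 hv (by rw [hg.2, hv]) (by rw [hg.2, mem_stab_iff_map.1 h])
  refine le_stab_of_hom hv0 (fun g hg => hg.2) hs (ε := ε) (fun a b => LinearEquiv.ext fun z => ?_)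
    hm (fun a => stab_of_fix fun k => by rw [hf]; exact smul_mem_KP v k) S.twoF
    fun g hg hg' N hN => ?_
  · simp only [le_mul_apply, he, eF, Submodule.coe_add, map_add, map_sub, map_smul, hA1,
      pB_zero (hA1 a), hvv, LinearMap.add_apply, smul_eq_mul, Qadd]
    module
  choose σ hσ using fun a : N =>
    exists_aut_conj hs hg (hm a) (by rw [hg.2, (hm a).2]) ((hN a).1 a.2)
  let L : V → A →ₗ[F] V := fun y => (pB R v y • A.subtype -
    ((pB R y) ∘ₗ A.subtype).smulRight v).restrictScalars F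
  have hL : ∀ y, PolyLE F 1 fun a => y + L y a := fun y => (PolyLE.const 1 y).add' (polyLE_linear _)
  have hq : ∀ s : K, PolyLE F 2 fun a : A => (s * R a) • v := fun s =>
    (polyLE_bilin ((((pB R).compl₁₂ A.subtype A.subtype).compr₂ (LinearMap.toSpanSingleton K V
      ((s / 2) • v))).restrictScalars₁₂ F F)).congr fun a => by
        have := S.two
        simp only [LinearMap.restrictScalars₁₂_apply_apply, LinearMap.compr₂_apply,
          LinearMap.compl₁₂_apply, Submodule.subtype_apply, pB_self,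
          LinearMap.toSpanSingleton_apply, smul_smul]
        congr 1; field_simp
  have he' : ∀ a y, ε a y = y + L y a - (pB R v y * R a) • v := fun a y => by
    simp only [he, eF, L, LinearMap.restrictScalars_apply, LinearMap.sub_apply,
      LinearMap.smul_apply, Submodule.subtype_apply, LinearMap.smulRight_apply,
      LinearMap.comp_apply, pB_comm y]
    module
  have hp : ∀ y, PolyLE F 2 fun a => ε a y := fun y =>
    (((hL y).mono one_le_two).sub (hq _)).congr fun a => (he' a y).symm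
  by_cases hc : ∀ k : K, pB R v (g (k • v)) = 0
  · obtain ⟨x, hx, hx'⟩ := exists_of_not_mem_stab hg'
    obtain ⟨k, rfl⟩ := mem_KP.1 hx
    obtain ⟨u, h3, h4⟩ : ∃ u, pB R v u = 0 ∧ pB R (g (k • v)) u ≠ 0 := by
      by_contra hc'
      push Not at hc'
      exact hx' (S.mem_KP_of_perp hv0 hc')
    refine ⟨1 + 1, 2, by omega, (Nat.mul_le_mul_right _ (char_pow_le S.prime.two_le)).trans
      (card_mul_le_of_surj (pB R (g (k • v)) ∘ₗ A.subtype).toAddMonoidHom (fun s =>
        ⟨⟨(s / pB R (g (k • v)) u) • (u - pB R w u • v), (hA _).2 ⟨by simp [h3, hvv], by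
          simp [pB_comm w v, h0]⟩⟩, by simp [pB_zero (hc k), div_mul_cancel₀ _ h4]⟩)
        fun a ha => ?_), fun φ ψ => PolyLE.sum _ fun i _ => ?_⟩
    · have h5 : σ ⟨a, ha⟩ = 1 := eq_one_of_quad S.prime (fun _ => S.two) fun x =>
        smul_left_cancel' hv0 (g.injective (by
          rw [sub_smul, sub_smul, map_sub, map_sub, ← hσ, ← hσ, ← map_sub, he _ (g _), eF, hc]
          simp [hf, ← neg_smul]))
      have h6 := hσ ⟨a, ha⟩ k
      rw [h5, he, eF, hc] at h6
      exact pB_zero (by simpa [hv0] using h6)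
    · exact (((hL (g (bK F K i • v))).map φ).mul ((hL (g (bD F K i • v))).map ψ)).congr
        fun a => by simp [le_mul_apply, he', hc]
  push Not at hc
  obtain ⟨k, hk⟩ := hc
  have hinj : Function.Injective σ := fun a b h => by
    have h3 := (hσ a k).trans (h ▸ hσ b k).symm
    have h4 := congrArg (pB R w) h3
    simp only [he, eF, map_sub, map_add, map_smul, hA2, pB_comm w v, h0, smul_eq_mul, mul_one,
      mul_zero, add_zero, sub_right_inj] at h3 h4
    rw [h4, sub_left_inj, add_right_inj] at h3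
    exact Subtype.ext (Subtype.ext (smul_right_injective V hk h3))
  by_cases h : ∀ a, σ a = 1
  · refine ⟨2 + 2, 3, by omega, ?_, fun φ ψ => PolyLE.sum _ fun i _ =>
      ((hp _).map φ).mul ((hp _).map ψ)⟩
    haveI : Subsingleton N := ⟨fun a b => hinj (by rw [h, h])⟩
    rwa [Nat.card_of_subsingleton (0 : N), mul_one]
  push Not at h
  obtain ⟨a, ha⟩ := h
  have h3 : ¬ (finrank F K = 3 → (3 : K) ≠ 0) := fun h3 =>
    ha (eq_one_of_cubic S.prime S.two h3 fun x => smul_left_cancel' hv0 (g.injective (by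
      have h4 : ∀ z : K, g ((3 * z) • v) = (3 : K) • g (z • v) := fun z => by
        rw [show (3 : K) * z = z + z + z by ring, add_smul, add_smul, map_add, map_add]; module
      simp only [sub_smul, add_smul, map_sub, map_add, h4, ← hσ, zero_smul, map_zero]
      simp only [he, eF, map_add, map_sub, map_smul, hA1, pB_zero (hA1 a), hvv, pB_self,
        smul_eq_mul]
      module)))
  push Not at h3
  have h4 : (3 : F) = 0 := (algebraMap F K).injective (by simpa only [map_zero, map_ofNat] using h3.2)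
  have h5 : ringChar F = 3 := CharP.ringChar_of_prime_eq_zero Nat.prime_three (by exact_mod_cast h4)
  obtain ⟨s, hs⟩ := eq_trace_smul S.prime ha (l := (pB R v).restrictScalars F ∘ₗ
    (g : V →ₗ[F] V) ∘ₗ (LinearMap.toSpanSingleton K V v).restrictScalars F) fun x => by
      change pB R v (g (σ a x • v)) = pB R v (g (x • v))
      rw [← hσ]; simp [he, eF, hA1, hvv]
  replace hs : ∀ x, pB R v (g (x • v)) = Algebra.trace F K x • s := hs
  refine ⟨3, 2, by omega, le_trans ?_ hcA, fun φ ψ => ?_⟩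
  · have := Nat.card_le_card_of_injective σ hinj
    rw [card_gal, h3.1] at this
    rw [h5]; omega
  refine (PolyLE.sum Finset.univ fun i _ =>
    (((hL (g (bK F K i • v))).map φ).mul ((hp (g (bD F K i • v))).map ψ)).sub
    (((hq (pB R v (g (bK F K i • v)))).map φ).mul ((hL (g (bD F K i • v))).map ψ))).congr
    fun a => ?_
  have h6 : ∑ i, φ ((pB R v (g (bK F K i • v)) * R a) • v) *
      ψ ((pB R v (g (bD F K i • v)) * R a) • v) = 0 := by
    simp only [hs, smul_mul_assoc, smul_assoc, map_smul, smul_eq_mul]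
    rw [Finset.sum_congr rfl fun i _ => mul_mul_mul_comm _ _ _ _, ← Finset.sum_mul,
      sum_trace_trace, h3.1, Nat.cast_ofNat, h4, zero_mul]
  refine (add_zero _).symm.trans ?_
  rw [tens, ← h6, ← Finset.sum_add_distrib]
  refine Finset.sum_congr rfl fun i _ => ?_
  simp only [le_mul_apply, he', map_sub]
  ring

omit hH in
theorem isMaximalIn : IsMaximalIn (OM Q) (GamK K ⊓ OM Q) := by
  obtain ⟨v, -, hv, hv0⟩ := exists_sing_sub (Q := R) (X := ⊤) (by rw [finrank_top]; exact S.dim)
  obtain ⟨w, hw, h0⟩ := S.nd.exists_partner hv hv0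
  rw [← pB_eq] at h0
  have hvv : pB R v v = 0 := by simp [pB_self, hv]
  refine isMaximalIn_of inf_le_right ?_ fun M hH hM g hg hg' => ?_
  · obtain ⟨δ, h1, h2⟩ := exists_trace_zero S.prime
    have h3 : R (v + δ • w) = δ := by simp [Qadd, Q_smul, hv, hw, h0]
    obtain ⟨g, hg, hgv⟩ := S.ndQ.EG_trans (by have := S.five; omega) hv0 (y := v + δ • w)
      (fun h => h1 (by simpa [h] using h3.symm)) (by rw [S.tr, S.tr, h3, h2, hv, map_zero])
    refine ⟨g, ⟨g, S.ndQ.EG_le_commutator (eichOK_of_two_ne_zero S.twoF) hg, rfl⟩,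
      fun ⟨⟨τ, hτ⟩, _⟩ => h1 ?_⟩
    have := form_aut (C := fun x y => pB R x y) S.tr2 (OG_pB g.2) (fun k => hτ k v) v
    rw [show (g : V ≃ₗ[F] V) v = _ from hgv, pB_self, h3, hvv, map_zero] at this
    exact (mul_eq_zero.1 this).resolve_left S.two
  by_contra hne
  have hM' := hM.trans OM_le
  have key : ∀ u, u ≠ 0 → R u = 0 → SL1 K g u := fun u hu0 hu => by
    have h1 : ∀ e ∈ M, e (g u) = g u → e ∈ stab ((KP F K u).map (g : V →ₗ[F] V)) := fun e he h => by
      have := S.fix_le hH hM' hne hu0 hu (x := g⁻¹ * e * g)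
        ⟨mul_mem (mul_mem (inv_mem hg) he) hg, by rw [le_mul_apply, le_mul_apply, h, le_inv_apply]⟩
      rw [mem_stab_iff_map, ← map_mul_le, show e * g = g * (g⁻¹ * e * g) by group, map_mul_le,
        mem_stab_iff_map.1 this]
    have h2 := S.sing_of_block hH (mem_map_KP.2 ⟨1, by rw [one_smul]⟩) (finrank_map_KP hu0 g)
      (fun y hy => by
        obtain ⟨k, rfl⟩ := mem_map_KP.1 hy
        rw [hM' hg, S.Q_zero hu]) h1
    exact S.sl1 hH hM' hne hg hu0 hu h2
      (S.eq_KP hH (by simpa using hu0) h2 (finrank_map_KP hu0 g) h1)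
  obtain ⟨τ, hτ⟩ := key v hv0 hv
  refine hg' ⟨mem_GamK_of_span (σ := τ) (S := {u | u = v ∨ (R u = 0 ∧ pB R v u ≠ 0)})
    (fun W hW => ?_) ?_, hM hg⟩
  · have h1 : ∀ x, pB R v x ≠ 0 → x ∈ W := fun x hx => by
      simpa using W.add_mem (hW (a := x - (R x / pB R v x) • v) (Or.inr ⟨by
        simp [Qsub, Q_smul, hv, pB_comm x v, div_mul_cancel₀ _ hx], by simpa [hvv] using hx⟩))
        (W.smul_mem (R x / pB R v x) (hW (Or.inl rfl)))
    refine eq_top_iff.2 fun x _ => ?_
    by_cases hx : pB R v x = 0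
    · simpa using W.sub_mem (h1 (x + w) (by simp [hx, h0])) (h1 w (by simp [h0]))
    · exact h1 x hx
  rintro u (rfl | ⟨h1, h2⟩)
  · exact hτ
  obtain ⟨τ', hτ'⟩ := key u (by rintro rfl; simp at h2) h1
  rwa [← aut_eq_of_form (B := fun x y => pB Q x y) (C := pB R) (fun _ _ => rfl) S.tr2
    (OG_pB (hM' hg)) hτ hτ' h2]

end OX

theorem exists_oX {Q : QuadraticForm F V} (hnd : ND Q) (h2 : (2 : F) ≠ 0)
    (hs : ∀ (k : K) x y, pB Q (k • x) y = pB Q x (k • y)) (hr : (finrank F K).Prime)
    (h3 : 3 ≤ finrank K V) (h7 : 7 ≤ finrank F V) : ∃ R : QuadraticForm K V, OX R Q := by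
  have h2' : (2 : K) ≠ 0 := by simpa only [map_ofNat] using (map_ne_zero (algebraMap F K)).2 h2
  obtain ⟨C, hC⟩ := exists_traceForm (pB Q) (RingHom.id K) hs
  have hh : ∀ x y, C y x = C x y := fun x y => eq_of_trace (F := F) fun k => by
    rw [mul_comm, ← smul_eq_mul, ← map_smul, ← hC, pB_comm, hs, hC, map_smul, smul_eq_mul, mul_comm]
  refine ⟨LinearMap.BilinMap.toQuadraticMap ((2 : K)⁻¹ • C), fun x hx => hnd x fun y => ?_,
    fun x => ?_, h2', hr, h3, h7⟩
  · have := hx y
    rw [LinearMap.BilinMap.polar_toQuadraticMap] at this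
    simp only [LinearMap.smul_apply, smul_eq_mul, hh x y, ← mul_two, mul_eq_zero, inv_eq_zero,
      h2', false_or, or_false] at this
    rw [← pB_eq, hC, this, map_zero]
  · rw [LinearMap.BilinMap.toQuadraticMap_apply, LinearMap.smul_apply, LinearMap.smul_apply,
      ← map_ofNat (algebraMap F K), ← map_inv₀, algebraMap_smul, map_smul, ← hC, pB_self,
      smul_eq_mul, inv_mul_cancel_left₀ h2]

/-- The matrix form of the maximality of `O_{n/r}(q^r)` in `Ω_n(q)`, `q` odd. -/
theorem isMaximalIn_o_ext {F : Type*} [Field F] [Fintype F] (hodd : Odd (Fintype.card F))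
    {ι : Type} [Fintype ι] [DecidableEq ι] {r : ℕ} (hr : r.Prime) (hn : 7 ≤ Fintype.card ι)
    (hnr : 2 * r < Fintype.card ι) {Q : (ι → F) → F} (hQ : IsNondegenerateQuadraticForm Q)
    {K : Subalgebra F (Matrix ι ι F)} (hK : IsFieldSubalgebra r K)
    (hsa : IsSelfAdjointFor (QuadraticMap.polar Q) K) :
    IsMaximalIn (omegaGL Q) (subalgebraNormalizer K ⊓ omegaGL Q) := by
  haveI : Nonempty ι := Fintype.card_pos_iff.1 (by omega)
  obtain ⟨Q, rfl, hnd⟩ := exists_qf hQ
  have hdim := finrank_KF_mul hK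
  obtain ⟨R, S⟩ := exists_oX (K := KF hK) hnd (two_ne_zero_of_odd_card hodd)
    (fun k => hsa _ (KF.mat_mem hK k)) (by rwa [KF.finrank_eq]) (by
      by_contra h
      have := Nat.mul_le_mul_left r (show finrank (KF hK) (ι → F) ≤ 2 by omega)
      omega) (by rwa [Module.finrank_fintype_fun_eq_card])
  have h := isMaximalIn_comap (toLE _ F) S.isMaximalIn
  rwa [Subgroup.comap_inf, comap_GamK, comap_OM] at h

theorem isMaximalIn_o_ext_odd {F : Type*} [Field F] [Fintype F] (hodd : Odd (Fintype.card F))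
    {m : ℕ} (hm : 3 ≤ m) {r : ℕ} (hr : r.Prime) (hrn : 2 * m + 1 ≠ r)
    {K : Subalgebra F (Matrix (Unit ⊕ (Fin m ⊕ Fin m)) (Unit ⊕ (Fin m ⊕ Fin m)) F)}
    (hK : IsFieldSubalgebra r K)
    (hsa : IsSelfAdjointFor (QuadraticMap.polar (Cfsg.quadFormOdd m F)) K) :
    IsMaximalIn (omegaGL (Cfsg.quadFormOdd m F))
      (subalgebraNormalizer K ⊓ omegaGL (Cfsg.quadFormOdd m F)) := by
  have h := finrank_KF_mul hK
  have h1 : Fintype.card (Unit ⊕ (Fin m ⊕ Fin m)) = 2 * m + 1 := by simp; omega
  refine isMaximalIn_o_ext hodd hr (by omega) ?_ ?_ hK hsa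
  · rw [h1] at h ⊢
    generalize finrank (KF hK) (Unit ⊕ (Fin m ⊕ Fin m) → F) = d at h
    obtain _ | _ | _ | d := d
    · omega
    · omega
    · omega
    · have := hr.pos
      rw [← h]; nlinarith
  · rw [← funext fun v => (qOdd_eq F m v).symm]
    exact (nd_qOdd (two_ne_zero_of_odd_card hodd) m).isNQF

end Cfsg.Agent.H98
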