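import Cfsg.Agent.H98.ExtHom
import Cfsg.Agent.H98.ExtSp

/-! Extension field subgroups of type `O_m(K)` in `Ω_{mr}(F)`, odd characteristic: the stabiliser
of a singular `K`-point acts semilinearly on it. -/

set_option autoImplicit false
set_option linter.unusedSectionVars false
set_option linter.unusedVariables false
set_option linter.unusedSimpArgs false
set_option linter.style.haveILetI false

namespace Cfsg.Agent.H98

open Module Cfsg.Agent.H27 Cfsg.Geo Cfsg.Agent.H11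

variable {F K V : Type*} [Field F] [Field K] [Algebra F K] [Finite K] [AddCommGroup V]
  [Module F V] [Module K V] [IsScalarTower F K V] [Finite V]

/-- `Q` is the trace of the quadratic form `R`. -/
structure OX (R : QuadraticForm K V) (Q : QuadraticForm F V) : Prop where
  nd : ND R
  tr : ∀ x, Q x = Algebra.trace F K (R x)
  two : (2 : K) ≠ 0
  prime : (finrank F K).Prime
  dim : 3 ≤ finrank K V
  big : 7 ≤ finrank F V

/-- The action on `(K v)^⊥` of the elements of `M` trivial on `K v` and `(K v)^⊥ / K v`. -/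
def RB (R : QuadraticForm K V) (M : Subgroup (V ≃ₗ[F] V)) (v : V) : AddSubgroup (V → K) where
  carrier := {φ | ∃ e ∈ M, (∀ k : K, e (k • v) = k • v) ∧ ∀ y, pB R v y = 0 → e y = y + φ y • v}
  zero_mem' := ⟨1, M.one_mem, fun _ => rfl, fun y _ => by simp⟩
  add_mem' := by
    rintro a b ⟨e, he, h1, h2⟩ ⟨f, hf, h3, h4⟩
    exact ⟨e * f, mul_mem he hf, fun k => by rw [le_mul_apply, h3, h1], fun y hy => by
      rw [le_mul_apply, h4 y hy, map_add, h1, h2 y hy, Pi.add_apply, add_smul, add_assoc]⟩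
  neg_mem' := by
    rintro a ⟨e, he, h1, h2⟩
    exact ⟨e⁻¹, inv_mem he, fun k => e.injective (by rw [le_apply_inv, h1]), fun y hy =>
      e.injective (by rw [le_apply_inv, map_add, h1, h2 y hy]; simp)⟩

/-- The endomorphisms of `K` preserving `RB`. -/
def SB (R : QuadraticForm K V) (M : Subgroup (V ≃ₗ[F] V)) (v : V) : Subring (Module.End F K) where
  carrier := {α | ∀ φ ∈ RB R M v, (fun y => α (φ y)) ∈ RB R M v}
  mul_mem' ha hb φ hφ := ha _ (hb φ hφ)
  one_mem' φ hφ := hφ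
  add_mem' ha hb φ hφ := add_mem (ha φ hφ) (hb φ hφ)
  zero_mem' φ hφ := zero_mem _
  neg_mem' ha φ hφ := neg_mem (ha φ hφ)

theorem mem_SB {R : QuadraticForm K V} {M : Subgroup (V ≃ₗ[F] V)} {v : V} (hv : R v = 0)
    {t : V ≃ₗ[F] V} (ht : t ∈ M) (h1 : ∀ y, pB R v y = 0 → ∃ c : K, t y = y + c • v)
    {α : Module.End F K} (h2 : ∀ k, t (α k • v) = k • v) : α ∈ SB R M v := by
  rintro φ ⟨e, he, h3, h4⟩
  refine ⟨t⁻¹ * e * t, mul_mem (mul_mem (inv_mem ht) he) ht, fun k => ?_, fun y hy => ?_⟩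
  · obtain ⟨c, hc⟩ := h1 (k • v) (by simp [pB_self, hv])
    rw [le_mul_apply, le_mul_apply, hc, ← add_smul, h3, add_smul, ← hc, le_inv_apply]
  · obtain ⟨c, hc⟩ := h1 y hy
    rw [le_mul_apply, le_mul_apply, hc, map_add, h3, h4 y hy, add_right_comm, ← hc, ← h2,
      ← map_add, le_inv_apply]

namespace OX

variable [Finite F] {R : QuadraticForm K V} {Q : QuadraticForm F V} (S : OX R Q)
  {M : Subgroup (V ≃ₗ[F] V)}
include S

theorem trB (x y : V) : pB Q x y = Algebra.trace F K (pB R x y) := by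
  have h1 := Qadd (Q := Q) x y
  rw [S.tr, S.tr, S.tr, Qadd, map_add, map_add, add_right_inj] at h1
  exact h1.symm

theorem tr2 (k : K) (x y : V) : pB Q x (k • y) = Algebra.trace F K (k * pB R x y) := by
  rw [S.trB, map_smul, smul_eq_mul]

theorem tr1 (k : K) (x y : V) : pB Q (k • x) y = Algebra.trace F K (k * pB R x y) := by
  rw [pB_comm, S.tr2, pB_comm]

theorem B_zero {x y : V} (h : pB R x y = 0) : pB Q x y = 0 := by rw [S.trB, h, map_zero]

theorem Q_zero {x : V} (h : R x = 0) (k : K) : Q (k • x) = 0 := by simp [S.tr, Q_smul, h]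

theorem C_zero {x y : V} (h : ∀ k : K, pB Q x (k • y) = 0) : pB R x y = 0 :=
  eq_zero_of_trace (F := F) fun k => by rw [mul_comm, ← S.tr2, h]

theorem ndQ : ND Q := fun x hx => S.nd x fun y => S.C_zero fun k => hx _

theorem five : 5 ≤ finrank F V := by have := S.big; omega

theorem twoF : (2 : F) ≠ 0 := fun h =>
  S.two (by simpa only [map_zero, map_ofNat] using congrArg (algebraMap F K) h)

theorem om_le {h : V ≃ₗ[K] V} (hh : h ∈ OM R) : h.restrictScalars F ∈ GamK K ⊓ OM Q := by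
  obtain ⟨h, hh, rfl⟩ := hh
  let ψ : OG R →* OG Q := ((resH F K V).comp (OG R).subtype).codRestrict _ fun g x => by
    rw [S.tr, S.tr]; exact congrArg _ (g.2 x)
  have : (commutator (OG R)).map ψ ≤ commutator (OG Q) := by
    rw [map_commutator_eq]; exact Subgroup.commutator_mono le_top le_top
  exact ⟨restrict_mem_GamK _, ψ h, this ⟨h, hh, rfl⟩, rfl⟩

theorem exists_rho {v u : V} (hv : R v = 0) (hu : pB R v u = 0) :
    ∃ g ∈ OM R, ∀ x, g x = eF R v u x :=
  ⟨_, ⟨eich hv hu, S.nd.EG_le_commutator (eichOK_of_two_ne_zero S.two) (eich_mem_EG hv hu), rfl⟩,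
    fun x => by
      have := ap_eich hv hu x
      rw [eF, pB_comm v, pB_comm u, add_smul, ← sub_sub]; exact this⟩

theorem mem_KP_of_perp {v x : V} (hv : v ≠ 0) (h : ∀ y, pB R v y = 0 → pB R x y = 0) :
    x ∈ KP F K v := by
  obtain ⟨x₀, h0⟩ := S.nd.exists_eq hv 1
  rw [← pB_eq] at h0
  refine mem_KP.2 ⟨pB R x x₀, (sub_eq_zero.1 (S.nd _ fun y => ?_)).symm⟩
  have := h (y - pB R v y • x₀) (by simp [h0])
  simp only [← pB_eq, map_sub, map_smul, LinearMap.sub_apply, LinearMap.smul_apply,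
    smul_eq_mul] at this ⊢
  linear_combination this

theorem exists_u {v w : V} (hv : R v = 0) (hw : R w = 0) (h : pB R v w ≠ 0) :
    ∃ u, pB R v u = 0 ∧ pB R w u = 0 ∧ Q u ≠ 0 := by
  obtain ⟨y, -, h1, h2⟩ := exists_ker_list [pB R v, pB R w] (W := ⊤) (S := ⊥) (by
    have := S.dim
    rw [finrank_top, finrank_bot]; simp; omega)
  have h3 : pB R v y = 0 := h1 _ (by simp)
  have h4 : pB R w y = 0 := h1 _ (by simp)
  by_contra hc
  push Not at hc
  refine h2 (S.ndQ y fun x => ?_)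
  have h5 : pB R v (x - (pB R w x / pB R v w) • v - (pB R v x / pB R v w) • w) = 0 := by
    simp [pB_self, hv, div_mul_cancel₀ _ h]
  have h6 : pB R w (x - (pB R w x / pB R v w) • v - (pB R v x / pB R v w) • w) = 0 := by
    simp [pB_self, hw, pB_comm w v, div_mul_cancel₀ _ h]
  have h7 := Qadd (Q := Q) y (x - (pB R w x / pB R v w) • v - (pB R v x / pB R v w) • w)
  rw [hc _ (by rw [map_add, h3, h5, add_zero]) (by rw [map_add, h4, h6, add_zero]), hc _ h3 h4,
    hc _ h5 h6, map_sub, map_sub, S.tr2, S.tr2, pB_zero h3, pB_zero h4] at h7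
  simpa [pB_eq] using h7.symm

theorem rE_mem_om {a b : V} {l : K} (ha : R a ≠ 0) (hl : l ≠ 0) (h : R b = l * l * R a) :
    rE R a * rE R b ∈ OM R := by
  have := rE_mul_mem S.nd (x := l • a) (y := b) (by simp [Q_smul, ha, hl]) (by rw [Q_smul, h])
  rwa [rE, refl_smul hl] at this

theorem exists_torus {v w : V} (hv : R v = 0) (hw : R w = 0) (h : pB R v w = 1) {l : K}
    (hl : l ≠ 0) : ∃ t ∈ OM R, ∀ y, pB R v y = 0 → t y = y + ((l * l - 1) * pB R w y) • v := by
  have h1 : ∀ c : K, R (v + c • w) = c := fun c => by simp [Qadd, Q_smul, hv, hw, h]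
  refine ⟨_, S.rE_mem_om (a := v + (1 : K) • w) (b := v + (l * l) • w) (by simp only [h1]; simp) hl
    (by rw [h1, h1, mul_one]), fun y hy => ?_⟩
  simp only [le_mul_apply, rE_apply, h1, map_add, map_sub, map_smul, LinearMap.add_apply,
    LinearMap.smul_apply, hy, h, pB_comm w v, pB_self, hv, hw, smul_eq_mul]
  match_scalars <;> field_simp <;> ring

theorem perp_conj {g : V ≃ₗ[F] V} (hg : g ∈ OG Q) {v w y : V}
    (h : ∀ k : K, g (k • v) ∈ KP F K w) (hy : pB R w y = 0) : pB R v (g⁻¹ y) = 0 :=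
  pB_zero (S.C_zero fun k => by
    obtain ⟨c, hc⟩ := mem_KP.1 (h k)
    rw [← OG_pB hg, le_apply_inv, ← hc, S.tr2, pB_zero hy, mul_zero, map_zero])

variable (hH : GamK K ⊓ OM Q ≤ M) (hM : M ≤ OG Q)
include hH hM

theorem conj_mem_SB {g : V ≃ₗ[F] V} (hg : g ∈ M) {v w : V} (hv0 : v ≠ 0) (hv : R v = 0)
    (hw : R w = 0) {g₁ g₂ : Module.End F K} (h1 : ∀ k, g (k • v) = g₁ k • w)
    (h12 : ∀ k, g₁ (g₂ k) = k) (h21 : ∀ k, g₂ (g₁ k) = k) (k : K) :
    g₁ * LinearMap.mulLeft F k * g₂ ∈ SB R M w := by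
  obtain ⟨v', hv', h0⟩ := S.nd.exists_partner hv hv0
  refine conj_mem_of_sq h12 h21 (fun l hl => ?_) k
  obtain ⟨t, ht, htf⟩ := S.exists_torus hv hv' h0 (inv_ne_zero hl)
  refine mem_SB hw (mul_mem (mul_mem hg (hH (S.om_le ht))) (inv_mem hg)) (fun y hy => ?_)
    fun k => ?_
  · exact ⟨_, (congrArg g (htf _ (S.perp_conj (hM hg) (fun k => h1 k ▸ smul_mem_KP _ _)
      hy))).trans (by rw [map_add, le_apply_inv, h1])⟩
  · change g (t (g⁻¹ (g₁ (l * l * g₂ k) • w))) = _
    rw [← h1, le_inv_apply, htf _ (by simp [pB_self, hv]), map_smul, pB_comm, pB_eq, h0,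
      ← add_smul, h1, ← h12 k, h21]
    congr 2
    rw [smul_eq_mul]; field_simp; ring

theorem le_of_SB {v : V} (hv0 : v ≠ 0) (hv : R v = 0) (h : ∀ β, β ∈ SB R M v) : OM Q ≤ M := by
  obtain ⟨w, hw, h0⟩ := S.nd.exists_partner hv hv0
  rw [← pB_eq] at h0
  have hvv : pB R v v = 0 := by simp [pB_self, hv]
  obtain ⟨u₀, hu1, hu2, hu3⟩ := S.exists_u hv hw (by simp [h0])
  have h1 : ∀ (a : K) u, pB R v u = 0 → ∃ e ∈ M, (∀ k : K, e (k • v) = k • v) ∧
      ∀ y, pB R v y = 0 → e y = y - pB Q u y • a • v := fun a u hu => by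
    obtain ⟨g, hg, hf⟩ := S.exists_rho hv hu
    obtain ⟨e, h1, h2, h3⟩ := h ((Algebra.trace F K).smulRight a) (fun y => -pB R u y)
      ⟨_, hH (S.om_le hg), fun k => (hf _).trans (by simp [eF, hvv, pB_zero hu]), fun y hy =>
        (hf _).trans (by simp [eF, hy, sub_eq_add_neg])⟩
    exact ⟨e, h1, h2, fun y hy => by simp [h3 y hy, S.trB, sub_eq_add_neg]⟩
  have hC : ∀ e ∈ M, (∀ k : K, e (k • v) = k • v) → ∀ x, pB R v (e x - x) = 0 :=
    fun e he h x => pB_zero (S.C_zero fun k => by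
      rw [map_sub, LinearMap.sub_apply, ← h, OG_pB (hM he), h, sub_self])
  have hc : pB Q u₀ u₀ ≠ 0 := by simp [pB_self, hu3, S.twoF]
  have h2 : ∀ a b : K, ((Algebra.trace F K ∘ₗ LinearMap.mulLeft F a).smulRight b -
      (Algebra.trace F K ∘ₗ LinearMap.mulLeft F b).smulRight a) ∈ lev (pB R) M hvv := by
    intro a b
    have key : ∀ {e₁ e₂ : V ≃ₗ[F] V} {a b : K}, e₂ ∈ M → (∀ k : K, e₂ (k • v) = k • v) →
        (∀ y, pB R v y = 0 → e₁ y = y - pB Q u₀ y • a • v) →
        (∀ y, pB R v y = 0 → e₂ y = y - pB Q u₀ y • b • v) → ∀ x,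
        e₁ (e₂ x) = e₁ x + e₂ x - x - (pB Q u₀ u₀ * pB Q (b • v) x) • a • v := by
      intro e₁ e₂ a b he h1 h2 h3 x
      have h4 := OG_pB (hM he) (u₀ + pB Q u₀ u₀ • b • v) x
      rw [map_add e₂, map_smul e₂, h1, h3 _ hu1, sub_add_cancel] at h4
      have h5 := h2 _ (hC _ he h1 x)
      rw [map_sub, sub_eq_iff_eq_add, map_sub, h4] at h5
      rw [h5]; simp; abel
    obtain ⟨e₁, a1, a2, a3⟩ := h1 a u₀ hu1
    obtain ⟨e₂, b1, b2, b3⟩ := h1 ((pB Q u₀ u₀)⁻¹ • b) u₀ hu1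
    refine ⟨_, mul_mem (inv_mem (mul_mem b1 a1)) (mul_mem a1 b1), fun x => ?_⟩
    apply (e₂ * e₁).injective
    rw [← le_mul_apply, mul_inv_cancel_left, le_mul_apply, le_mul_apply, map_add e₁, a2,
      map_add e₂, b2, key b1 b2 a3 b3, key a1 a2 b3 a3]
    simp only [smul_assoc, map_smul, LinearMap.smul_apply, smul_eq_mul, mul_inv_cancel_left₀ hc,
      S.tr1, LinearMap.sub_apply, LinearMap.smulRight_apply, LinearMap.comp_apply,
      LinearMap.mulLeft_apply, sub_smul, smul_smul _ (pB Q u₀ u₀)⁻¹,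
      mul_right_comm _ _ (pB Q u₀ u₀)⁻¹, mul_inv_cancel₀ hc, one_mul]
    abel
  have h3 : ∀ f ∈ OG Q, (∀ y, pB R v y = 0 → f y = y) → f ∈ M := fun f hf h => by
    obtain ⟨ν, hν⟩ := exists_coordMap (K := K) hv0 ((f : V →ₗ[F] V) - 1) fun x =>
      S.mem_KP_of_perp hv0 fun y hy => S.C_zero fun k => by
        have := OG_pB hf x (k • y)
        rw [h (k • y) (by simp [hy])] at this
        simp [this]
    have hν' : ∀ x, f x = x + ν x • v := fun x => by simp [← hν]
    have h4 : ∀ s t : K, Algebra.trace F K (ν (t • w) * s) = -Algebra.trace F K (t * ν (s • w)) :=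
      fun s t => by
        have := OG_pB hf (s • w) (t • w)
        simp only [hν', map_add, LinearMap.add_apply, S.trB, map_smul, LinearMap.smul_apply,
          smul_eq_mul, h0, pB_comm w v, hvv, mul_zero, map_zero, mul_one] at this
        linear_combination this
    refine Has.mem (AddSubgroup.sum_mem (lev (pB R) M hvv) (t := Finset.univ)
      fun i _ => h2 (bD F K i) ((2 : F)⁻¹ • ν (bK F K i • w))) fun x => ?_
    have h5 := h (x - pB R v x • w) (by simp [h0])
    rw [map_sub, hν' (_ • w), sub_eq_iff_eq_add] at h5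
    rw [h5, ← add_assoc, sub_add_cancel, add_right_inj]
    congr 1
    generalize pB R v x = s
    have h6 : ∑ i, Algebra.trace F K (bD F K i * s) • ν (bK F K i • w) = ν (s • w) := by
      conv_rhs => rw [← sum_trace_bD (F := F) s, Finset.sum_smul, map_sum]
      simp
    have h7 : ∑ i, Algebra.trace F K (bK F K i * ν (s • w)) • bD F K i = ν (s • w) :=
      eq_of_trace (F := F) fun z => by
        conv_rhs => rw [← sum_trace_bD (F := F) z, Finset.mul_sum, map_sum]
        rw [Finset.sum_mul, map_sum]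
        simp [mul_comm]
    simp only [LinearMap.sum_apply, LinearMap.sub_apply, LinearMap.smulRight_apply,
      LinearMap.comp_apply, LinearMap.mulLeft_apply, smul_mul_assoc, map_smul, h4, smul_neg,
      neg_smul, sub_neg_eq_add, smul_comm _ (2 : F)⁻¹, smul_assoc, ← smul_add, ← Finset.smul_sum,
      Finset.sum_add_distrib, h6, h7]
    rw [← two_smul F, smul_smul, inv_mul_cancel₀ S.twoF, one_smul]
  have full : ∀ (a : K) u, pB R v u = 0 → u ∈ RR M (S.Q_zero hv a) := fun a u hu => by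
    have h4 : ∀ y, pB R v y = 0 → pB Q (a • v) y = 0 := fun y hy => by simp [S.tr1, hy]
    refine ⟨h4 u hu, fun c => ?_⟩
    have hu' : pB R v (c • u) = 0 := by rw [LinearMap.map_smul_of_tower, hu, smul_zero]
    obtain ⟨e, he, -, h5⟩ := h1 a _ hu'
    obtain ⟨g, hg, hf⟩ := exists_eich S.ndQ S.five (S.Q_zero hv a) (h4 _ hu')
    have := h3 _ (mul_mem (inv_mem (hM he)) (OM_le hg)) fun y hy => by
      rw [le_mul_apply, hf, eF, h4 y hy]
      simp only [zero_smul, add_zero, mul_zero, ← h5 y hy, le_inv_apply]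
    exact ⟨g, by simpa using mul_mem he this, hf⟩
  obtain ⟨g, hg, hf⟩ := S.exists_rho hw hu2
  have hgM := hH (S.om_le hg)
  have hg' : R (g v) = 0 := (OM_le hg v).trans hv
  have h4 : pB R v (g v) = -R u₀ := by
    simp [hf, eF, hvv, hu1, h0, pB_comm w v, pB_zero hu1]
  have h5 : R u₀ ≠ 0 := fun h => hu3 (by rw [S.tr, h, map_zero])
  have hv' : Q v = 0 := by simpa using S.Q_zero hv 1
  have ao : AO Q M v := ⟨hv', fun x hx => by
    have h6 : ∀ u, pB R v u = 0 → u ∈ RR M hv' := fun u hu => by simpa using full 1 u hu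
    obtain ⟨u, h7, h8, h9⟩ := S.exists_u hv hg' (by simp [h4, h5])
    have h10 := rr_conj (full (-(pB R v x / R u₀)) (g⁻¹ u) (by
      rw [← OG_pB (OM_le hg), le_apply_inv, h8])) hgM (hM hgM)
      (S.Q_zero hg' (-(pB R v x / R u₀))) (g.map_smul _ _)
    rw [show g.restrictScalars F (g⁻¹ u) = u from le_apply_inv g u] at h10
    have h11 := rr_move (h6 u h7) h10 (by
      rw [S.tr1, pB_comm (g v), h4, neg_mul_neg, div_mul_cancel₀ _ h5, ← S.trB, hx])
      (S.B_zero (pB_zero h7))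
    rw [h10.1, zero_smul, mul_zero, add_zero, zero_sub, neg_mem_iff, Submodule.smul_mem_iff _
      (by simp [pB_self, h9, S.twoF])] at h11
    simpa using add_mem (h6 (x - (-(pB R v x / R u₀)) • g v) (by
      rw [map_sub, map_smul, h4, smul_eq_mul, neg_mul_neg, div_mul_cancel₀ _ h5, sub_self])) h11⟩
  exact OM_le_of_two S.ndQ S.five ao (ao.conj hgM (hM hgM)) (by
    change pB Q v (g v) ≠ 0
    rw [S.trB, h4, map_neg, ← S.tr]; simpa using hu3)

theorem sl1 (hne : ¬ OM Q ≤ M) {g : V ≃ₗ[F] V} (hg : g ∈ M) {v : V} (hv0 : v ≠ 0) (hv : R v = 0)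
    (hw : R (g v) = 0) (h : (KP F K v).map (g : V →ₗ[F] V) = KP F K (g v)) : SL1 K g v := by
  have hw0 : g v ≠ 0 := by simpa using hv0
  obtain ⟨g₁, h1⟩ := exists_coordMap hw0 ((g : V →ₗ[F] V) ∘ₗ
    (LinearMap.toSpanSingleton K V v).restrictScalars F) fun k => h ▸ mem_map_KP.2 ⟨k, rfl⟩
  obtain ⟨g₂, h2⟩ := exists_coordMap (K := K) hv0 (((g⁻¹ : V ≃ₗ[F] V) : V →ₗ[F] V) ∘ₗ
    (LinearMap.toSpanSingleton K V (g v)).restrictScalars F) fun k => by
      obtain ⟨c, hc⟩ := mem_map_KP.1 (h ▸ smul_mem_KP (g v) k)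
      exact mem_KP.2 ⟨c, (le_inv_apply g _).symm.trans (congrArg _ hc)⟩
  replace h1 : ∀ k, g (k • v) = g₁ k • g v := h1
  replace h2 : ∀ k, g⁻¹ (k • g v) = g₂ k • v := h2
  have h12 : ∀ k, g₁ (g₂ k) = k := fun k =>
    smul_left_cancel' hw0 (by rw [← h1, ← h2, le_apply_inv])
  have h21 : ∀ k, g₂ (g₁ k) = k := fun k =>
    smul_left_cancel' hv0 (by rw [← h2, ← h1, le_inv_apply])
  refine sl1_of_norm hv0 fun k => ?_
  by_contra hc
  refine hne (S.le_of_SB hH hM hw0 hw (subring_eq_top S.prime (fun k => by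
    simpa using S.conj_mem_SB hH hM M.one_mem hw0 hw hw (g₁ := 1) (g₂ := 1) (fun _ => rfl)
      (fun _ => rfl) (fun _ => rfl) k) (S.conj_mem_SB hH hM hg hv0 hv hw h1 h12 h21 k) ?_))
  rintro ⟨k', hk'⟩
  refine hc ⟨k', fun x => ?_⟩
  have := hk' (g₁ x)
  rw [h1, h1, smul_smul, ← this]; simp [h21]

end OX

end Cfsg.Agent.H98
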