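import Cfsg.Agent.H98.ExtHerm

/-! Maximality of the extension field subgroups of type `GU_m(q^r)` in `SU_{mr}(q)`, `m ≥ 2`. -/

set_option autoImplicit false
set_option linter.unusedSectionVars false
set_option linter.unusedVariables false
set_option linter.unusedSimpArgs false
set_option linter.style.haveILetI false

namespace Cfsg.Agent.H98

open Module Cfsg.Agent.H27 Cfsg.Geo

variable {F K V : Type*} [Field F] [Field K] [Algebra F K] [Finite K] [AddCommGroup V]
  [Module F V] [Module K V] [IsScalarTower F K V] [Finite V] {τ : K →+* K} {σ : F →+* F}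

/-- The elements `x ↦ x + α (χ x) v` of `M`. -/
def lvl (M : Subgroup (V ≃ₗ[F] V)) {χ : Dual K V} {v : V} (hv : χ v = 0) :
    AddSubgroup (Module.End F K) where
  carrier := {α | Has M fun x => x + α (χ x) • v}
  zero_mem' := (has_id M).congr fun x => by simp
  add_mem' ha hb := (Has.comp ha hb).congr fun x => by
    simp only [map_add, map_smul, hv, smul_zero, add_zero, LinearMap.add_apply, add_smul]; abel
  neg_mem' ha := Has.inv ha fun x => by simp [hv]

/-- `B` is the trace of the skew-Hermitian form `C`. -/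
structure SUX (C : V →ₛₗ[τ] V →ₗ[K] K) (B : V →ₛₗ[σ] V →ₗ[F] F) : Prop where
  h : HX τ σ
  c : UH C
  b : UH B
  tr : ∀ x y, B x y = Algebra.trace F K (C x y)
  dim : 2 ≤ finrank K V
  ex : ∃ u : K, u * τ u = 1 ∧ (∀ c, algebraMap F K c ≠ u) ∧
    (Algebra.norm F u = 1 ∨ 3 ≤ finrank K V)

namespace SUX

variable [Finite F] {C : V →ₛₗ[τ] V →ₗ[K] K} {B : V →ₛₗ[σ] V →ₗ[F] F} (S : SUX C B)
  {M : Subgroup (V ≃ₗ[F] V)}
include S

theorem tr1 (k : K) (x y : V) : B (k • x) y = Algebra.trace F K (τ k * C x y) := by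
  rw [S.tr, LinearMap.map_smulₛₗ, LinearMap.smul_apply, smul_eq_mul]

theorem tr2 (k : K) (x y : V) : B x (k • y) = Algebra.trace F K (k * C x y) := by
  rw [S.tr, map_smul, smul_eq_mul]

theorem C_zero {x y : V} (h : ∀ k : K, B x (k • y) = 0) : C x y = 0 :=
  eq_zero_of_trace (F := F) fun k => by rw [mul_comm, ← S.tr2, h]

theorem iso {h : V ≃ₗ[K] V} (hh : h ∈ Iso C)
    (hd : Algebra.norm F (LinearMap.det (h : V →ₗ[K] V)) = 1) :
    h.restrictScalars F ∈ GamK K ⊓ GG B :=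
  ⟨restrict_mem_GamK h, fun x y => by rw [S.tr, S.tr]; exact congrArg _ (hh x y),
    mem_SLV.2 (by rw [det_restrict, hd])⟩

theorem gg {h : V ≃ₗ[K] V} (hh : h ∈ GG C) : h.restrictScalars F ∈ GamK K ⊓ GG B :=
  S.iso hh.1 (by rw [mem_SLV.1 hh.2, map_one])

theorem exists_pair {v : V} (hv0 : v ≠ 0) (hv : C v v = 0) : ∃ w, C w w = 0 ∧ C v w = 1 := by
  obtain ⟨y, hy⟩ := not_forall.1 fun h => hv0 (S.c.nd v h)
  obtain ⟨w, -, h⟩ := S.c.exists_partner (P := ⊤) hv trivial (b := y) trivial hy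
  exact ⟨w, h⟩

theorem mem_KP_of_perp {v x : V} (hv : v ≠ 0) (h : ∀ y, C v y = 0 → C x y = 0) :
    x ∈ KP F K v := by
  obtain ⟨y, hy⟩ := not_forall.1 fun h => hv (S.c.nd v h)
  refine mem_KP.2 ⟨τ (C x y / C v y), (sub_eq_zero.1 (S.c.nd _ fun z => ?_)).symm⟩
  have := h (z - (C v z / C v y) • y) (by simp [div_mul_cancel₀ _ hy])
  simp only [map_sub, map_smul, LinearMap.sub_apply, LinearMap.smul_apply, smul_eq_mul,
    LinearMap.map_smulₛₗ, S.c.inv, RingHom.id_apply] at this ⊢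
  linear_combination this

theorem adjust {g : V ≃ₗ[K] V} (hg : g ∈ Iso C) {a b : V}
    (h : ∀ x, ∃ s t : K, C a (x - s • a - t • b) = 0 ∧ C b (x - s • a - t • b) = 0)
    (hd : Algebra.norm F (LinearMap.det (g : V →ₗ[K] V)) = 1 ∨ 3 ≤ finrank K V) :
    ∃ s : V ≃ₗ[K] V, (s * g).restrictScalars F ∈ GamK K ⊓ GG B ∧ s a = a ∧ s b = b := by
  rcases hd with hd | hd
  · exact ⟨1, S.iso (by simpa using hg) (by simpa using hd), rfl, rfl⟩
  obtain ⟨r, h1, h2, h3⟩ : ∃ r, C a r = 0 ∧ C b r = 0 ∧ C r r ≠ 0 := by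
    obtain ⟨y, -, h1, h2⟩ := exists_ker_list [C a, C b] (W := ⊤) (S := ⊥) (by
      rw [finrank_top, finrank_bot]; simp; omega)
    have h3 : C a y = 0 := h1 _ (by simp)
    have h4 : C b y = 0 := h1 _ (by simp)
    by_contra hc
    push Not at hc
    refine h2 (S.c.nd y fun x => ?_)
    obtain ⟨s, t, h5, h6⟩ := h x
    simpa [S.c.zero_symm h3, S.c.zero_symm h4] using herm_eq_zero_of_self (B := C) S.c.ne
      (LinearMap.ker (C a) ⊓ LinearMap.ker (C b)) (fun v hv => hc v hv.1 hv.2) y ⟨h3, h4⟩ _ ⟨h5, h6⟩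
  obtain ⟨s, h4, h5, h6⟩ := S.c.exists_refl h3 (l := (LinearMap.det (g : V →ₗ[K] V))⁻¹)
    (by rw [map_inv₀, ← mul_inv, S.c.det g hg, inv_one])
  exact ⟨s, S.gg ⟨mul_mem h4 hg, mem_SLV.2 (by rw [det_mul', h5, inv_mul_cancel₀ (det_ne_zero' g)])⟩,
    by simp [h6, S.c.zero_symm h1], by simp [h6, S.c.zero_symm h2]⟩

theorem exists_torus {v : V} (hv0 : v ≠ 0) (hv : C v v = 0) {l : K} (hl : l ≠ 0) :
    ∃ d ∈ Iso C, LinearMap.det (d : V →ₗ[K] V) = l / τ l ∧ d v = l • v := by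
  obtain ⟨w, hw, h⟩ := S.exists_pair hv0 hv
  have h' := S.c.one_symm h
  have hl' : τ l ≠ 0 := by simpa using hl
  have h1 : 1 + ((1 - l) • C w) v = l := by simp [h']
  have h2 : 1 + (((τ l)⁻¹ - 1) • C v) w = (τ l)⁻¹ := by simp [h]
  refine ⟨dil v _ (by rwa [h1]) * dil w _ (by rw [h2]; exact inv_ne_zero hl'), fun x y => ?_,
    by rw [det_mul', det_dil, det_dil, h1, h2, div_eq_mul_inv], ?_⟩
  · simp only [le_mul_apply, dil_apply, map_add, map_smul, LinearMap.map_smulₛₗ, hv, hw, h, h',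
      LinearMap.add_apply, LinearMap.smul_apply, smul_eq_mul, map_mul, map_sub, map_one, map_inv₀,
      S.c.inv, S.c.skew v x, S.c.skew w x, RingHom.id_apply, map_zero]
    field_simp; ring
  · simp only [le_mul_apply, dil_apply, LinearMap.smul_apply, hv, h', smul_zero, zero_smul, add_zero]
    module

theorem pt_trans {v u : V} (hv0 : v ≠ 0) (hv : C v v = 0) (hu0 : u ≠ 0) (hu : C u u = 0) :
    ∃ h ∈ GG C, ∃ l : K, l ≠ 0 ∧ h v = l • u := by
  obtain ⟨g, h1, h2⟩ := iso_trans S.c.toSkH hv0 hu0 (hv.trans hu.symm)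
  obtain ⟨l, h3, h4⟩ := S.h.exists_div (u := (LinearMap.det (g : V →ₗ[K] V))⁻¹)
    (by rw [map_inv₀, ← mul_inv, S.c.det g h1, inv_one])
  obtain ⟨d, h5, h6, h7⟩ := S.exists_torus hv0 hv h3
  exact ⟨g * d, ⟨mul_mem h1 h5, mem_SLV.2 (by
    rw [det_mul', h6, h4, mul_inv_cancel₀ (det_ne_zero' g)])⟩, l, h3, by
      rw [le_mul_apply, h7, map_smul, h2]⟩

theorem lvl_conj {v : V} (hv : C v v = 0) {e : V ≃ₗ[F] V} (he : e ∈ M) (hi : e ∈ Iso B)
    {e₁ e₂ : Module.End F K} (h1 : ∀ k, e (k • v) = e₁ k • v) (h2 : HX.IsAdj τ e₁ e₂)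
    {α : Module.End F K} (hα : α ∈ lvl M hv) : e₁ * α * e₂ ∈ lvl M hv :=
  (Has.conj hα he).congr fun x => by
    have : C v (e⁻¹ x) = e₂ (C v x) := eq_of_trace (F := F) fun k => by
      rw [mul_comm, mul_comm _ k, ← S.c.inv k, h2, ← S.tr1, ← S.tr1, ← h1, ← hi, le_apply_inv]
    rw [map_add, le_apply_inv, h1, this]; rfl

variable (hH : GamK K ⊓ GG B ≤ M)
include hH

theorem exists_tv {v : V} (hv : C v v = 0) {c : K} (hc : τ c = c) :
    ∃ g ∈ M, ∀ x, g x = x + (c * C v x) • v := by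
  obtain ⟨g, hg, hf⟩ := S.c.exists_tvS hv hc
  exact ⟨_, hH (S.gg hg), hf⟩

theorem exists_E {v u : V} (hv : C v v = 0) (hu : C v u = 0) :
    ∃ g ∈ M, ∃ t : K, ∀ z, g z = z + C v z • u + (C u z + t * C v z) • v := by
  obtain ⟨t, ht⟩ := S.c.tr u
  obtain ⟨g, hg, hf⟩ := S.c.exists_E hv hu ht.symm
  exact ⟨_, hH (S.gg hg), t, hf⟩

theorem le_of_as {v : V} (hv0 : v ≠ 0) (hv : C v v = 0) (h : ∀ k : K, AS B M (k • v)) :
    GG B ≤ M := by
  have key : ∀ u, C u u = 0 → AS B M u := fun u hu => by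
    by_cases h0 : u = 0
    · rw [h0]; exact as_zero
    obtain ⟨g, h1, l, h2, h3⟩ := S.pt_trans hv0 hv h0 hu
    have := (h l⁻¹).conj (hH (S.gg h1)) (S.gg h1).2.1
    rwa [show g.restrictScalars F (l⁻¹ • v) = u from (g.map_smul _ _).trans (by
      rw [h3, inv_smul_smul₀ h2])] at this
  refine S.b.gen M fun w hw => (?_ : AS B M w).2
  by_cases hw' : C w w = 0
  · exact key w hw'
  obtain ⟨u, h1, h2⟩ := exists_iso_ne' S.c S.dim (w := w) (by rintro rfl; simp at hw')
  obtain ⟨β, h3, h4⟩ : ∃ β, C w w = β - τ β ∧ Algebra.trace F K β ≠ 0 := by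
    obtain ⟨d, hd⟩ := S.c.tr w
    by_cases h : Algebra.trace F K d = 0
    · obtain ⟨c, hc⟩ := Algebra.trace_surjective F K 1
      obtain ⟨k, h5, h6⟩ : ∃ k, τ k = k ∧ Algebra.trace F K k ≠ 0 := by
        by_contra h5
        push Not at h5
        exact one_ne_zero (hc.symm.trans (S.h.ext_fix h5 c))
      exact ⟨d + k, by rw [hd, map_add, h5]; ring, by simpa [h] using h6⟩
    · exact ⟨d, hd, h⟩
  have h5 : C (τ (β / C u w) • u) w = β := by
    rw [LinearMap.map_smulₛₗ, S.c.inv, LinearMap.smul_apply, smul_eq_mul, div_mul_cancel₀ _ h2]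
  have h6 : C (τ (β / C u w) • u) (τ (β / C u w) • u) = 0 := by simp [h1]
  generalize τ (β / C u w) • u = u' at h5 h6
  have := S.b.as_add (key u' h6) (key (w - u') (by
    simp only [map_sub, LinearMap.sub_apply, S.c.skew u' w, h3, h5, h6]; ring))
    (by rwa [S.tr, map_sub, h5, h6, sub_zero]) (by rwa [sub_add_cancel])
  rwa [sub_add_cancel] at this

theorem sl1 (hM : M ≤ GG B) (hne : ¬ GG B ≤ M) {v : V} (hv0 : v ≠ 0) (hv : C v v = 0) :
    ∀ g ∈ M, g ∈ stab (KP F K v) → SL1 K g v := by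
  intro g hg hg'
  obtain ⟨g₁, g₂, h1, h2, h12, h21⟩ := exists_coord hv0 hg'
  obtain ⟨w, hw, h0⟩ := S.exists_pair hv0 hv
  have hT : ∀ l : K, l ≠ 0 → Algebra.norm F (l / τ l) = 1 ∨ 3 ≤ finrank K V →
      ∃ d ∈ M, ∀ k : K, d (k • v) = (l * k) • v := fun l hl h => by
    obtain ⟨d, h3, h4, h5⟩ := S.exists_torus hv0 hv hl
    obtain ⟨s, h6, h7, -⟩ := S.adjust h3 (a := v) (b := w) (fun x => ⟨-C w x, C v x, by
      simp [hv, h0], by simp [hw, S.c.one_symm h0]⟩) (by rwa [h4])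
    exact ⟨_, hH h6, fun k => by
      change s (d (k • v)) = _
      rw [map_smul, h5, map_smul, map_smul, h7, smul_smul, mul_comm]⟩
  have hT' : ∀ l : K, l ≠ 0 → τ l = l → ∃ d ∈ M, ∀ k : K, d (k • v) = (l * k) • v :=
    fun l hl h => hT l hl (Or.inl (by rw [h, div_self hl, map_one]))
  have key : ∀ k, τ k = k → ∃ k', ∀ x, g₁ (k * g₂ x) = k' * x := fun k hk => by
    by_contra hc
    have hk0 : k ≠ 0 := by rintro rfl; exact hc ⟨0, by simp⟩
    have hk1 : 1 + k ≠ 0 := fun h => hc ⟨-1, fun x => by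
      rw [eq_neg_of_add_eq_zero_right h]; simp [h12]⟩
    obtain ⟨u, hu1, hu2, hu3⟩ := S.ex
    obtain ⟨l, hl, rfl⟩ := S.h.exists_div hu1
    obtain ⟨y', hy'⟩ := S.h.exists_adj (g₁ * LinearMap.mulLeft F k * g₂)
    have hy : ∀ k, k ≠ 0 → τ k = k → ∀ y', HX.IsAdj τ (g₁ * LinearMap.mulLeft F k * g₂) y' →
        ∀ α ∈ lvl M hv, g₁ * LinearMap.mulLeft F k * g₂ * α * y' ∈ lvl M hv := by
      intro k hk hk' y' hy' α hα
      obtain ⟨d, hd, hd'⟩ := hT' k hk hk'
      have h3 := M.mul_mem (M.mul_mem hg hd) (M.inv_mem hg)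
      exact S.lvl_conj hv h3 (hM h3).1
        (fun x => by rw [le_mul_apply, le_mul_apply, h2, hd', h1]; rfl) hy' hα
    refine hne (S.le_of_as hH hv0 hv fun a => ⟨by simp [S.tr, hv], fun c hc' => Has.congr
      (S.h.mem_of_herm (A := lvl M hv) (fun k hk => S.exists_tv hH hv hk) (fun α hα l hl => ?_) hu2
      (fun α hα => ?_) ?_ hc (y := g₁ * LinearMap.mulLeft F k * g₂) (y' := y') (fun α hα => ?_)
      (β := (c • Algebra.trace F K ∘ₗ LinearMap.mulLeft F (τ a)).smulRight a) fun s t => ?_)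
      fun x => by simp [S.tr1, smul_smul]⟩)
    · by_cases h : l = 0
      · simp [h, zero_mem]
      obtain ⟨d, hd, hd'⟩ := hT' l h hl
      simpa only [hl] using S.lvl_conj hv hd (hM hd).1 hd' (S.h.adj_mulLeft l) hα
    · obtain ⟨d, hd, hd'⟩ := hT l hl hu3
      exact S.lvl_conj hv hd (hM hd).1 hd' (S.h.adj_mulLeft l) hα
    · rintro α ⟨e, he, hf⟩ s t
      have := (hM he).1 (s • w) (t • w)
      simp only [hf, S.tr, map_add, map_smul, LinearMap.map_smulₛₗ, LinearMap.add_apply,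
        LinearMap.smul_apply, h0, hv, hw, S.c.one_symm h0, smul_eq_mul, mul_one, mul_zero, map_zero,
        mul_neg, map_neg, RingHom.id_apply] at this
      rw [mul_comm (τ s), mul_comm (τ _)]
      linear_combination -this
    · have e : g₁ * LinearMap.mulLeft F (1 + k) * g₂ = 1 + g₁ * LinearMap.mulLeft F k * g₂ := by
        ext x; simp [add_mul, h12]
      have h3 := hy _ hk1 (by rw [map_add, map_one, hk]) _ (e ▸ S.h.adj_one_add hy') α hα
      rw [e] at h3
      convert sub_mem (sub_mem h3 hα) (hy k hk0 hk y' hy' α hα) using 1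
      noncomm_ring
    · simp only [LinearMap.smulRight_apply, LinearMap.smul_apply, LinearMap.comp_apply,
        LinearMap.mulLeft_apply, S.h.τ_smul, mul_smul_comm, smul_mul_assoc, map_smul, smul_eq_mul,
        map_mul σ, hc', ← S.h.tr_τ, map_mul τ, S.h.inv]
      rw [mul_comm a]; ring
  refine sl1_of_coord hv0 h1 h21 fun k => ?_
  obtain ⟨ω, hω⟩ := S.h.decompF
  obtain ⟨a, b, h3, h4, rfl⟩ := hω k
  obtain ⟨a', ha⟩ := key a h3
  obtain ⟨b', hb⟩ := key b h4
  exact ⟨a' + ω • b', fun x => by simp [add_mul, ha, hb]⟩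

theorem fix_le (k : Type*) [Field k] [Fintype k] [Algebra k F] [Algebra k K] [IsScalarTower k F K]
    [Module k V] [IsScalarTower k F V] [IsScalarTower k K V]
    (hk : ∀ c, τ (algebraMap k K c) = algebraMap k K c) (hM : M ≤ GG B) (hne : ¬ GG B ≤ M) {v : V}
    (hv0 : v ≠ 0) (hv : C v v = 0) : fixV M v ≤ stab (KP F K v) := by
  have hs := S.sl1 hH hM hne hv0 hv
  have hq : 1 < Fintype.card k := Fintype.one_lt_card
  have hr := S.h.prime.two_le
  have hr' := S.h.odd
  haveI : Module.Finite k V := Module.Finite.of_finite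
  haveI : Module.Finite k F := Module.Finite.of_finite
  have hC : ∀ (c : k) u y, C (c • u) y = c • C u y := fun c u y => by
    rw [← algebraMap_smul K c u, LinearMap.map_smulₛₗ, hk, algebraMap_smul]; rfl
  let P : Submodule F V := (LinearMap.ker (C v)).restrictScalars F
  have hP : ∀ y, y ∈ P ↔ C v y = 0 := fun y => Iff.rfl
  obtain ⟨b, hb⟩ := S.h.exists_basis
  let c := Fintype.linearCombination k b
  choose ε₁ h₁ t h₁' using fun u : P => S.exists_E hH hv (u.2 : C v u = 0)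
  choose ε₂ h₂ h₂' using fun a => S.exists_tv hH hv (c := c a) (by
    simp only [c, Fintype.linearCombination_apply, map_sum, Algebra.smul_def, map_mul, hk, hb])
  let L₁ : P →ₗ[k] V →ₗ[F] V := LinearMap.mk₂' k F (fun u y => C u y • v)
    (fun a b y => by simp [add_smul]) (fun c a y => by
      rw [Submodule.coe_smul_of_tower, hC, smul_assoc])
    (fun a b y => by simp [add_smul]) (fun c a y => by
      simp only [LinearMap.map_smul_of_tower, smul_assoc])
  let L₂ : (Fin (finrank F K) → k) →ₗ[k] V →ₗ[F] V := LinearMap.mk₂' k F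
    (fun a y => (c a * C v y) • v) (fun a b y => by simp [add_smul, add_mul])
    (fun c a y => by simp) (fun a b y => by simp [add_smul, mul_add])
    (fun c a y => by simp only [LinearMap.map_smul_of_tower, mul_smul_comm, smul_assoc])
  have hL₁ : ∀ u y, L₁ u y = C u y • v := fun _ _ => rfl
  have hL₂ : ∀ a y, L₂ a y = (c a * C v y) • v := fun _ _ => rfl
  have he₁ : ∀ a, ∀ y ∈ P, ε₁ a y = y + L₁ a y := fun a y hy => by
    simp [h₁', hL₁, (hP y).1 hy]
  have hf₁ : ∀ a (k : K), ε₁ a (k • v) = k • v := fun a k => by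
    simp [h₁', hv, S.c.zero_symm (a.2 : C v a = 0)]
  have hf₂ : ∀ a (k : K), ε₂ a (k • v) = k • v := fun a k => by simp [h₂', hv]
  have hst : ∀ e : V ≃ₗ[F] V, (∀ k : K, e (k • v) = k • v) → e v = v ∧ e ∈ stab (KP F K v) :=
    fun e he => ⟨by simpa using he 1, stab_of_fix fun k => by rw [he]; exact smul_mem_KP v k⟩
  refine le_stab_KP (k := k) (c := fun Y => Y ≤ P) (ε₁ := ε₁) (ε₂ := ε₂) hv0 (fun g hg => hg.2)
    (fun g hg => hs g hg.1)
    (trFam_lin L₁ P (fun a => ⟨h₁ a, (hst _ (hf₁ a)).1⟩) (fun a => (hst _ (hf₁ a)).2) ?_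
      (fun Y hY => hY) he₁ (fun a y hy => by simp [hP, hL₁, hv])
      (fun a b y hy => by simp [hL₁, S.c.zero_symm (a.2 : C v a = 0)]) ?_)
    (trFam_lin L₂ ⊤ (fun a => ⟨h₂ a, (hst _ (hf₂ a)).1⟩) (fun a => (hst _ (hf₂ a)).2) ?_
      (fun Y hY => le_top) (fun a y _ => h₂' a y) (fun _ _ _ => trivial)
      (fun a b y _ => by simp [hL₂, hv]) ?_)
  · rintro a Y hY _ ⟨y, hy, rfl⟩
    simp [hP, h₁', hv, (hP y).1 (hY hy)]
  · intro g hg hg' hc
    obtain ⟨x, hx, hx'⟩ := exists_of_not_mem_stab hg'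
    have hy : g x ∈ (KP F K v).map (g : V →ₗ[F] V) := ⟨x, hx, rfl⟩
    obtain ⟨w, hw, hw'⟩ : ∃ w, C v w = 0 ∧ C (g x) w ≠ 0 := by
      by_contra hc'
      push Not at hc'
      exact hx' (S.mem_KP_of_perp hv0 hc')
    have := codim_of_ker (k := k) (W := K)
      ((C (g x)).restrictScalars k ∘ₗ P.subtype.restrictScalars k)
      (fun s => ⟨⟨(s / C (g x) w) • w, by simp [hP, hw]⟩, by simp [div_mul_cancel₀ _ hw']⟩)
      (N := stabN L₁ ((KP F K v).map (g : V →ₗ[F] V))) fun a ha => by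
        have h3 := fix_of_quad S.h.prime (fun h' => absurd h' hr') hv0 hs hg.1 (h₁ a)
          (by rw [hg.2]; exact (hst _ (hf₁ a)).1)
          ((mem_stabN_iff fun y hy => he₁ a y (hc hy)).1 ha) (fun y hy => by
            rw [he₁ a y (hc hy), map_add, he₁ a y (hc hy), hL₁, hf₁]; abel) _ hy
        rw [he₁ a _ (hc hy), add_eq_left, hL₁, smul_eq_zero, or_iff_left hv0] at h3
        exact S.c.zero_symm h3
    have h4 := Module.finrank_mul_finrank k F K
    have h5 := Nat.le_mul_of_pos_left (finrank F K) (Module.finrank_pos (R := k) (M := F))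
    exact lt_of_lt_of_le (by omega) (Nat.mul_le_mul (show 1 ≤ _ by omega) (show 3 ≤ _ by omega))
  · intro a Y hY h
    refine hY fun y hy => ?_
    have := h ⟨y, hy, rfl⟩
    simpa [hP, h₂', hv] using this
  · intro g hg hg' hc
    obtain ⟨y, hy, hy'⟩ := SetLike.not_le_iff_exists.1 hc
    rw [hP] at hy'
    have : stabN L₂ ((KP F K v).map (g : V →ₗ[F] V)) = ⊥ := eq_bot_iff.2 fun a ha => by
      have h4 := fix_of_quad S.h.prime (fun h' => absurd h' hr') hv0 hs hg.1 (h₂ a)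
        (by rw [hg.2]; exact (hst _ (hf₂ a)).1) ((mem_stabN_iff fun y _ => h₂' a y).1 ha)
        (fun y hy => by rw [h₂' a y, map_add, hf₂, h₂' a y]; abel) _ hy
      rw [h₂', add_eq_left, smul_eq_zero, or_iff_left hv0, mul_eq_zero, or_iff_left hy'] at h4
      exact funext (Fintype.linearIndependent_iff.1 (b.linearIndependent.restrict_scalars' k) a h4)
    rw [this, finrank_bot, Module.finrank_fin_fun]
    exact lt_of_lt_of_le (by omega) (Nat.mul_le_mul (show 1 ≤ _ by omega) (show 3 ≤ _ by omega))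

omit hH in
theorem eq_KP_of_fix {w : V} (hw : w ≠ 0) {Y : Submodule F V} (hd : finrank F Y = finrank F K)
    {s : K} (hs : s ≠ 0) (h : ∀ c, τ c = c → (c * s) • w ∈ Y) : Y = KP F K w := by
  refine (Submodule.eq_of_le_of_finrank_le (fun x hx => ?_) (by rw [hd, finrank_KP hw])).symm
  obtain ⟨k, rfl⟩ := mem_KP.1 hx
  obtain ⟨ω, hω⟩ := S.h.decompF
  obtain ⟨a, b, h1, h2, h3⟩ := hω (k / s)
  have := Y.add_mem (h a h1) (Y.smul_mem ω (h b h2))
  rwa [← smul_assoc, ← add_smul, ← smul_mul_assoc, ← add_mul, ← h3, div_mul_cancel₀ _ hs] at this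

theorem eq_KP {w : V} (hw0 : w ≠ 0) (hw : C w w = 0) {Y : Submodule F V}
    (hd : finrank F Y = finrank F K) (hY : ∀ e ∈ M, e w = w → e ∈ stab Y) : Y = KP F K w := by
  by_cases h : ∀ y ∈ Y, C w y = 0
  · by_cases h1 : Y ≤ KP F K w
    · exact Submodule.eq_of_le_of_finrank_le h1 (by rw [hd, finrank_KP hw0])
    obtain ⟨y, hy, h2⟩ := SetLike.not_le_iff_exists.1 h1
    obtain ⟨u, h3, h4⟩ : ∃ u, C w u = 0 ∧ C y u ≠ 0 := by
      by_contra hc
      push Not at hc
      exact h2 (S.mem_KP_of_perp hw0 hc)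
    refine S.eq_KP_of_fix hw0 hd (S.c.ne_symm h4) fun c hc => ?_
    obtain ⟨e, he, t, hf⟩ := S.exists_E hH hw (u := c • u) (by simp [h3])
    simpa [hf, h y hy, hc] using Y.sub_mem (stab_apply (hY e he (by
      simp [hf, hw, S.c.zero_symm h3])) hy) hy
  push Not at h
  obtain ⟨y, hy, h1⟩ := h
  refine S.eq_KP_of_fix hw0 hd h1 fun c hc => ?_
  obtain ⟨e, he, hf⟩ := S.exists_tv hH hw hc
  simpa [hf] using Y.sub_mem (stab_apply (hY e he (by simp [hf, hw])) hy) hy

theorem iso_of_block {w : V} {Y : Submodule F V} (hwY : w ∈ Y) (hd : finrank F Y = finrank F K)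
    (hB : ∀ y ∈ Y, B w y = 0) (hY : ∀ e ∈ M, e w = w → e ∈ stab Y) : C w w = 0 := by
  by_contra hw
  have hne : ∀ z, Y ≠ KP F K z := fun z h => by
    subst h
    exact hw (S.C_zero fun k => hB _ (KP_smul hwY k))
  have hw0 : w ≠ 0 := by rintro rfl; simp at hw
  obtain ⟨y, hy, h1⟩ := SetLike.not_le_iff_exists.1 fun h =>
    hne w (Submodule.eq_of_le_of_finrank_le h (by rw [hd, finrank_KP hw0]))
  obtain ⟨y', h2, h3⟩ : ∃ y', C w y' = 0 ∧ y = (C w y / C w w) • w + y' :=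
    ⟨y - (C w y / C w w) • w, by simp [div_mul_cancel₀ _ hw], by simp⟩
  generalize C w y / C w w = a at h3
  have h4 : y' ≠ 0 := by rintro rfl; exact h1 (by rw [h3, add_zero]; exact smul_mem_KP w a)
  by_cases h5 : C y' y' = 0
  · obtain ⟨x, hx⟩ := not_forall.1 fun h => h4 (S.c.nd y' h)
    obtain ⟨z, h6, h7, h8⟩ := S.c.exists_partner (P := LinearMap.ker (C w)) h5 h2
      (b := x - (C w x / C w w) • w) (by simp [div_mul_cancel₀ _ hw])
      (by simpa [S.c.zero_symm h2] using hx)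
    refine hne z (S.eq_KP_of_fix (by rintro rfl; simp at h8) hd (s := -1) (by simp)
      fun c hc => ?_)
    obtain ⟨e, he, hf⟩ := S.exists_tv hH h7 hc
    have h9 := S.c.zero_symm (show C w z = 0 from h6)
    simpa [hf, h3, h9, S.c.one_symm h8] using
      Y.sub_mem (stab_apply (hY e he (by simp [hf, h9])) hy) hy
  obtain ⟨u, hu1, hu2, hu3⟩ := S.ex
  obtain ⟨g, h6, h7, h8⟩ := S.c.exists_refl h5 hu1
  obtain ⟨s, h9, h10, h11⟩ := S.adjust h6 (a := w) (b := y') (fun x =>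
    ⟨C w x / C w w, C y' x / C y' y', by simp [h2, div_mul_cancel₀ _ hw], by
      simp [S.c.zero_symm h2, div_mul_cancel₀ _ h5]⟩) (by rwa [h7])
  have h12 : ∀ a b : K, s (g (a • w + b • y')) = a • w + (u * b) • y' := fun a b => by
    rw [map_add g, map_smul g, map_smul g, h8, h8, S.c.zero_symm h2, div_mul_cancel₀ _ h5]
    simp only [map_add, map_smul, h10, h11]
    module
  have h13 := hY _ (hH h9) (by simpa using h12 1 0)
  let T : Subalgebra F K :=
    { carrier := {k | ∀ b : K, b • y' ∈ Y → (k * b) • y' ∈ Y}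
      mul_mem' := fun ha hb c hc => by rw [mul_assoc]; exact ha _ (hb c hc)
      add_mem' := fun ha hb c hc => by rw [add_mul, add_smul]; exact add_mem (ha c hc) (hb c hc)
      algebraMap_mem' := fun a c hc => by
        rw [← Algebra.smul_def, smul_assoc]; exact Y.smul_mem a hc }
  have h14 : T = ⊤ := ((Subalgebra.isSimpleOrder_of_finrank_prime F K S.h.prime).eq_bot_or_eq_top
    T).resolve_left fun h => by
      have : u ∈ T := fun b hb => by
        have := h12 0 b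
        rw [zero_smul, zero_add, zero_add] at this
        exact this ▸ stab_apply h13 hb
      obtain ⟨c, hc⟩ := Algebra.mem_bot.1 (h ▸ this)
      exact hu2 c hc
  have h15 : u - 1 ≠ 0 := fun h => hu2 1 (by rw [map_one]; exact (sub_eq_zero.1 h).symm)
  refine hne y' (S.eq_KP_of_fix h4 hd h15 fun c _ => (h14 ▸ Algebra.mem_top : c ∈ T) _ ?_)
  have := Y.sub_mem (stab_apply h13 hy) hy
  change s (g y) - y ∈ Y at this
  rw [h3, ← one_smul K y', h12, add_sub_add_left_eq_sub, ← sub_smul, mul_one] at this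
  exact this

omit hH in
theorem isMaximalIn : IsMaximalIn (GG B) (GamK K ⊓ GG B) := by
  haveI := Fact.mk (CharP.char_is_prime F (ringChar F))
  haveI : CharP K (ringChar F) := charP_of_injective_algebraMap (algebraMap F K).injective _
  letI : Algebra (ZMod (ringChar F)) F := ZMod.algebra F _
  letI : Algebra (ZMod (ringChar F)) K := ZMod.algebra K _
  letI : Module (ZMod (ringChar F)) V := Module.compHom V (algebraMap (ZMod (ringChar F)) K)
  haveI : IsScalarTower (ZMod (ringChar F)) F K :=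
    IsScalarTower.of_algebraMap_eq' (RingHom.ext_zmod _ _)
  haveI : IsScalarTower (ZMod (ringChar F)) K V := IsScalarTower.of_algebraMap_smul fun _ _ => rfl
  haveI : IsScalarTower (ZMod (ringChar F)) F V := IsScalarTower.of_algebraMap_smul fun c x => by
    rw [← algebraMap_smul K, ← IsScalarTower.algebraMap_apply]; rfl
  haveI : Nontrivial V := Module.nontrivial_of_finrank_pos (R := K) (by have := S.dim; omega)
  obtain ⟨v₀, hv₀⟩ := exists_ne (0 : V)
  obtain ⟨v, hv, h0⟩ := exists_iso_ne' S.c S.dim hv₀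
  have hv0 : v ≠ 0 := by rintro rfl; simp at h0
  refine isMaximalIn_of inf_le_right ?_ fun M hH hM g hg hg' => ?_
  · obtain ⟨w, -, h1⟩ := S.exists_pair hv0 hv
    obtain ⟨g, hg, hf⟩ := S.b.exists_tvS (v := v) (by rw [S.tr, hv, map_zero]) (map_one σ)
    exact ⟨g, hg, fun h => tv_not_mem_GamK S.h.prime hv0 hv h1
      (fun x => by rw [hf, one_smul, S.tr]) h.1⟩
  by_contra hne
  have key : ∀ u, u ≠ 0 → C u u = 0 → SL1 K g u := fun u hu0 hu => by
    have h1 : ∀ e ∈ M, e (g u) = g u → e ∈ stab ((KP F K u).map (g : V →ₗ[F] V)) := fun e he h => by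
      have := S.fix_le hH (ZMod (ringChar F)) (fun c => RingHom.congr_fun (RingHom.ext_zmod
        (τ.comp (algebraMap _ K)) _) c) hM hne hu0 hu (x := g⁻¹ * e * g)
        ⟨mul_mem (mul_mem (inv_mem hg) he) hg, by rw [le_mul_apply, le_mul_apply, h, le_inv_apply]⟩
      rw [mem_stab_iff_map, ← map_mul_le, show e * g = g * (g⁻¹ * e * g) by group, map_mul_le,
        mem_stab_iff_map.1 this]
    have h2 := S.iso_of_block hH (mem_map_KP.2 ⟨1, by rw [one_smul]⟩) (finrank_map_KP hu0 g)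
      (fun y hy => by
        obtain ⟨k, rfl⟩ := mem_map_KP.1 hy
        rw [(hM hg).1, S.tr2, hu, mul_zero, map_zero]) h1
    have h3 := S.eq_KP hH (by simpa using hu0) h2 (finrank_map_KP hu0 g) h1
    obtain ⟨h, h4, l, h5, h6⟩ := S.pt_trans (by simpa using hu0) h2 hu0 hu
    have h7 := S.sl1 hH hM hne hu0 hu _ (mul_mem (hH (S.gg h4)) hg) (stab_of_fix fun k => by
      obtain ⟨c, hc⟩ := mem_KP.1 (h3 ▸ mem_map_KP.2 ⟨k, rfl⟩ : g (k • u) ∈ KP F K (g u))
      change h (g _) ∈ _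
      rw [← hc, map_smul, h6]
      exact KP_smul (smul_mem_KP u l) c)
    simpa using (SL1.of_mem (inv_mem (S.gg h4).1) _).mul h7
  obtain ⟨ρ, hρ⟩ := key v hv0 hv
  refine hg' ⟨mem_GamK_of_span (σ := ρ) (S := {u | u = v ∨ (C u u = 0 ∧ C v u ≠ 0)})
    (fun W hW => top_of_iso S.c.toSkH hv0 hv (hW (Or.inl rfl)) fun u h1 h2 => hW (Or.inr ⟨h1, h2⟩))
    ?_, hM hg⟩
  rintro u (rfl | ⟨h1, h2⟩)
  · exact hρ
  obtain ⟨ρ', hρ'⟩ := key u (by rintro rfl; simp at h2) h1
  rwa [← aut_eq_of_form (B := fun x y => B x y) S.h.comm S.tr2 (hM hg).1 hρ hρ' h2]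

end SUX

theorem exists_traceForm' (B : V →ₛₗ[σ] V →ₗ[F] F) (τ : K →+* K)
    (h : ∀ (k : K) x y, B (k • x) y = B x (τ k • y)) :
    ∃ C : V →ₛₗ[τ] V →ₗ[K] K, ∀ x y, B x y = Algebra.trace F K (C x y) := by
  choose f hf using fun x => exists_trace_dual (K := K) (B x)
  have key : ∀ x y (k : K), Algebra.trace F K (f x y * k) = B x (k • y) := fun x y k => by
    rw [hf, map_smul, smul_eq_mul, mul_comm]
  refine ⟨{ toFun := f, map_add' := fun a b => LinearMap.ext fun y => eq_of_trace (F := F)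
              fun k => ?_,
            map_smul' := fun c a => LinearMap.ext fun y => eq_of_trace (F := F) fun k => ?_ }, hf⟩
  · rw [LinearMap.add_apply, add_mul, map_add, key, key, key, map_add, LinearMap.add_apply]
  · rw [key, h, smul_smul, ← key, LinearMap.smul_apply, smul_eq_mul]; congr 1; ring

theorem HX.adj_eq (S : HX τ σ) [Nontrivial V] {B : V →ₛₗ[σ] V →ₗ[F] F} (hB : SkH B)
    (h : ∀ k : K, ∃ k' : K, ∀ x y, B (k • x) y = B x (k' • y)) (k : K) (x y : V) :
    B (k • x) y = B x (τ k • y) := by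
  choose f hf using h
  obtain ⟨v, hv⟩ := exists_ne (0 : V)
  have key : ∀ a b : K, (∀ x, B x (a • v) = B x (b • v)) → a = b := fun a b h =>
    smul_left_cancel' hv (sub_eq_zero.1 (hB.nd _ fun x => hB.zero_symm (by
      rw [map_sub, h, sub_self])))
  obtain ⟨ρ, hρ⟩ := exists_aut_of_hom (F := F) (f := fun k => f (τ k))
    (key _ _ fun x => by rw [← hf, map_one, one_smul, one_smul])
    (fun a b => key _ _ fun x => by
      rw [← hf, map_add τ, add_smul, add_smul, map_add, map_add, LinearMap.add_apply, hf, hf])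
    (fun a b => key _ _ fun x => by
      rw [← hf, map_mul τ, mul_comm (f _), mul_smul, mul_smul, hf, hf, smul_comm])
    (fun c => key _ _ fun x => by
      rw [← hf, S.alg, algebraMap_smul, algebraMap_smul, map_smul (B x), LinearMap.map_smulₛₗ,
        S.invF, LinearMap.smul_apply])
  have h1 : ∀ k, f k = ρ (τ k) := fun k => by rw [hρ, S.inv]
  have h2 : ρ = 1 := by
    by_contra h2
    refine S.odd ((Nat.prime_dvd_prime_iff_eq S.prime Nat.prime_two).1
      (finrank_dvd_of_pow_eq_one S.prime h2 (AlgEquiv.ext fun k => key _ _ fun x => ?_)))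
    rw [pow_two, AlgEquiv.mul_apply, ← S.inv k, ← S.comm, ← h1, ← h1, ← hf, hB.skew, ← hf,
      ← hB.skew, AlgEquiv.one_apply, S.inv]
  rw [hf, h1, h2, AlgEquiv.one_apply]

theorem add_two_le_pow {q s : ℕ} (hq : 2 ≤ q) (h : 3 ≤ q ∧ 1 ≤ s ∨ 2 ≤ s) : s + 2 ≤ q ^ s := by
  have key : ∀ t s, t + 2 ≤ q ^ t → t ≤ s → s + 2 ≤ q ^ s := fun t s ht hts => by
    induction s, hts using Nat.le_induction with
    | base => exact ht
    | succ n _ ih => rw [pow_succ]; nlinarith
  rcases h with ⟨h1, h2⟩ | h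
  · exact key 1 s (by simpa using h1) h2
  · exact key 2 s (by nlinarith) h

theorem exists_sUX [Fintype F] {q : ℕ} [hF : Fact (Fintype.card F = q ^ 2)]
    {B : V →ₛₗ[H10.cj F q] V →ₗ[F] F} (hB : UH B) (hr : (finrank F K).Prime)
    (hro : Odd (finrank F K)) (hm : 2 ≤ finrank K V) (h6 : ¬ (finrank F V = 6 ∧ q = 2))
    (hac : ∀ k : K, ∃ k' : K, ∀ x y, B (k • x) y = B x (k' • y)) :
    ∃ (τ : K →+* K) (C : V →ₛₗ[τ] V →ₗ[K] K), SUX C B := by
  haveI : Nontrivial V := Module.nontrivial_of_finrank_pos (R := K) (by omega)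
  haveI : Fintype K := Fintype.ofFinite _
  obtain ⟨r, hr'⟩ : ∃ r, finrank F K = r := ⟨_, rfl⟩
  have hq := H10.two_le_of_card_sq hF.out
  have hcK : Fintype.card K = (q ^ r) ^ 2 := by
    rw [Module.card_eq_pow_finrank (K := F), hr', hF.out, ← pow_mul, ← pow_mul, mul_comm]
  haveI := Fact.mk hcK
  obtain ⟨j, hj⟩ := hro
  have hr2 := hr' ▸ hr.two_le
  have hqr : q ^ r = q ^ (r - 2) * q ^ 2 := by rw [← pow_add, Nat.sub_add_cancel hr2]
  have hq2 : 4 ≤ q ^ 2 := by nlinarith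
  have hq3 : q ^ 2 ≤ q ^ r := Nat.pow_le_pow_right (by omega) hr2
  have S : HX (H10.cj K (q ^ r)) (H10.cj F q) :=
    { inv := H10.cj_cj
      alg := fun c => by
        rw [H10.cj_apply, H10.cj_apply, ← map_pow, ← hr', hj, pow_succ, pow_mul q, ← hF.out,
          pow_mul, FiniteField.pow_card_pow]
      comm := fun ρ x => (map_pow ρ x _).symm
      ne := hB.ne
      prime := hr
      odd := by omega }
  have hτ := S.adj_eq hB.toSkH hac
  obtain ⟨C, hC⟩ := exists_traceForm' _ _ hτ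
  have hdim := finrank_mul_ext (F := F) (K := K) (V := V)
  obtain ⟨g, hg⟩ := IsCyclic.exists_ofOrder_eq_natCard (α := Kˣ)
  have hw : orderOf (g ^ (q ^ r - 1)) = q ^ r + 1 := by
    have h1 : orderOf g = (q ^ r - 1) * (q ^ r + 1) := by
      rw [hg, Nat.card_units, Nat.card_eq_fintype_card, hcK, mul_comm, ← Nat.sq_sub_sq, one_pow]
    rw [orderOf_pow_of_dvd (by omega) (h1 ▸ dvd_mul_right _ _), h1,
      Nat.mul_div_cancel_left _ (by omega)]
  generalize g ^ (q ^ r - 1) = w at hw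
  have hw1 : ∀ i, (w : K) ^ i * H10.cj _ (q ^ r) ((w : K) ^ i) = 1 := fun i => by
    rw [H10.cj_apply, ← pow_succ', ← pow_mul, mul_comm, pow_mul, ← hw, ← Units.val_pow_eq_pow_val,
      pow_orderOf_eq_one, Units.val_one, one_pow]
  have hw2 : ∀ i, 0 < i → (w : K) ^ i = 1 → q ^ r + 1 ≤ i := fun i hi h =>
    Nat.le_of_dvd hi (hw ▸ orderOf_dvd_of_pow_eq_one (Units.ext (by simpa using h)))
  refine ⟨_, C, S, uH_of (fun x y => eq_of_trace (F := F) fun k => by
    rw [mul_comm, ← smul_eq_mul, ← map_smul, ← hC, hB.skew, hτ, hC, map_smul, ← S.tr_τ,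
      smul_eq_mul, map_mul, S.inv, neg_mul, map_neg, mul_comm])
    (fun x hx => hB.nd x fun y => by rw [hC, hx, map_zero]) (by omega), hB, hC, hm, ?_⟩
  rcases hm.eq_or_lt with h | h
  · have h1 := norm_div_aut (FiniteField.frobeniusAlgEquivOfAlgebraic F K) w.ne_zero
    rw [show FiniteField.frobeniusAlgEquivOfAlgebraic F K w = w ^ Fintype.card F from rfl, hF.out,
      ← pow_sub_one_mul (by omega) (w : K), mul_div_cancel_right₀ _ w.ne_zero] at h1
    refine ⟨_, hw1 (q ^ 2 - 1), fun c hc => ?_, Or.inl h1⟩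
    rw [← hc, Algebra.norm_algebraMap, hr'] at h1
    have h2 := hw2 ((q ^ 2 - 1) * r) (Nat.mul_pos (by omega) (by omega))
      (by rw [pow_mul, ← hc, ← map_pow, h1, map_one])
    have h3 := add_two_le_pow (s := r - 2) hq (by rw [← h] at hdim; omega)
    rw [Nat.sub_add_cancel hr2] at h3
    have h4 := Nat.mul_le_mul (Nat.sub_le (q ^ 2) 1) h3
    rw [mul_comm (q ^ 2), ← hqr] at h4
    omega
  · refine ⟨_, hw1 1, fun c hc => ?_, Or.inr h⟩
    have h2 := hw2 (q ^ 2 - 1) (by omega) (by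
      rw [← pow_one (w : K), ← hc, ← map_pow, ← hF.out, FiniteField.pow_card_sub_one_eq_one,
        map_one]
      rintro rfl
      exact w.ne_zero (by simpa using hc.symm))
    omega

/-- The matrix form of the maximality of `GU_{n/r}(q^r)` in `SU_n(q)`, `r ≠ n`. -/
theorem isMaximalIn_su_ext {F : Type*} [Field F] [Fintype F] {n q r : ℕ}
    (hF : Fintype.card F = q ^ 2) (hr : r.Prime) (hro : Odd r) (hn : r < n)
    (h6 : ¬ (n = 6 ∧ q = 2)) {K : Subalgebra F (Matrix (Fin n) (Fin n) F)}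
    (hK : IsFieldSubalgebra r K) (hac : IsAdjointClosedFor (Cfsg.hermForm n F q) K) :
    IsMaximalIn (Cfsg.GU n F q ⊓ specialLinear (Fin n) F)
      (subalgebraNormalizer K ⊓ (Cfsg.GU n F q ⊓ specialLinear (Fin n) F)) := by
  haveI : Nonempty (Fin n) := ⟨⟨0, by omega⟩⟩
  haveI := Fact.mk hF
  have hr2 := hr.two_le
  obtain ⟨ζ, h0, hζ⟩ := H10.exists_skew F q
  have hB := uH_su (n := n) (by obtain ⟨j, hj⟩ := hro; omega) h0 hζ
  have hdim := finrank_KF_mul hK
  rw [Fintype.card_fin] at hdim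
  obtain ⟨τ, C, T⟩ := exists_sUX (K := KF hK) hB (by rwa [KF.finrank_eq]) (by rwa [KF.finrank_eq])
    (by
      by_contra h
      have := Nat.mul_le_mul_left r (show finrank (KF hK) (Fin n → F) ≤ 1 by omega)
      omega) (by rwa [Module.finrank_fin_fun]) fun k => by
      obtain ⟨k', h1, h2⟩ := hac _ (KF.mat_mem hK k)
      obtain ⟨k', rfl⟩ := KF.exists_mat hK h1
      refine ⟨k', fun x y => ?_⟩
      rw [hB.skew, hB.skew _ x, suB_apply, suB_apply, KF.smul_def, h2]; rfl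
  have h := isMaximalIn_comap (toLE _ F) T.isMaximalIn
  rwa [Subgroup.comap_inf, comap_GamK, comap_GG_su h0] at h

end Cfsg.Agent.H98
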