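import Cfsg.Agent.H98.UFr5

/-! Matrix-level forms (all dimensions `n ≥ 6`) of the reducible and imprimitive rows for `SU`. -/

set_option autoImplicit false
set_option linter.style.haveILetI false

namespace Cfsg.Agent.H98

open Cfsg Cfsg.Geo Cfsg.Agent.H27

variable {F : Type*} [Field F] [Fintype F] {n q : ℕ}

theorem c1_su_ts (hF : Fintype.card F = q ^ 2) (hn : 4 ≤ n) (W : Submodule F (Fin n → F))
    (hW0 : W ≠ ⊥) (hW : IsTotallySingularFor (hermForm n F q) W) :
    IsMaximalIn (GU n F q ⊓ specialLinear (Fin n) F)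
      (subspaceStabilizer W ⊓ (GU n F q ⊓ specialLinear (Fin n) F)) := by
  haveI : Fact (Fintype.card F = q ^ 2) := ⟨hF⟩
  obtain ⟨ζ, h0, hζ⟩ := H10.exists_skew F q
  have := isMaximalIn_comap (toLE (Fin n) F)
    ((skH_su (n := n) (by omega) h0 hζ).isMaximalIn_stab_ti hW0 fun x hx y hy =>
      (suB_eq_zero h0).2 (hW y hy x hx))
  rwa [Subgroup.comap_inf, comap_GG_su h0, comap_stab] at this

theorem c1_su_nd (hF : Fintype.card F = q ^ 2) (hn : 4 ≤ n) (W : Submodule F (Fin n → F))
    (hW0 : W ≠ ⊥) (hW : IsNondegenerateOn (hermForm n F q) W) (hdim : 2 * Module.finrank F W < n) :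
    IsMaximalIn (GU n F q ⊓ specialLinear (Fin n) F)
      (subspaceStabilizer W ⊓ (GU n F q ⊓ specialLinear (Fin n) F)) := by
  haveI : Fact (Fintype.card F = q ^ 2) := ⟨hF⟩
  obtain ⟨ζ, h0, hζ⟩ := H10.exists_skew F q
  have := isMaximalIn_comap (toLE (Fin n) F)
    ((uH_su (n := n) (by omega) h0 hζ).isMaximalIn_stab hW0 (fun x hx h => by
        by_contra h1
        obtain ⟨y, hy, hy'⟩ := (hW x hx h1).1
        exact hy' ((suB_eq_zero h0).1 (h y hy))) (by simpa using hdim) (by simp; omega))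
  rwa [Subgroup.comap_inf, comap_GG_su h0, comap_stab] at this

theorem c2_su_nd (hF : Fintype.card F = q ^ 2) (hn : 6 ≤ n) {t : ℕ} (k : ℕ)
    (h1 : k = 1 → q = 2 → 7 ≤ n) (h2 : ¬ (k = 2 ∧ q = 2)) (D : Fin t → Submodule F (Fin n → F))
    (hD : IsNondegenerateMDecomposition (hermForm n F q) k D) :
    IsMaximalIn (GU n F q ⊓ specialLinear (Fin n) F)
      (decompositionStabilizer D ⊓ (GU n F q ⊓ specialLinear (Fin n) F)) := by
  classical
  by_cases hk : k = 1
  · subst hk
    exact su_frame hF hn (h1 rfl) D hD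
  haveI : Fact (Fintype.card F = q ^ 2) := ⟨hF⟩
  obtain ⟨ζ, h0, hζ⟩ := H10.exists_skew F q
  obtain ⟨d⟩ := exists_dec hD.decomp.indep hD.decomp.iSup_eq_top
  have : Nontrivial (Fin t) := Fin.nontrivial_iff_two_le.2 hD.decomp.two_le
  have hn' := Dec.finrank_eq hD.decomp.indep hD.decomp.iSup_eq_top hD.decomp.finrank_eq
  have hp := hD.decomp.pos
  have := isMaximalIn_comap (toLE (Fin n) F)
    ((uH_su (n := n) (by omega) h0 hζ).isMaximalIn_dstab d
      (fun i j hij x hx y hy => (suB_eq_zero h0).2 (hD.orthogonal j i hij.symm y hy x hx))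
      (k := k) (by omega) hD.decomp.finrank_eq fun hk => ⟨by
        subst hk; simp at hn' ⊢; omega, by
        have := (qf_cj (F := F) (q := q)).two_le
        obtain ⟨c, c1, c2⟩ := (qf_cj (F := F) (q := q)).exists_fix [0, -1] (by
          have : q ≠ 2 := fun h => h2 ⟨hk, h⟩
          simp only [List.length_cons, List.length_nil]; omega)
        exact ⟨c, c1, by simpa using c2⟩⟩)
  rwa [Subgroup.comap_inf, comap_GG_su h0, comap_dstab] at this

end Cfsg.Agent.H98
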