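import Cfsg.Agent.H9.TO34
import Cfsg.Agent.H9.TC4b

/-! The tensor product of a symplectic plane and an orthogonal four-space of minus type. -/

set_option autoImplicit false
set_option linter.unusedSectionVars false
set_option linter.unusedVariables false
set_option linter.unusedSimpArgs false

namespace Cfsg.Agent.H98.S2O4

open scoped MatrixGroups Matrix
open Matrix Cfsg.Geo Cfsg.Agent.H98 Cfsg.Agent.H9 PasO TOP

universe u

variable {ι α β : Type} [Fintype ι] [DecidableEq ι] [Fintype α] [DecidableEq α] [Fintype β]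
  [DecidableEq β] {F : Type u} [Field F]

set_option hygiene false in
local notation "σ₀" => RingEquiv.refl F

variable [Finite F] [Nonempty ι] {M K : Subgroup (GL ι F)} {ε : F} {f : (ι → F) → (ι → F) → F}
  {f₁ : (α → F) → (α → F) → F} {f₂ : (β → F) → (β → F) → F} {x y : β → F}
  {φ : Matrix β β F →ₐ[F] Matrix ι ι F} {ψ : Matrix α α F →ₐ[F] Matrix ι ι F}
  {G : Subgroup (GL β F)}

section plane
variable (C : Cl σ₀ (-1) f₁ (Isom σ₀ f₁)) (alt : ∀ v, f₁ v v = 0) (k : Fintype.card α = 2)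
  (h2 : (2 : F) ≠ 0)
include C alt k h2

theorem dec2 {u u' : α → F} (H : HP f₁ u u') (w : α → F) : w = f₁ w u' • u - f₁ w u • u' := by
  have := congrArg (· *ᵥ w) (H89.Sp2.one_eq_two C alt k H)
  simp only [sub_mulVec, br_mulVec C.ses, one_mulVec] at this
  exact this.symm

theorem sc_of_sym {s : Matrix α α F} (hs : adj σ₀ f₁ s = s) : Sc s := by
  have hf := C.ses
  refine C.scalar_of_perp fun w v _ hv => ?_
  by_cases h0 : w = 0
  · rw [h0, mulVec_zero, hf.zero_left]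
  obtain ⟨w', H⟩ := C.partner h0 (alt w)
  have e := dec2 C alt k h2 H v
  rw [hf.eq_zero_comm.1 hv, zero_smul, sub_zero] at e
  have h1 := hf.adj_spec s w w
  have h3 := sigma_f hf (s *ᵥ w) w
  rw [hs] at h1
  rw [RingEquiv.refl_apply, ← h1] at h3
  have h4 : f₁ (s *ᵥ w) w = 0 := (mul_eq_zero.1 (show 2 * f₁ (s *ᵥ w) w = 0 by
    linear_combination h3)).resolve_left h2
  rw [e, hf.smul_right, h4, mul_zero]

theorem skew_comm {s : Matrix α α F} (hs : adj σ₀ f₁ s = -s) {u : α → F} (hu : u ≠ 0)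
    (h : s * br f₁ u u = br f₁ u u * s) : s *ᵥ u = 0 ∧ s * s = 0 := by
  have hf := C.ses
  obtain ⟨u', H⟩ := C.partner hu (alt u)
  have yx : f₁ u' u = -1 := H.yx hf
  rw [mul_br, br_mul hf, hs, neg_mulVec, br_neg_right hf] at h
  have h1 := congrArg (· *ᵥ u') h
  simp only [neg_mulVec, br_mulVec hf, yx, neg_smul, one_smul, neg_inj] at h1
  have h3 := congrArg (f₁ u') h1
  rw [hf.smul_right, yx, RingEquiv.refl_apply] at h3
  have h4 : f₁ u' (s *ᵥ u) = 0 := (mul_eq_zero.1 (show 2 * f₁ u' (s *ᵥ u) = 0 by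
    linear_combination h3)).resolve_left h2
  rw [h4, zero_smul] at h1
  have h5 : f₁ (s *ᵥ u') u = 0 := by
    rw [hf.adj_spec, hs, neg_mulVec, h1, neg_zero, hf.zero_right]
  refine ⟨h1, matrix_ext_mulVec fun w => ?_⟩
  rw [← mulVec_mulVec, dec2 C alt k h2 H w, mulVec_sub, mulVec_smul, mulVec_smul, h1, smul_zero,
    dec2 C alt k h2 H (s *ᵥ u'), h5]
  simp [mulVec_smul, mulVec_neg, h1]

end plane

variable (A : Amb φ M G σ₀ ε f 1 f₂) (A' : Amb ψ M (Isom σ₀ f₁) σ₀ ε f (-1) f₁)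
  (O : OS f₂ G) (P : Pair φ ψ) (P' : Pair ψ φ) (alt : ∀ v, f₁ v v = 0) (k : Fintype.card α = 2)
include A A' O P P' alt k

theorem jj_zero (hL : ∀ u, u ≠ 0 → f₁ u u = 0 → Loc ψ M u) (H : HP f₂ x y) {j : Matrix ι ι F}
    (hj : JJ φ M f₂ x j) : j = 0 := by
  by_contra j0
  have hf := A.C.ses
  have hf' := A'.C.ses
  obtain ⟨u, u0, -⟩ := A'.C.ex
  obtain ⟨e, he, ee⟩ := mem_matrixSet.1 (A'.C.tv_sp alt u 1)
  rw [one_smul] at ee
  obtain ⟨ζ, hζ, z0, hz⟩ := exists_fix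
    { carrier := {j | JJ φ M f₂ x j}
      add_mem' := A.jj_add H.xx
      zero_mem' := A.jj_zero
      neg_mem' := A.jj_neg H.xx } (e := gφ ψ e)
    ⟨2, by rw [coe_gφ, ← map_one ψ, ← map_sub, ← map_pow, ee, add_sub_cancel_left, pow_two,
      br_mul_br hf', alt, zero_smul, map_zero]⟩ (fun z hz => by
      have := A.jj_cj (A'.sub e he) (φ' := φ) (x' := x) (c := 1)
        (by rw [(P'.cm _).cj_gφ, one_smul]) hz (hz.1.cj (mem_KB_of_cm (P.cm _)))
      rwa [one_smul] at this) hj j0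
  obtain ⟨s, rfl⟩ := P.rg ζ hζ.1
  replace hζ : JJ φ M f₂ x (ψ s) := hζ
  replace z0 : ψ s ≠ 0 := z0
  have h1 : (e : Matrix α α F) * s = s * e :=
    (cj_eq_iff _ _ _).1 (phi_injective (φ := ψ) ((cj_gφ _ _).symm.trans hz))
  rw [ee, add_mul, mul_add, one_mul, mul_one, add_right_inj] at h1
  have h3 := (skew_comm A'.C alt k O.two (s := s) (phi_injective (φ := ψ) (by
    rw [← A'.adjφ, A.jj_adj H.xx (H.ne hf) hζ, one_smul, map_neg])) u0 h1.symm).1
  obtain ⟨g, hg, eg⟩ := mem_matrixSet.1 hζ.2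
  have h4 := hL u u0 (alt u) g hg fun χ => by
    rw [eg, add_mul, one_mul, mul_assoc, P.cm, ← mul_assoc, ← map_mul, mul_vmv, h3]
    simp
  rw [eg] at h4
  have h5 : φ (br f₂ x x) * ψ s ∈ ψ.range := by
    rw [P.cm]; simpa using sub_mem h4 (one_mem _)
  obtain ⟨a, ha⟩ := scalar_of_mul_mem_range (P'.cm _) (b := s) (fun h => z0 (by rw [h, map_zero])) h5
  exact br_ne_zero hf (H.ne hf) (H.ne hf) (phi_injective (φ := φ) ((Sc.eq_zero ⟨a, ha⟩ (by
    rw [← map_mul, br_mul_br hf, H.xx, zero_smul, map_zero])).trans (map_zero φ).symm))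

theorem locA (hL : ∀ u, u ≠ 0 → f₁ u u = 0 → Loc ψ M u) : LocA φ M f₂ := fun x h0 hx => by
  by_contra h
  obtain ⟨y, H⟩ := A.C.partner h0 hx
  have hJ : ∀ j, JJ φ M f₂ x j → j = 0 := fun j => jj_zero A A' O P P' alt k hL H
  have hf := A.C.ses
  have h2 := O.two
  have D := H.ad hf
  obtain ⟨ρ, hρ, w, hw, hn⟩ := (A.nc H h).resolve_right fun ⟨j, h1, h3⟩ => h3 (hJ j h1 ▸ Sc.zero)
  obtain ⟨v, v1, v2, e⟩ := GO.decomp hf H w
  have e0 : cf φ (dl f₂ y) ρ x = 0 := by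
    have := cf_mul_phi (φ := φ) (dl f₂ y) (br f₂ x y) ρ x
    rwa [br, Rho.mul_a D.Ea hρ, cf_zero, ← br, br_mulVec hf, H.xy, one_smul, eq_comm] at this
  rw [e, hw, zero_smul, add_zero, cf_add_right, cf_smul_right, e0, smul_zero, add_zero] at hn
  have v4 := hf.eq_zero_comm.1 v1
  have v5 := hf.eq_zero_comm.1 v2
  have s : ∀ u, ρ * φ (br f₂ v u) = cf φ (dl f₂ y) ρ v * φ (br f₂ x u) := fun u => by
    rw [br, br, ← sandwich, show φ (vecMulVec x (dl f₂ y)) * ρ = ρ from Rho.a_mul hρ]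
  have hc := cf_cm (φ := φ) (dl f₂ y) ρ v
  have c2 : adj σ₀ f (cf φ (dl f₂ y) ρ v) = cf φ (dl f₂ y) ρ v := by
    have k1 := A.h0 H v4 v5
    have k0 := hρ
    rw [A.hp] at k0 k1
    have := (A.pd H).comm_mem A.hf A.iso k0 k1
    have k2 : φ (br f₂ x v) * adj σ₀ f ρ - ρ * adj σ₀ f (φ (br f₂ x v)) =
        (adj σ₀ f (cf φ (dl f₂ y) ρ v) - cf φ (dl f₂ y) ρ v) * φ (br f₂ x x) := by
      rw [A.adj_br, one_smul, s, show φ (br f₂ x v) * adj σ₀ f ρ =
        adj σ₀ f (ρ * φ (br f₂ v x)) by rw [A.hf.adj_mul, A.adj_br, one_smul], s,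
        A.hf.adj_mul, A.adj_br, one_smul, A.cm_adj hc, ← sub_mul]
    rw [k2] at this
    exact sub_eq_zero.1 (hJ _ (A.jj_of_zed H ((A.cm_adj hc).sub hc) this))
  obtain ⟨t, ht⟩ := P.rg _ hc
  replace ht : ψ t = cf φ (dl f₂ y) ρ v := ht
  exact hn (ht ▸ Sc.phi (sc_of_sym A'.C alt k h2 (phi_injective (φ := ψ) (by
    rw [← A'.adjφ, ht, c2]))))

variable (hL : LocA φ M f₂)
include hL

theorem fix (H : HP f₂ x y) {u : α → F} (u0 : u ≠ 0) {e : GL α F} (he : e ∈ Isom σ₀ f₁)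
    (ee : (e : Matrix α α F) = 1 + br f₁ u u) {g : GL ι F}
    (hg : g ∈ M) (hm : Mov φ g x x) (h : g⁻¹ * gφ ψ e * g ∈ KB φ) : g ∈ KB φ := by
  have hf := A.C.ses
  have hf' := A'.C.ses
  have h2 := O.two
  have := A.C.nonempty
  by_cases h7 : 7 ≤ Nat.card F
  · exact (A.actL hL).mem_KB (geoL_o A.C h2 (Or.inr h7)) hg ⟨H.ne hf, H.xx⟩ (H.ne hf) hm
  obtain ⟨ζ, l, hl, c0, c3, e0⟩ := bdec A O hL H hg hm
  have hn : φ (br f₂ x x) * φ (br f₂ x x) = 0 := by
    rw [← map_mul, br_mul_br hf, H.xx, zero_smul, map_zero]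
  have e1 : ((g * l⁻¹ : GL ι F) : Matrix ι ι F) = 1 + ζ * φ (br f₂ x x) := by
    rw [Units.val_mul, e0, Units.mul_inv_cancel_right]
  have e2 : (((g * l⁻¹)⁻¹ : GL ι F) : Matrix ι ι F) = 1 - ζ * φ (br f₂ x x) :=
    Units.inv_eq_of_mul_eq_one_right (by
      rw [e1, add_mul, mul_sub, mul_sub, mul_assoc ζ, mul_assoc ζ, c0.left, hn]; simp)
  have c1 : Cm φ (gφ ψ e : GL ι F) := P.cm _
  have c2 := c0.cj (mem_KB_of_cm c1)
  have key := eq_zero_of_KB A O H (c2.sub c0) (by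
    rw [A.hf.adj_sub, adj_cj A.hf (A.iso (A'.sub e he)), c3, map_neg]; abel)
    (k := (g * l⁻¹)⁻¹ * (gφ ψ e * (g * l⁻¹) * (gφ ψ e)⁻¹)) (by
      have := mul_mem (mul_mem (mul_mem hl h) (inv_mem hl)) (inv_mem (mem_KB_of_cm c1))
      simpa [mul_assoc] using this) (by
      rw [Units.val_mul, ← cj_coe, e1, e2, map_add, map_one, map_mul,
        (cj_eq_iff _ _ _).2 (c1 _).symm, sub_mul, mul_add, mul_add, mul_assoc ζ, mul_assoc ζ,
        c2.left, hn, sub_mul]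
      simp only [mul_one, one_mul, mul_zero, add_zero]; abel)
  obtain ⟨s, hs⟩ := P.rg ζ c0
  replace hs : ψ s = ζ := hs
  have h1 : (e : Matrix α α F) * s = s * e := (cj_eq_iff _ _ _).1 (phi_injective (φ := ψ) (by
      rw [← cj_gφ, hs, sub_eq_zero.1 key]))
  rw [ee, add_mul, mul_add, one_mul, mul_one, add_right_inj] at h1
  have h3 := (skew_comm A'.C alt k h2 (s := s) (phi_injective (φ := ψ) (by
    rw [← A'.adjφ, hs, c3, map_neg, hs])) u0 h1.symm).2
  have := zeta_zero A O (prime_field h2 h7) hL H hg hl c0 c3 ⟨2, by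
    rw [← hs, ← map_pow, pow_two, h3, map_zero]⟩ e0
  rw [this, zero_mul, add_zero, one_mul] at e0
  exact Units.ext e0 ▸ hl

theorem exists_Pi (hn : Fintype.card ι < Fintype.card β * Fintype.card β) :
    ∃ Pi : Matrix ι ι F →ₗ[F] Matrix ι ι F, (∀ g ∈ M, ∀ z, Pi (cj g z) = cj g (Pi z)) ∧
      ∀ x y, HP f₂ x y → ∀ z, (∀ w, f₂ w x = 0 → φ (eo f₂ x w) * z = z * φ (eo f₂ x w)) →
      (∀ ζ, Cm φ ζ → ∀ u : GL ι F, (u : Matrix ι ι F) = 1 + ζ * φ (br f₂ x x) →
        piG φ u z = φ (ptr φ z)) → ∃ γ, Cm φ γ ∧ Pi z - φ (ptr φ z) = γ * φ (br f₂ x x) := by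
  obtain ⟨Pi, hP, h⟩ := H9.exists_Pi φ M
  refine ⟨Pi, hP, fun x y H z s1 s2 => ?_⟩
  have hf := A.C.ses
  have hf' := A'.C.ses
  have h2 := O.two
  have nc : ∀ {u}, u ≠ 0 → ∀ g, ¬ Cm φ (cj g (φ (br f₂ u u))) := fun hu =>
    not_cm34 hn hu (dl_ne_zero hf hu)
  obtain ⟨u, u0, -⟩ := A'.C.ex
  obtain ⟨e₁, he₁, ee₁⟩ := mem_matrixSet.1 (A'.C.tv_sp alt u 1)
  rw [one_smul] at ee₁
  obtain ⟨B, _, _, L, hW, hi, ⟨b₀, hb₀⟩, hB, hs⟩ := TOP.fam (ι := ι) O H
  choose e he ee using fun a => O.eo_mem H.xx (hW a).1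
  replace ee : ∀ a, (e a : Matrix β β F) = eo f₂ x (L a) := ee
  have nc' : ∀ g a, a ≠ 0 → ¬ Cm φ (cj g (φ (e a))) := fun g a ha h => nc (H.ne hf) g (by
    have c := h.sub Cm.one
    rw [ee, ← map_one (cj g), ← map_one φ, ← map_sub, ← map_sub] at c
    rw [TOD.n_eq hf H (hW a).1 fun h => hi a ha (O.an x y H _ (hW a).1 (hW a).2 h), map_smul,
      map_smul, map_mul, map_mul]
    exact (c.mul c).smul _)
  have key : ∀ g ∈ M, ∀ a, a ≠ 0 → g⁻¹ * gφ φ (e a) * g ∈ KB φ →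
      (∀ w, f₂ w x = 0 → cj g⁻¹ (φ (eo f₂ x w)) ∈ φ.range) ∧ ∃ g₁ ∈ M, Mov φ g₁ x x ∧
        g₁⁻¹ * g ∈ KB φ := fun g hg a ha h1 =>
    TOP.rng A O hL H hg (hW a).1 (hW a).2 (hi a ha) (ee a ▸ (tri_o A O hL H (M.inv_mem hg) (hW a).1
      (hW a).2 (ee a) (by rwa [inv_inv])).resolve_right (nc' _ a ha))
  have hS : Subgroup.closure {gφ ψ e₁} ≤ CG φ := (Subgroup.closure_le _).2 (by
    rintro _ rfl; exact P.cm _)
  obtain ⟨w, hw⟩ := h B (fun a => gφ φ (e a)) (fun a b => by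
      rw [← map_mul]; congr 1
      exact Units.ext (by
        rw [Units.val_mul, ee, ee, ee, eo_mul hf h2 H.xx (hW a).1 (hW b).1, map_add]))
    (fun a => A.sub _ (he a)) (fun a => gφ_mem_KB _)
    (fun h => nc' 1 b₀ hb₀ (by rw [cj_one]; exact h b₀))
    (fun g hg a ha h1 a' => conj_mem_KB (Or.inl (ee a' ▸ (key g hg a ha h1).1 _ (hW a').1)))
    (Subgroup.closure {gφ ψ e₁}) ((Subgroup.closure_le _).2 (by
      rintro _ rfl; exact A'.sub _ he₁)) (fun u hu => mem_KB_of_cm (hS hu))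
    (isPGroup_closure (by rintro _ rfl _ rfl; rfl) (by
      rintro _ rfl
      have : ∀ m : ℕ, (1 + br f₁ u u) ^ m = 1 + (m : F) • br f₁ u u := fun m => by
        induction m with
        | zero => simp
        | succ m ih =>
          rw [pow_succ, ih, mul_add, add_mul, add_mul, smul_mul_assoc, smul_mul_assoc,
            br_mul_br hf', alt, Nat.cast_succ, add_smul]
          simp [add_assoc]
      rw [← map_pow, show e₁ ^ ringChar F = 1 from Units.ext (by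
        rw [Units.val_pow_eq_pow_val, ee₁, this, ringChar.Nat.cast_ringChar,
          zero_smul, add_zero, Units.val_one]), map_one]))
    (fun u hu a => Units.ext (hS hu (e a)).symm) (fun g hg h1 _ h4 => by
      obtain ⟨g₁, c1, c2, c3⟩ := (key g hg b₀ hb₀ (h1 b₀)).2
      have := fix A A' O P P' alt k hL H u0 he₁ ee₁ c1 c2 (by
        have := mul_mem (mul_mem c3 (h4 _ (Subgroup.subset_closure rfl))) (inv_mem c3)
        simpa [mul_assoc] using this)
      simpa using mul_mem this c3) z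
    (fun a => (cj_eq_iff _ _ _).2 (by rw [coe_gφ, ee]; exact s1 _ (hW a).1))
    (fun g hg h1 => (nc' _ b₀ hb₀ (h1 b₀)).elim) fun g hg h1 _ => by
      obtain ⟨g₁, c1, c2, c3⟩ := (key g hg b₀ hb₀ (h1 b₀)).2
      obtain ⟨ζ, l, hl, d1, -, d2⟩ := bdec A O hL H c1 c2
      have e1 : ((g₁ * l⁻¹ : GL ι F) : Matrix ι ι F) = 1 + ζ * φ (br f₂ x x) := by
        rw [Units.val_mul, d2, Units.mul_inv_cancel_right]
      rw [show g = g₁ * l⁻¹ * (l * (g₁⁻¹ * g)) by group, piG_mul_KB _ (mul_mem hl c3)]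
      exact s2 ζ d1 _ e1
  obtain ⟨γ, hγ, eγ⟩ := nrm_eq (φ := φ) hf h2 H.xx L (fun a => (hW a).1) ee hB hs w
  exact ⟨γ, hγ, hw.trans eγ⟩

omit A A' O P P' alt k hL in
theorem pi_sand (h2 : (2 : F) ≠ 0) {Pi : Matrix ι ι F →ₗ[F] Matrix ι ι F} {N : Matrix ι ι F}
    (hN : N * N = 0) {t : GL ι F} (e : (t : Matrix ι ι F) = 1 + N)
    (h1 : ∀ z, Pi (cj t z) = cj t (Pi z)) (h3 : ∀ z, Pi (cj t⁻¹ z) = cj t⁻¹ (Pi z))
    (w : Matrix ι ι F) : Pi (N * w * N) = N * Pi w * N := by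
  have e' : ((t⁻¹ : GL ι F) : Matrix ι ι F) = 1 - N :=
    Units.inv_eq_of_mul_eq_one_right (by rw [e, add_mul, mul_sub, mul_sub, hN]; simp)
  have k : ∀ z, (2 : F) • (N * z * N) = (2 : F) • z - cj t z - cj t⁻¹ z := fun z => by
    rw [cj_apply, cj_apply, inv_inv, e, e']
    simp only [add_mul, mul_add, sub_mul, mul_sub, one_mul, mul_one, two_smul]
    abel
  refine smul_right_injective _ h2 ?_
  simp only
  rw [← map_smul, k, k, map_sub, map_sub, map_smul, h1, h3]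

theorem le_KB (k₂ : Fintype.card β = 4) (hn : Fintype.card ι = 8) : M ≤ KB φ ∨ M ≤ KB ψ := by
  obtain ⟨Pi, hP, main⟩ := exists_Pi A A' O P P' alt k hL (by rw [k₂, hn]; omega)
  have hf := A.C.ses
  have hf' := A'.C.ses
  have h2 := O.two
  have h4 : (4 : F) ≠ 0 := by rw [show (4 : F) = 2 * 2 by norm_num]; exact mul_ne_zero h2 h2
  have := A.C.nonempty
  have tr : ∀ {c}, Cm φ c → ∀ {a : F}, (∀ b, ptr φ (c * φ b) = a • b) → a * 4 = c.trace :=
    fun {c} hc {a} ha => by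
      have := trace_ptr_mul (φ := φ) (c * φ 1) 1
      rw [ha, map_one, mul_one, mul_one, mul_one, trace_smul, trace_one, k₂] at this
      exact_mod_cast this
  have tr0 : ∀ {c}, Cm φ c → c.trace = 0 → ∀ b, ptr φ (c * φ b) = 0 := fun {c} hc h0 b => by
    obtain ⟨a, ha⟩ := hc.exists_ptr
    have := tr hc ha
    rw [h0] at this
    rw [ha, (mul_eq_zero.1 this).resolve_right h4, zero_smul]
  have p1 : ∀ b, ptr φ (φ b) = (2 : F) • b := fun b => by
    obtain ⟨a, ha⟩ := (Cm.one (φ := φ)).exists_ptr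
    have := tr Cm.one ha
    rw [trace_one, hn] at this
    rw [← one_mul (φ b), ha, mul_right_cancel₀ h4 (show a * 4 = 2 * 4 by rw [this]; norm_num)]
  -- elements killed on both sides by `n`
  have main' : ∀ c, Cm φ c → ∀ x y, HP f₂ x y → ∀ s, br f₂ x x * s = 0 → s * br f₂ x x = 0 →
      (∀ w, f₂ w x = 0 → eo f₂ x w * s = s * eo f₂ x w) →
      ∃ γ, Cm φ γ ∧ dfc φ Pi c s = γ * φ (br f₂ x x) := fun c hc x y H s s1 s2 s3 => by
    have hn : ∀ {ζ}, Cm φ ζ → ∀ {u : GL ι F}, (u : Matrix ι ι F) = 1 + ζ * φ (br f₂ x x) →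
        ∀ {d}, Cm φ d → cj u (d * φ s) = d * φ s := fun hζ u hu d hd => by
      rw [cj_eq_iff, hu, add_mul, mul_add, mul_assoc, mul_assoc d _ (_ * _), hd.left, hζ.left,
        ← map_mul, ← map_mul, s1, s2]
      simp
    refine main x y H (c * φ s) (fun w hw => by
      rw [hc.left, ← map_mul, s3 w hw, map_mul, mul_assoc]) fun ζ hζ u hu => ?_
    obtain ⟨a, ha⟩ := hc.exists_ptr
    have e2 := hn hζ hu hc
    have e3 := hn hζ hu (Cm.one.smul a)
    rw [piG_apply]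
    nth_rewrite 1 [← e2]
    rw [cj_inv_cj, ha, map_smul]
    simpa using e3
  have E2 : ∀ s, adj σ₀ f₂ s = -s → Pi (φ s) = (2 : F) • φ s := fun s hs => by
    have : s ∈ LinearMap.ker (dfc φ Pi 1) := by
      refine O.skew_span (fun x w hx hw => ?_) hs
      by_cases h0 : x = 0
      · simp [h0, Nv, br_zero_left, br_zero_right hf]
      obtain ⟨y, H⟩ := A.C.partner h0 hx
      obtain ⟨v, a1, a2, ew⟩ := GO.decomp hf H w
      rw [ew, hw, zero_smul, add_zero, Nv_add hf, Nv_smul hf, Nv_self, smul_zero, add_zero,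
        LinearMap.mem_ker]
      obtain ⟨γ, hγ, eγ⟩ := main' 1 Cm.one x y H _ (n_mul_Nv hf hx a1) (Nv_mul_n hf hx a1)
        fun w hw => by
          have n : f₂ (-v) x = 0 := by rw [hf.neg_left, a1, neg_zero]
          rw [Nv_eq hf h2, mul_smul_comm, smul_mul_assoc, mul_sub, sub_mul, eo_mul hf h2 hx hw a1,
            eo_mul hf h2 hx a1 hw, add_comm, eo_mul hf h2 hx hw n, eo_mul hf h2 hx n hw,
            add_comm (-v)]
      obtain ⟨k, hk, μ, ν, m0, m1, -, e1, -, e2⟩ := O.exists_h H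
      have := dfc_cj Cm.one (hP _ (A.sub k hk)) (Nv f₂ x v)
      rw [cj_Nv hf (A.C.le hk), e1, e2 v a1 a2, Nv_smul hf, TOB.Nv_smul_left hf, map_smul, map_smul,
        eγ, hγ.cj_gφ_mul, cj_br hf (A.C.le hk), e1, br_smul_left, br_smul_right hf, map_smul,
        map_smul, mul_smul_comm, mul_smul_comm, RingEquiv.refl_apply, ← sub_eq_zero,
        ← sub_smul] at this
      rw [eγ]
      exact (smul_eq_zero.1 ((smul_eq_zero.1 this).resolve_left (sub_ne_zero.2 m1))).resolve_left m0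
    rwa [LinearMap.mem_ker, dfc_apply, one_mul, p1, map_smul, sub_eq_zero] at this
  have tn : ∀ v, (ψ (br f₁ v v)).trace = 0 := fun v => by
    simpa using (Cm.one (φ := ψ)).trace_mul_phi (s := br f₁ v v) (by rw [trace_br hf', alt])
  have E0 : ∀ v, Pi (ψ (br f₁ v v)) = 0 := fun v => by
    have hc := P.cm (br f₁ v v)
    have t0 := tn v
    generalize ψ (br f₁ v v) = c at hc t0
    have p0 : ptr φ c = 0 := by simpa using tr0 hc t0 1
    have m : ∀ x y, HP f₂ x y → ∃ γ, Cm φ γ ∧ Pi c = γ * φ (br f₂ x x) := fun x y H => by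
      have := main x y H c (fun w _ => hc _) fun ζ hζ u hu => by
        have hn : φ (br f₂ x x) * φ (br f₂ x x) = 0 := by
          rw [← map_mul, br_mul_br hf, H.xx, zero_smul, map_zero]
        have e2 : ((u⁻¹ : GL ι F) : Matrix ι ι F) = 1 - ζ * φ (br f₂ x x) :=
          Units.inv_eq_of_mul_eq_one_right (by
            rw [hu, add_mul, mul_sub, mul_sub, mul_assoc ζ, mul_assoc ζ, hζ.left, hn]; simp)
        have e3 : cj u⁻¹ c = c + (c * ζ - ζ * c) * φ (br f₂ x x) := by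
          rw [cj_apply, inv_inv, e2, hu]
          simp only [add_mul, mul_add, sub_mul, mul_sub, one_mul, mul_one, mul_assoc, hc.left,
            hζ.left, hn, mul_zero, hc (br f₂ x x)]
          abel
        rw [piG_apply, e3, map_add, p0, tr0 ((hc.mul hζ).sub (hζ.mul hc)) (by
          rw [trace_sub, trace_mul_comm, sub_self])]
        simp
      rwa [p0, map_zero, sub_zero] at this
    obtain ⟨x, y, H⟩ := A.C.exists_hp
    obtain ⟨γ, hγ, e1⟩ := m x y H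
    obtain ⟨γ', hγ', e2⟩ := m _ _ (H.symm hf)
    have e3 := congrArg (· * φ (br f₂ x x)) (e1.symm.trans e2)
    simp only [mul_assoc, ← map_mul, br_mul_br hf, H.xx, H.xy, zero_smul, one_smul, map_zero,
      mul_zero] at e3
    rw [e2, hγ'.eq_zero_of_mul (br_ne_zero hf (H.ne' hf) (H.ne hf)) e3.symm, zero_mul]
  obtain ⟨l, E1⟩ : ∃ l : F, ∀ v x, f₂ x x = 0 →
      Pi (φ (br f₂ x x) * ψ (br f₁ v v)) = l • (φ (br f₂ x x) * ψ (br f₁ v v)) := by
    obtain ⟨x, y, H⟩ := A.C.exists_hp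
    obtain ⟨u, u', H'⟩ := A'.C.exists_hp
    have nn : br f₂ x x * br f₂ x x = 0 := by rw [br_mul_br hf, H.xx, zero_smul]
    obtain ⟨γ, hγ, eγ⟩ := main' _ (P.cm (br f₁ u' u')) x y H _ nn nn fun v hv => by
      simp [eo_eq, add_mul, sub_mul, mul_add, mul_sub, Nv_mul_n hf H.xx hv, n_mul_Nv hf H.xx hv]
    rw [dfc_apply, tr0 (P.cm _) (tn _), map_zero, sub_zero] at eγ
    obtain ⟨s, rfl⟩ := P.rg γ hγ
    replace eγ : Pi _ = ψ s * _ := eγ
    obtain ⟨t, ht, et⟩ := mem_matrixSet.1 (A'.C.tv_sp alt u 1)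
    have e1 := pi_sand h2 (N := ψ (br f₁ u u)) (t := gφ ψ t)
      (by rw [← map_mul, br_mul_br hf', alt, zero_smul, map_zero])
      (by rw [coe_gφ, et, one_smul, map_add, map_one]) (hP _ (A'.sub t ht))
      (hP _ (inv_mem (A'.sub t ht))) (ψ (br f₁ u' u') * φ (br f₂ x x))
    have s1 : ∀ b, ψ (br f₁ u u) * (ψ b * φ (br f₂ x x)) * ψ (br f₁ u u) =
        f₁ u (adj σ₀ f₁ b *ᵥ u) • (φ (br f₂ x x) * ψ (br f₁ u u)) := fun b => by
      rw [← P.cm, (P'.cm _).left, mul_assoc, ← map_mul, ← map_mul, br_mul hf', br_mul_br hf',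
        map_smul, mul_smul_comm]
    rw [eγ, s1, s1, adj_br hf', smul_mulVec, br_mulVec hf', H'.xy, one_smul, hf'.smul_right, H'.xy,
      map_smul, RingEquiv.refl_apply, mul_one, neg_one_smul, neg_eq_iff_eq_neg, ← neg_smul] at e1
    let D : Submodule F (Matrix ι ι F) :=
      LinearMap.eqLocus Pi ((-f₁ u (adj σ₀ f₁ s *ᵥ u)) • LinearMap.id)
    have hD : ∀ g ∈ M, ∀ z ∈ D, cj g z ∈ D := fun g hg z hz => by
      replace hz : Pi z = (-f₁ u (adj σ₀ f₁ s *ᵥ u)) • z := hz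
      show Pi (cj g z) = (-f₁ u (adj σ₀ f₁ s *ᵥ u)) • cj g z
      rw [hP g hg, hz, map_smul]
    refine ⟨-f₁ u (adj σ₀ f₁ s *ᵥ u), fun v x' hx' => ?_⟩
    change _ ∈ D
    refine H89.Sp2.mv A'.C alt (fun g hg => hD _ (A'.sub g hg)) (P'.cm _) (H'.ne hf') ?_ v
    by_cases h0 : x' = 0
    · rw [h0, br_zero_left, map_zero, zero_mul]; exact D.zero_mem
    obtain ⟨g, hg, a, ha, e⟩ := A.C.trans H.xx hx' (H.ne hf) h0
    have := hD _ (A.sub g hg) _ (show φ (br f₂ x x) * ψ (br f₁ u u) ∈ D from e1)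
    rwa [map_mul, (P.cm _).cj_gφ, cj_gφ, cj_br hf (A.C.le hg), e, br_smul_left, br_smul_right hf,
      map_smul, map_smul, smul_mul_assoc, smul_mul_assoc, D.smul_mem_iff ha,
      D.smul_mem_iff (by simpa using ha)] at this
  let Y : Submodule F (Matrix ι ι F) :=
    ((Subalgebra.toSubmodule ψ.range ⊓ LinearMap.ker Pi) ⊔
      LinearMap.eqLocus Pi (l • LinearMap.id)) ⊔
      (Subalgebra.toSubmodule φ.range ⊓ LinearMap.eqLocus Pi ((2 : F) • LinearMap.id))
  have dec : ∀ z, adj σ₀ f z = -z → ∃ c ∈ ψ.range, ∃ y, ∃ s ∈ φ.range, Pi c = 0 ∧ Pi y = l • y ∧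
      Pi s = (2 : F) • s ∧ z = c + y + s := fun z hz => by
    suffices z ∈ Y by
      obtain ⟨w, hw, s, hs, rfl⟩ := Submodule.mem_sup.1 this
      obtain ⟨c, hc, y, hy, rfl⟩ := Submodule.mem_sup.1 hw
      exact ⟨c, hc.1, y, s, hs.1, hc.2, hy, hs.2, rfl⟩
    obtain ⟨u, u', H'⟩ := A'.C.exists_hp
    refine H89.Sp2.mem_of_dec A'.C alt k H' (φ := ψ) h2 ?_ fun a v => ?_
    · obtain ⟨s, hs⟩ := P'.rg _ (H89.Sp2.tr_cm (f₂ := f₁) (φ := ψ) (x := u) (y := u') z)
      replace hs : φ s = _ := hs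
      have := H89.Sp2.adj_tr (A := A') z u u'
      rw [hz, ← hs, A.adjφ, show H89.Sp2.tr2 f₁ ψ u u' (-z) = -H89.Sp2.tr2 f₁ ψ u u' z by
        rw [H89.Sp2.tr2, H89.Sp2.tr2, cf_neg, cf_neg]; abel, ← hs, ← map_neg] at this
      exact hs ▸ Submodule.mem_sup_right ⟨⟨s, rfl⟩, E2 s (phi_injective this)⟩
    obtain ⟨b, hb⟩ := P'.rg _ (cf_cm (φ := ψ) (dl f₁ a) z a)
    replace hb : φ b = _ := hb
    have := H89.Sp2.adj_cf (A := A') z a a
    rw [hz, cf_neg, neg_neg, ← hb, A.adjφ] at this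
    let Z : Submodule F (Matrix β β F) :=
      { carrier := {b | φ (b + adj σ₀ f₂ b) * ψ (br f₁ v v) ∈ Y}
        add_mem' := fun h h' => by
          rw [Set.mem_ofPred_eq, hf.adj_add, add_add_add_comm, map_add, add_mul]
          exact Y.add_mem h h'
        zero_mem' := by
          rw [Set.mem_ofPred_eq, hf.adj_zero, add_zero, map_zero, zero_mul]; exact Y.zero_mem
        smul_mem' := fun c _ h => by
          rw [Set.mem_ofPred_eq, hf.adj_smul, RingEquiv.refl_apply, ← smul_add, map_smul,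
            smul_mul_assoc]
          exact Y.smul_mem c h }
    have z1 : (1 : Matrix β β F) ∈ Z := by
      change φ _ * _ ∈ Y
      rw [hf.adj_one, ← two_smul F, map_smul, map_one, smul_mul_assoc, one_mul]
      exact Y.smul_mem _ (Submodule.mem_sup_left (Submodule.mem_sup_left ⟨⟨_, rfl⟩, E0 v⟩))
    have z2 := Z.add_mem (O.mem_of_traceless (Z := Z) (fun u w _ _ => by
      change φ _ * _ ∈ Y
      rw [TOB.adj_Nv hf, add_neg_cancel, map_zero, zero_mul]; exact Y.zero_mem) (fun u hu => by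
      change φ _ * _ ∈ Y
      rw [adj_br hf, one_smul, ← two_smul F, map_smul, smul_mul_assoc]
      exact Y.smul_mem _ (Submodule.mem_sup_left (Submodule.mem_sup_right (E1 v u hu))))
      (s := b - (b.trace / 4) • 1) (by
        rw [trace_sub, trace_smul, trace_one, k₂, smul_eq_mul]; field_simp; norm_num))
      (Z.smul_mem (b.trace / 4) z1)
    rw [sub_add_cancel] at z2
    change φ _ * _ ∈ Y at z2
    rwa [phi_injective this, ← two_smul F, map_smul, smul_mul_assoc, Y.smul_mem_iff h2, hb] at z2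
  by_cases hl : l = 2
  · refine Or.inr fun g hg => ?_
    have : AG ψ g = ⊤ := A'.C.top_of_br fun v _ _ => mem_AG.2 (by
      obtain ⟨c, hc, y, s, -, e1, e2, e3, e⟩ := dec (cj g (ψ (br f₁ v v))) (by
        rw [adj_cj A.hf (A.iso hg), A'.adj_br, neg_one_smul, map_neg])
      have := hP g hg (ψ (br f₁ v v))
      rw [E0, map_zero, e, map_add, map_add, e1, e2, e3, hl, zero_add, ← smul_add] at this
      rwa [e, add_assoc, (smul_eq_zero.1 this).resolve_left h2, add_zero])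
    exact mem_KB_of fun b => mem_AG.1 (this ▸ Algebra.mem_top)
  refine Or.inl fun g hg => ?_
  have sk : ∀ s, adj σ₀ f₂ s = -s → s ∈ AG φ g := fun s₀ hs => mem_AG.2 (by
    obtain ⟨c, hc, y, s, hs', e1, e2, e3, e⟩ := dec (cj g (φ s₀)) (by
      rw [adj_cj A.hf (A.iso hg), A.adjφ, hs, map_neg, map_neg])
    have h1 := hP g hg (φ s₀)
    rw [E2 _ hs, map_smul, e, map_add, map_add, e1, e2, e3, zero_add, smul_add,
      add_left_inj] at h1
    have h3 := congrArg Pi h1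
    rw [map_smul, map_smul, map_add, e1, e2, zero_add, ← sub_eq_zero, ← sub_smul] at h3
    rw [(smul_eq_zero.1 h3).resolve_left (sub_ne_zero.2 hl)] at h1
    rwa [e, (smul_eq_zero.1 h1.symm).resolve_left h2, zero_add])
  have : AG φ g = ⊤ := A.C.top_of_br fun x h0 hx => by
    obtain ⟨y, H⟩ := A.C.partner h0 hx
    obtain ⟨v, v1, -, v3⟩ := exists_v A.C h2 H
    have := mul_mem (sk _ (TOB.adj_Nv hf x v)) (sk _ (TOB.adj_Nv hf x v))
    rw [Nv_mul hf hx v1 v1] at this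
    simpa [smul_smul, v3] using (AG φ g).smul_mem this (-f₂ v v)⁻¹
  exact mem_KB_of fun b => mem_AG.1 (this ▸ Algebra.mem_top)

end Cfsg.Agent.H98.S2O4

namespace Cfsg.Agent.H98

open scoped MatrixGroups Matrix
open Matrix Cfsg.Geo Cfsg.Agent.H9

/-- A symplectic plane times an orthogonal four-space of minus type. -/
theorem isMaximalIn_sp_tensor24 {F : Type*} [Field F] [Fintype F] {m : ℕ}
    (hodd : Odd (Fintype.card F)) {e : (Fin m ⊕ Fin m) ≃ Fin 2 × Fin 4} {P : GL (Fin m ⊕ Fin m) F}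
    {f₁ : (Fin 2 → F) → (Fin 2 → F) → F} {f₂ : (Fin 4 → F) → (Fin 4 → F) → F}
    (hf₁ : IsSymplecticForm f₁) (hf₂ : IsSymmetricForm f₂)
    (h4 : ¬ IsPlusTypeOn (fun v => f₂ v v) ⊤)
    (hT : IsTensorFormStructure id (sympForm m F) f₁ f₂ e P) :
    IsMaximalIn (spGL m F) (tensorProductSubgroup 2 4 e P ⊓ spGL m F) := by
  refine isMaximalIn_inf (not_sp_le_tensor le_rfl (by omega) e P) fun M hH hM => ?_
  rw [spGL_eq] at hH hM ⊢
  have h2 := two_ne_zero_of_odd hodd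
  have hn := card_of_tensor e
  have : Nonempty (Fin m ⊕ Fin m) := ⟨e.symm ⟨0, 0⟩⟩
  have B := amG_sp (isSesq_symp (m := m)) h2
  have s1 := isSesq_of_symplectic hf₁
  have s2 := isSesq_of_symmetric hf₂
  have aL := adj_φL B.hf s1 s2 hT
  have aR := adj_φR B.hf s1 s2 hT
  have A := amb_full B.hf s1 aL hM (cl_sp s1 hf₁.alternating)
    fun h hh => hH ⟨gφL_mem h, gφ_isom B.hf s1 aL hh⟩
  have A' := amb_full B.hf s2 aR hM (cl_o_full s2 h2 (by simp))
    fun h hh => hH ⟨gφR_mem h, gφ_isom B.hf s2 aR hh⟩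
  have PL := pair_L e P (show 0 < 2 by omega)
  have PR := pair_R e P (show 0 < 4 by omega)
  have O : OS f₂ _ := ⟨A'.C, h2, by simp, h4_of_minus s2 (fun _ => h4) h2 (by simp), by simp,
    fun b h _ => (ms_Isom s2).2 h⟩
  have hG := B.hasGen A hM (Or.inl (by rw [hn]; simp))
  exact (A.C.loc_or fun x y H h => (full_sp2_pair A hf₁.alternating h2 (by simp) PL A'.C
    aR (by simp) A'.sub H h).elim (hG x y H)).imp_left fun h =>
      (S2O4.le_KB A' A O PR PL hf₁.alternating (by simp)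
        (S2O4.locA A' A O PR PL hf₁.alternating (by simp) h) (by simp) hn).elim
        (le_tensor_R (by omega) (by omega)) (le_tensor_L (by omega) (by omega))

end Cfsg.Agent.H98
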