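import Cfsg.Agent.H27.SUDec
import Cfsg.Agent.H27.OInv
import Cfsg.Agent.H27.MonoSL3

/-!
Unitary frames, part 0: counting lemmas in a field with an involution, two group lemmas.
-/

set_option autoImplicit false
set_option linter.unusedSectionVars false
set_option linter.unusedVariables false
set_option linter.unusedSimpArgs false

namespace Cfsg.Agent.H98

open H27

section Grp

variable {G : Type*} [Group G]

/-- The extension by `R` of the part of `M` that is compatible with `R`. -/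
def extGrp (R M : Subgroup G) : Subgroup G where
  carrier := {g | (∀ r ∈ R, g * r * g⁻¹ * r⁻¹ ∈ M) ∧ ∃ r ∈ R, g * r ∈ M}
  one_mem' := ⟨fun r _ => by simp, 1, R.one_mem, by simp⟩
  mul_mem' := by
    rintro g g' ⟨h1, r0, hr0, h2⟩ ⟨h3, r1, hr1, h4⟩
    have h5 := M.inv_mem (h3 _ (R.inv_mem hr0))
    refine ⟨fun r hr => ?_, r0 * r1, R.mul_mem hr0 hr1, ?_⟩
    · have h6 := M.mul_mem h5 (h3 _ (R.mul_mem (R.inv_mem hr0) hr))
      have := M.mul_mem (M.mul_mem (M.mul_mem h2 h6) (M.inv_mem h2)) (h1 r hr)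
      convert this using 1; group
    · have := M.mul_mem (M.mul_mem h2 h5) h4
      convert this using 1; group
  inv_mem' := by
    rintro g ⟨h1, r0, hr0, h2⟩
    have X : ∀ r ∈ R, r0⁻¹ * g⁻¹ * r * g * r⁻¹ * r0 ∈ M := fun r hr => by
      have := M.mul_mem (M.mul_mem (M.inv_mem h2) (M.inv_mem (h1 r hr))) h2
      convert this using 1; group
    refine ⟨fun r hr => ?_, r0⁻¹, R.inv_mem hr0, ?_⟩
    · have := M.mul_mem (M.inv_mem (X r0 hr0)) (X _ (R.mul_mem hr0 hr))
      convert this using 1; group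
    · have := M.mul_mem (M.inv_mem (X r0 hr0)) (M.inv_mem h2)
      convert this using 1; group

theorem mem_extGrp {R M : Subgroup G} {g : G} :
    g ∈ extGrp R M ↔ (∀ r ∈ R, g * r * g⁻¹ * r⁻¹ ∈ M) ∧ ∃ r ∈ R, g * r ∈ M := Iff.rfl

/-- Two involutions are conjugate or are centralised by an involution of their dihedral group. -/
theorem dih_cases [Finite G] {H : Subgroup G} {y v : G} (hy : y ∈ H) (hv : v ∈ H)
    (y2 : y * y = 1) (v2 : v * v = 1) : (∃ h ∈ H, y = h * v * h⁻¹) ∨
      ∃ z ∈ H, z ≠ 1 ∧ z * y = y * z ∧ z * v = v * z ∧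
        ∃ h ∈ H, z * y = h * y * h⁻¹ ∨ z * y = h * v * h⁻¹ := by
  rcases Nat.even_or_odd (orderOf (y * v)) with ⟨m, hm⟩ | ⟨r, hr⟩
  swap
  · have e := dihedral_odd y2 v2 r
    rw [← hr, pow_orderOf_eq_one, one_mul] at e
    exact Or.inl ⟨_, H.mul_mem (H.pow_mem (H.mul_mem hy hv) r) hy, e⟩
  have hpos := orderOf_pos (y * v)
  have z2 : ((y * v) ^ m)⁻¹ = (y * v) ^ m :=
    inv_eq_of_mul_eq_one_right (by rw [← pow_add, ← hm, pow_orderOf_eq_one])
  have z3 : (v * y) ^ m = (y * v) ^ m := by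
    rw [← z2, ← inv_pow, mul_inv_rev, inv_eq_of_mul_eq_one_right y2,
      inv_eq_of_mul_eq_one_right v2]
  have c1 := dihedral_conj y2 v2 m
  have c2 := dihedral_conj v2 y2 m
  rw [z3] at c2
  rw [z2] at c1 c2
  refine Or.inr ⟨_, H.pow_mem (H.mul_mem hy hv) m,
    pow_ne_one_of_lt_orderOf (x := y * v) (n := m) (by omega) (by omega), ?_, ?_,
    dihedral_cases hy hv y2 v2 m⟩
  · generalize (y * v) ^ m = z at *
    calc z * y = (y * y) * z * y := by rw [y2, one_mul]
      _ = y * (y * z * y) := by group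
      _ = y * z := by rw [c1]
  · generalize (y * v) ^ m = z at *
    calc z * v = (v * v) * z * v := by rw [v2, one_mul]
      _ = v * (v * z * v) := by group
      _ = v * z := by rw [c2]

end Grp

variable {F : Type*} [Field F] [Fintype F] {σ : F →+* F} {q : ℕ}

/-- A field of order `q ^ 2` with its involution. -/
structure QF (σ : F →+* F) (q : ℕ) : Prop where
  inv : ∀ a, σ (σ a) = a
  cm : Nat.card {x : F // x * σ x = 1} = q + 1
  cf : Nat.card {x : F // σ x = x} = q
  cF : Fintype.card F = q ^ 2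

theorem qf_cj [Fact (Fintype.card F = q ^ 2)] : QF (H10.cj F q) q :=
  ⟨H10.cj_cj, H10.card_norm_eq_one, H10.card_fixed, Fact.out⟩

theorem sq_one_of {a : F} (h1 : a * σ a = 1) (h2 : σ a = a) : a = 1 ∨ a = -1 :=
  mul_self_eq_one_iff.1 (by rwa [h2] at h1)

theorem ne_zero_of_mu {a : F} (h : a * σ a = 1) : a ≠ 0 := by
  rintro rfl; simp at h

theorem norm_eq_zero {a : F} : σ a * a = 0 ↔ a = 0 := by simp

namespace QF

variable (Q : QF σ q)
include Q

theorem two_le : 2 ≤ q := by
  have h1 := Fintype.one_lt_card (α := F)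
  rw [Q.cF] at h1
  by_contra h
  have : q = 0 ∨ q = 1 := by omega
  rcases this with rfl | rfl <;> simp at h1

open Classical in
theorem cm' : (Finset.univ.filter fun x : F => x * σ x = 1).card = q + 1 := by
  rw [← Q.cm, Nat.card_eq_fintype_card, Fintype.card_subtype]

open Classical in
theorem cf' : (Finset.univ.filter fun x : F => σ x = x).card = q := by
  rw [← Q.cf, Nat.card_eq_fintype_card, Fintype.card_subtype]

theorem exists_mu (l : List F) (h : l.length ≤ q) : ∃ a, a * σ a = 1 ∧ a ∉ l := by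
  classical
  obtain ⟨a, h1, h2⟩ := Finset.exists_mem_notMem_of_card_lt_card (s := l.toFinset)
    (t := Finset.univ.filter fun x : F => x * σ x = 1) (by
      have := List.toFinset_card_le l
      rw [Q.cm']; omega)
  exact ⟨a, by simpa using h1, by simpa using h2⟩

theorem exists_fix (l : List F) (h : l.length < q) : ∃ a, σ a = a ∧ a ∉ l := by
  classical
  obtain ⟨a, h1, h2⟩ := Finset.exists_mem_notMem_of_card_lt_card (s := l.toFinset)
    (t := Finset.univ.filter fun x : F => σ x = x) (by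
      have := List.toFinset_card_le l
      rw [Q.cf']; omega)
  exact ⟨a, by simpa using h1, by simpa using h2⟩

theorem exists_mu_ne : ∃ a, a * σ a = 1 ∧ σ a ≠ a := by
  obtain ⟨a, h1, h2⟩ := Q.exists_mu [1, -1] (by simpa using Q.two_le)
  exact ⟨a, h1, fun h => h2 (by simpa using sq_one_of h1 h)⟩

theorem mu_conj {a : F} (h : a * σ a = 1) : σ a * σ (σ a) = 1 := by rw [Q.inv, mul_comm, h]

theorem norm_fix (a : F) : σ (σ a * a) = σ a * a := by rw [map_mul, Q.inv, mul_comm]

theorem exists_rot {x y : F} (h : σ x * x = σ y * y) : ∃ t, t * σ t = 1 ∧ y = t * x := by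
  by_cases hx : x = 0
  · exact ⟨1, by simp, by simpa [hx] using h.symm⟩
  have hx' : σ x ≠ 0 := (map_ne_zero σ).2 hx
  refine ⟨y / x, ?_, by field_simp⟩
  rw [map_div₀]; field_simp; linear_combination -h

/-- Many norms on a circle. -/
theorem exists_norms {x y : F} (hx : x ≠ 0) (hy : y ≠ 0) : ∃ A : Finset F, q ≤ 2 * A.card ∧
    ∀ s ∈ A, ∃ θ, θ * σ θ = 1 ∧ x + θ * y ≠ 0 ∧ s = σ (x + θ * y) * (x + θ * y) := by
  classical
  let U := (Finset.univ.filter fun x : F => x * σ x = 1).erase (-x / y)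
  have hU : q ≤ U.card := by
    have := Finset.pred_card_le_card_erase (s := Finset.univ.filter fun x : F => x * σ x = 1)
      (a := -x / y)
    rw [Q.cm'] at this
    exact this
  refine ⟨U.image fun θ => σ (x + θ * y) * (x + θ * y), hU.trans
    (Finset.card_le_mul_card_image U 2 fun s _ => ?_), fun s hs => ?_⟩
  · by_contra h
    obtain ⟨a, ha, b, hb, c, hc, hab, hac, hbc⟩ := Finset.two_lt_card.1 (not_le.1 h)
    simp only [U, Finset.mem_filter, Finset.mem_erase, Finset.mem_univ, true_and, map_add,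
      map_mul] at ha hb hc
    have key : ∀ θ, θ * σ θ = 1 → (σ x + σ θ * σ y) * (x + θ * y) = s →
        σ x * y * θ ^ 2 + (σ x * x + σ y * y - s) * θ + σ y * x = 0 := fun θ h1 h2 => by
      linear_combination θ * h2 - (σ y * x + θ * σ y * y) * h1
    have e1 := key a ha.1.2 ha.2
    have e2 := key b hb.1.2 hb.2
    have e3 := key c hc.1.2 hc.2
    have f1 : σ x * y * (a + b) + (σ x * x + σ y * y - s) = 0 :=
      mul_left_cancel₀ (sub_ne_zero.2 hab) (by linear_combination e1 - e2)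
    have f2 : σ x * y * (a + c) + (σ x * x + σ y * y - s) = 0 :=
      mul_left_cancel₀ (sub_ne_zero.2 hac) (by linear_combination e1 - e3)
    exact mul_ne_zero (mul_ne_zero ((map_ne_zero σ).2 hx) hy) (sub_ne_zero.2 hbc)
      (by linear_combination f1 - f2)
  · obtain ⟨θ, h1, rfl⟩ := Finset.mem_image.1 hs
    simp only [U, Finset.mem_filter, Finset.mem_erase, Finset.mem_univ, true_and] at h1
    exact ⟨θ, h1.2, fun h => h1.1 (by field_simp; linear_combination h), rfl⟩

/-- The pigeonhole principle for norms on two circles. -/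
theorem pigeon {x y x' y' : F} (hx : x ≠ 0) (hy : y ≠ 0) (hx' : x' ≠ 0) (hy' : y' ≠ 0)
    (f g : F → F) (hf : ∀ s, s ≠ 0 → σ s = s → f s ≠ 0 ∧ σ (f s) = f s)
    (hg : ∀ s, s ≠ 0 → σ s = s → g s ≠ 0 ∧ σ (g s) = g s)
    (f1 : ∀ s t, s ≠ 0 → t ≠ 0 → f s = f t → s = t)
    (g1 : ∀ s t, s ≠ 0 → t ≠ 0 → g s = g t → s = t) :
    ∃ θ θ', θ * σ θ = 1 ∧ θ' * σ θ' = 1 ∧ x + θ * y ≠ 0 ∧ x' + θ' * y' ≠ 0 ∧
      f (σ (x + θ * y) * (x + θ * y)) = g (σ (x' + θ' * y') * (x' + θ' * y')) := by
  classical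
  obtain ⟨A, hA, a⟩ := Q.exists_norms hx hy
  obtain ⟨A', hA', a'⟩ := Q.exists_norms hx' hy'
  have n : ∀ s ∈ A, s ≠ 0 ∧ σ s = s := fun s hs => by
    obtain ⟨θ, -, h, rfl⟩ := a s hs
    exact ⟨mul_ne_zero ((map_ne_zero σ).2 h) h, Q.norm_fix _⟩
  have n' : ∀ s ∈ A', s ≠ 0 ∧ σ s = s := fun s hs => by
    obtain ⟨θ, -, h, rfl⟩ := a' s hs
    exact ⟨mul_ne_zero ((map_ne_zero σ).2 h) h, Q.norm_fix _⟩
  have c1 : (A.image f).card = A.card :=
    Finset.card_image_of_injOn fun s hs t ht => f1 s t (n s hs).1 (n t ht).1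
  have c2 : (A'.image g).card = A'.card :=
    Finset.card_image_of_injOn fun s hs t ht => g1 s t (n' s hs).1 (n' t ht).1
  have hd : ¬ Disjoint (A.image f) (A'.image g) := fun hd => by
    have h1 : A.image f ∪ A'.image g ⊆ (Finset.univ.filter fun x : F => σ x = x).erase 0 := by
      intro z hz
      rcases Finset.mem_union.1 hz with hz | hz
      · obtain ⟨s, hs, rfl⟩ := Finset.mem_image.1 hz
        simpa using hf s (n s hs).1 (n s hs).2
      · obtain ⟨s, hs, rfl⟩ := Finset.mem_image.1 hz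
        simpa using hg s (n' s hs).1 (n' s hs).2
    have h2 := Finset.card_le_card h1
    rw [Finset.card_union_of_disjoint hd, Finset.card_erase_of_mem (by simp), Q.cf'] at h2
    have := Q.two_le
    omega
  obtain ⟨z, h1, h2⟩ := Finset.not_disjoint_iff.1 hd
  obtain ⟨s, hs, rfl⟩ := Finset.mem_image.1 h1
  obtain ⟨s', hs', e⟩ := Finset.mem_image.1 h2
  obtain ⟨θ, t1, t2, rfl⟩ := a s hs
  obtain ⟨θ', t1', t2', rfl⟩ := a' s' hs'
  exact ⟨θ, θ', t1, t1', t2, t2', e.symm⟩

theorem pigeon_one {α β : F} (hα : α ≠ 0) (hβ : β ≠ 0) (α1 : σ α = α) (β1 : σ β = β) :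
    ∃ θ θ', θ * σ θ = 1 ∧ θ' * σ θ' = 1 ∧ θ ≠ 1 ∧ θ' ≠ 1 ∧
      α * (2 - θ - σ θ) = β * (2 - θ' - σ θ') := by
  obtain ⟨θ, θ', h1, h2, h3, h4, h5⟩ := Q.pigeon (x := 1) (y := -1) (x' := 1) (y' := -1)
    one_ne_zero (by simp) one_ne_zero (by simp) (α * ·) (β * ·)
    (fun s h1 h2 => ⟨mul_ne_zero hα h1, by simp [α1, h2]⟩)
    (fun s h1 h2 => ⟨mul_ne_zero hβ h1, by simp [β1, h2]⟩)
    (fun s t _ _ h => mul_left_cancel₀ hα h) (fun s t _ _ h => mul_left_cancel₀ hβ h)
  refine ⟨θ, θ', h1, h2, by rintro rfl; simp at h3, by rintro rfl; simp at h4, ?_⟩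
  simp only [map_add, map_mul, map_one, map_neg] at h5
  linear_combination h5 - α * h1 + β * h2

theorem exists_pair_sum {α β : F} (hα : α ≠ 0) (hβ : β ≠ 0) (α1 : σ α = α) (β1 : σ β = β) :
    ∃ θ θ', θ * σ θ = 1 ∧ θ' * σ θ' = 1 ∧ θ ≠ 1 ∧ θ' ≠ 1 ∧
      α * (2 - θ - σ θ) + β * (2 - θ' - σ θ') = 0 ∧ (θ - 1) * α + (θ' - 1) * β ≠ 0 := by
  obtain ⟨θ, θ', h1, h2, h3, h4, h5⟩ := Q.pigeon_one hα (neg_ne_zero.2 hβ) α1 (by simp [β1])
  by_cases e1 : (θ - 1) * α + (θ' - 1) * β = 0
  swap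
  · exact ⟨θ, θ', h1, h2, h3, h4, by linear_combination h5, e1⟩
  by_cases e2 : (θ - 1) * α + (σ θ' - 1) * β = 0
  swap
  · exact ⟨θ, σ θ', h1, Q.mu_conj h2, h3, fun h => h4 (by rw [← Q.inv θ', h, map_one]),
      by rw [Q.inv]; linear_combination h5, e2⟩
  have e3 : σ θ' = θ' := mul_right_cancel₀ hβ (by linear_combination e2 - e1)
  have e4 := (sq_one_of h2 e3).resolve_left h4
  have e5 := congrArg σ e1
  simp only [map_add, map_mul, map_sub, map_one, α1, β1, e3, map_zero] at e5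
  have e6 : σ θ = θ := mul_right_cancel₀ hα (by linear_combination e5 - e1)
  have e7 := (sq_one_of h1 e6).resolve_left h3
  have e8 : (2 : F) ≠ 0 := fun h => h4 (by rw [e4]; linear_combination -h)
  have e9 : β = -α := mul_left_cancel₀ e8 (by rw [e4, e7] at e1; linear_combination -e1)
  obtain ⟨a, a1, a2⟩ := Q.exists_mu_ne
  refine ⟨a, σ a, a1, Q.mu_conj a1, by rintro rfl; simp at a2,
    fun h => a2 (by rw [← Q.inv a, h, map_one, map_one]), by rw [Q.inv, e9]; ring, fun h => ?_⟩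
  exact mul_ne_zero (sub_ne_zero.2 a2) hα (by rw [e9] at h; linear_combination -h)

theorem exists_triple {α β γ : F} (hα : α ≠ 0) (hβ : β ≠ 0) (hγ : γ ≠ 0) (α1 : σ α = α)
    (β1 : σ β = β) (h : α + β + γ = 1) : ∃ a b c, a * σ a = 1 ∧ b * σ b = 1 ∧ c * σ c = 1 ∧
      a ≠ b ∧ a * α + b * β + γ = c := by
  have γ1 : σ γ = γ := by
    have := congrArg σ h
    rw [map_add, map_add, α1, β1, map_one] at this
    linear_combination this - h
  obtain ⟨θ, θ', h1, h2, h3, h4, h5⟩ := Q.pigeon_one (neg_ne_zero.2 (mul_ne_zero hα hβ)) hγ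
    (by simp [α1, β1]) γ1
  obtain ⟨t, t1, t2⟩ := Q.exists_rot (x := α + θ * β) (y := θ' - γ) (by
    simp only [map_add, map_mul, map_sub, α1, β1, γ1]
    linear_combination h5 + β ^ 2 * h1 - h2 + (α + β - γ + 1) * h)
  refine ⟨t, t * θ, θ', t1, by rw [map_mul]; linear_combination θ * σ θ * t1 + h1, h2,
    fun h6 => h3 (mul_left_cancel₀ (ne_zero_of_mu t1) (by linear_combination -h6)),
    by linear_combination -t2⟩

/-- A non-zero additive subgroup stable under the elements of norm one is everything. -/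
theorem add_eq_top (L : AddSubgroup F) (h : ∀ a, a * σ a = 1 → ∀ x ∈ L, a * x ∈ L) {x : F}
    (hx : x ∈ L) (x0 : x ≠ 0) (y : F) : y ∈ L := by
  classical
  let K : Subring F :=
    { carrier := {a | ∀ x ∈ L, a * x ∈ L}
      mul_mem' := fun {a b} ha hb x hx => by rw [mul_assoc]; exact ha _ (hb x hx)
      one_mem' := fun x hx => by rwa [one_mul]
      add_mem' := fun {a b} ha hb x hx => by rw [add_mul]; exact L.add_mem (ha x hx) (hb x hx)
      zero_mem' := fun x hx => by rw [zero_mul]; exact L.zero_mem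
      neg_mem' := fun {a} ha x hx => by rw [neg_mul]; exact L.neg_mem (ha x hx) }
  have hi : ∀ a ∈ K, a⁻¹ ∈ K := fun a ha => by
    by_cases a0 : a = 0
    · simp [a0]
    have h1 := FiniteField.pow_card_sub_one_eq_one a a0
    have h2 := Fintype.one_lt_card (α := F)
    rw [show Fintype.card F - 1 = Fintype.card F - 2 + 1 by omega, pow_succ] at h1
    rw [← eq_inv_of_mul_eq_one_left h1]
    exact K.pow_mem ha _
  suffices hK : ∀ a, a ∈ K by simpa [x0] using hK (y / x) x hx
  intro a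
  by_contra ha
  let S := Finset.univ.filter fun x : F => x * σ x = 1
  have h1 := Finset.card_le_card_of_injOn (s := S ×ˢ S) (t := Finset.univ)
    (fun p => p.1 + p.2 * a) (fun _ _ => Finset.mem_univ _) (by
      rintro ⟨b, c⟩ h1 ⟨b', c'⟩ h2 h3
      simp only [S, Finset.coe_product, Finset.coe_filter, Finset.mem_univ, true_and,
        Set.mem_prod, Set.mem_ofPred_eq] at h1 h2 h3
      by_cases hc : c = c'
      · subst hc
        simpa using h3
      · refine absurd ?_ ha
        have : a = (b' - b) * (c - c')⁻¹ := by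
          have := sub_ne_zero.2 hc
          field_simp; linear_combination h3
        rw [this]
        exact K.mul_mem (K.sub_mem (h _ h2.1) (h _ h1.1)) (hi _ (K.sub_mem (h _ h1.2) (h _ h2.2))))
  rw [Finset.card_product, Q.cm', Finset.card_univ, Q.cF] at h1
  nlinarith

omit Q in
theorem sl2_torus (P : F → F → Prop) (m1 : ∀ α β c, σ c = c → P α β → P (α + c * β) β)
    (m2 : ∀ α β c, σ c = c → P α β → P α (β + c * α)) {l : F} (l0 : l ≠ 0) (hl : σ l = l)
    (h : P l 0) : P 1 0 := by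
  have h1 := m2 _ _ l⁻¹ (by rw [map_inv₀, hl]) h
  rw [zero_add, inv_mul_cancel₀ l0] at h1
  have h2 := m1 _ _ (1 - l) (by rw [map_sub, hl, map_one]) h1
  rw [mul_one, add_sub_cancel] at h2
  simpa using m2 _ _ (-1) (by simp) h2

theorem sl2_trans (P : F → F → Prop) (m1 : ∀ α β c, σ c = c → P α β → P (α + c * β) β)
    (m2 : ∀ α β c, σ c = c → P α β → P α (β + c * α)) {α β α' β' : F}
    (h0 : σ α * β - σ β * α ≠ 0) (h1 : σ α * β - σ β * α = σ α' * β' - σ β' * α')
    (h : P α β) : P α' β' := by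
  have key : ∀ α β, σ α * β - σ β * α ≠ 0 → σ α * β - σ β * α = σ α' * β' - σ β' * α' →
      σ α * α' - σ α' * α ≠ 0 → P α β → P α' β' := by
    intro α β h0 h1 h2 h
    have a0 : α' ≠ 0 := by rintro rfl; simp at h2
    have a1 : σ α' ≠ 0 := (map_ne_zero σ).2 a0
    have fx : ∀ x y : F, σ ((σ x * y - σ y * x) / (σ α * β - σ β * α)) =
        (σ x * y - σ y * x) / (σ α * β - σ β * α) := fun x y => by
      simp only [map_div₀, map_sub, map_mul, Q.inv]
      rw [div_eq_div_iff (fun e => h0 (by linear_combination -e)) h0]; ring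
    have fa := fx α' β
    have fb := fx α α'
    have ga := div_mul_cancel₀ (σ α' * β - σ β * α') h0
    have gb := div_mul_cancel₀ (σ α * α' - σ α' * α) h0
    have b0 := div_ne_zero h2 h0
    generalize (σ α' * β - σ β * α') / (σ α * β - σ β * α) = a at fa ga
    generalize (σ α * α' - σ α' * α) / (σ α * β - σ β * α) = b at fb gb b0
    have hα : α' = a * α + b * β := mul_left_cancel₀ h0 (by linear_combination -α * ga - β * gb)
    have ft : σ ((a - 1) / b) = (a - 1) / b := by rw [map_div₀, map_sub, fa, fb, map_one]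
    have gt := div_mul_cancel₀ (a - 1) b0
    have e1 := m2 _ _ _ ft h
    generalize (a - 1) / b = t at ft gt e1
    have e2 := m1 _ _ _ fb e1
    have e3 : α + b * (β + t * α) = α' := by linear_combination α * gt - hα
    have e4 : σ α' * (β + t * α) - σ (β + t * α) * α' = σ α * β - σ β * α := by
      rw [hα]
      simp only [map_add, map_mul, fa, fb, ft]
      linear_combination (σ β * α - σ α * β) * gt
    generalize β + t * α = β1 at *
    rw [e3] at e2
    have e5 := m2 _ _ ((β' - β1) / α') (by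
      rw [map_div₀, div_eq_div_iff a1 a0, map_sub]; linear_combination h1 + e4) e2
    rwa [div_mul_cancel₀ _ a0, add_sub_cancel] at e5
  by_cases h2 : σ α * α' - σ α' * α = 0
  swap
  · exact key α β h0 h1 h2 h
  refine key (α + 1 * β) β (by rw [map_add, one_mul]; intro e; exact h0 (by linear_combination e))
    (by rw [map_add, one_mul]; linear_combination h1) (fun e => ?_) (m1 _ _ 1 (map_one σ) h)
  rw [map_add, one_mul] at e
  have e1 : σ β * α' - σ α' * β = 0 := by linear_combination e - h2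
  have a0 : α' = 0 := mul_left_cancel₀ h0 (by linear_combination β * h2 - α * e1)
  rw [a0] at h1
  exact h0 (by simpa using h1)

end QF

end Cfsg.Agent.H98
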