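import Cfsg.Agent.H98.UFr0

/-!
Unitary frames, part 1: coordinates, monomial isometries, reduction of the support of an isotropic
vector.
-/

set_option autoImplicit false
set_option linter.unusedSectionVars false
set_option linter.unusedVariables false
set_option linter.unusedSimpArgs false

namespace Cfsg.Agent.H98

open H27 Module

variable {F : Type*} [Field F] [Fintype F] {σ : F →+* F} {q : ℕ}
variable {ι : Type*} [Fintype ι] [DecidableEq ι]

/-- The standard basis vectors. -/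
def ee (F : Type*) [Field F] {ι : Type*} [DecidableEq ι] (i : ι) : ι → F := Pi.single i 1

@[simp] theorem ee_self (i : ι) : ee F i i = 1 := Pi.single_eq_same _ _

@[simp] theorem ee_ne {i j : ι} (h : j ≠ i) : ee F i j = 0 := Pi.single_eq_of_ne h _

theorem ee_apply (i j : ι) : ee F i j = if j = i then 1 else 0 := Pi.single_apply _ _ _

theorem bf_eq (i : ι) : Pi.basisFun F ι i = ee F i := Pi.basisFun_apply _ _ _

theorem bf_coord (i : ι) (x : ι → F) : (Pi.basisFun F ι).coord i x = x i := by simp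

/-- The monomial group. -/
noncomputable abbrev FR (F : Type*) [Field F] (ι : Type*) [Fintype ι] [DecidableEq ι] :
    Subgroup ((ι → F) ≃ₗ[F] (ι → F)) := dstab (frame (Pi.basisFun F ι))

theorem mem_FR {g : (ι → F) ≃ₗ[F] (ι → F)} (h : ∀ i, ∃ j, ∀ m, m ≠ j → g (ee F i) m = 0) :
    g ∈ FR F ι := mem_dstab_frame fun i => by
  obtain ⟨j, hj⟩ := h i
  exact ⟨j, mem_frame_of_coord fun m hm => by rw [bf_coord, bf_eq, hj m hm]⟩

theorem exists_of_mem_FR {g : (ι → F) ≃ₗ[F] (ι → F)} (h : g ∈ FR F ι) :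
    ∃ π : Equiv.Perm ι, ∀ k, ∃ c : F, c ≠ 0 ∧ g (ee F k) = c • ee F (π k) := by
  simpa only [bf_eq] using exists_of_mem_dstab_frame h

theorem exists_two_FR [Nonempty ι] {g : (ι → F) ≃ₗ[F] (ι → F)} (h : g ∉ FR F ι) :
    ∃ k i j, i ≠ j ∧ g (ee F k) i ≠ 0 ∧ g (ee F k) j ≠ 0 := by
  simpa only [bf_eq, bf_coord] using exists_two_coord h

theorem exists_diagL (t : ι → F) (ht : ∀ i, t i ≠ 0) : ∃ d : (ι → F) ≃ₗ[F] (ι → F),
    LinearMap.det (d : (ι → F) →ₗ[F] (ι → F)) = ∏ i, t i ∧ ∀ x i, d x i = t i * x i := by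
  have h : ∀ x i, Matrix.toLin' (Matrix.diagonal t) x i = t i * x i := fun x i => by
    simp [Matrix.mulVec_diagonal]
  refine ⟨LinearEquiv.ofInjectiveEndo (Matrix.toLin' (Matrix.diagonal t)) fun x y e =>
    funext fun i => mul_left_cancel₀ (ht i) (by rw [← h, ← h, e]), ?_, h⟩
  exact (LinearMap.det_toLin' _).trans Matrix.det_diagonal

theorem mem_FR_of_mono {d : (ι → F) ≃ₗ[F] (ι → F)} (π : Equiv.Perm ι) (t : ι → F)
    (h : ∀ x i, d x (π i) = t i * x i) : d ∈ FR F ι := mem_FR fun i => ⟨π i, fun m hm => by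
  obtain ⟨m, rfl⟩ := π.surjective m
  rw [h, ee_ne (fun e => hm (by rw [e])), mul_zero]⟩

/-- At most two non-zero coordinates. -/
def Two (x : ι → F) : Prop := ∃ r s, ∀ m, m ≠ r → m ≠ s → x m = 0

theorem Two.false {x : ι → F} (h : Two x) {i j k : ι} (hij : i ≠ j) (hik : i ≠ k) (hjk : j ≠ k)
    (hi : x i ≠ 0) (hj : x j ≠ 0) (hk : x k ≠ 0) : False := by
  obtain ⟨r, s, h⟩ := h
  by_cases h1 : i = r
  · by_cases h2 : j = s
    · exact hk (h k (h1 ▸ hik.symm) (h2 ▸ hjk.symm))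
    · exact hj (h j (h1 ▸ hij.symm) h2)
  · by_cases h2 : i = s
    · by_cases h3 : j = r
      · exact hk (h k (h3 ▸ hjk.symm) (h2 ▸ hik.symm))
      · exact hj (h j h3 (h2 ▸ hij.symm))
    · exact hi (h i h1 h2)

theorem exists_three_of_not_two [Nonempty ι] {x : ι → F} (h : ¬ Two x) :
    ∃ i j k, i ≠ j ∧ i ≠ k ∧ j ≠ k ∧ x i ≠ 0 ∧ x j ≠ 0 ∧ x k ≠ 0 := by
  simp only [Two, not_exists, not_forall] at h
  obtain ⟨i0⟩ := ‹Nonempty ι›
  obtain ⟨i, -, -, hi⟩ := h i0 i0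
  obtain ⟨j, hj, -, hj'⟩ := h i i
  obtain ⟨k, hk, hk', hk''⟩ := h i j
  exact ⟨i, j, k, Ne.symm hj, Ne.symm hk, Ne.symm hk', hi, hj', hk''⟩

theorem Two.exists_eq [Nontrivial ι] {x : ι → F} (h : Two x) :
    ∃ i j, i ≠ j ∧ x = x i • ee F i + x j • ee F j := by
  obtain ⟨r, s, h⟩ := h
  obtain ⟨i, j, hij, h⟩ : ∃ i j, i ≠ j ∧ ∀ m, m ≠ i → m ≠ j → x m = 0 := by
    by_cases e : r = s
    · obtain ⟨j, hj⟩ := exists_ne r
      exact ⟨r, j, hj.symm, fun m h1 _ => h m h1 (e ▸ h1)⟩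
    · exact ⟨r, s, e, h⟩
  refine ⟨i, j, hij, funext fun m => ?_⟩
  by_cases h1 : m = i
  · simp [h1, hij]
  · by_cases h2 : m = j
    · simp [h2, hij.symm]
    · simp [h1, h2, h m h1 h2]

theorem mem_FR_of_two (h5 : 5 ≤ Fintype.card ι) {g : (ι → F) ≃ₗ[F] (ι → F)} {a b c : F}
    (ha : a ≠ 0) (hb : b ≠ 0) (hc : c ≠ 0) (hab : a ≠ b) (hac : a ≠ c) (hbc : b ≠ c)
    (h : ∀ i j, i ≠ j → ∀ t, t = a ∨ t = b ∨ t = c → Two (g (ee F i + t • ee F j))) :
    g ∈ FR F ι := by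
  have : Nontrivial ι := Fintype.one_lt_card_iff_nontrivial.1 (by omega)
  by_contra hg
  obtain ⟨k, r, s, hrs, hr, hs⟩ := exists_two_FR hg
  have key : ∀ j m (t t' : F), t ≠ t' → g (ee F k + t • ee F j) m = 0 →
      g (ee F k + t' • ee F j) m = 0 → g (ee F k) m = 0 := fun j m t t' ht h1 h2 => by
    simp only [map_add, map_smul, Pi.add_apply, Pi.smul_apply, smul_eq_mul] at h1 h2
    exact mul_left_cancel₀ (sub_ne_zero.2 ht) (by linear_combination t * h2 - t' * h1)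
  by_cases hm : ∃ m, g (ee F k) m = 0
  · obtain ⟨m, hm⟩ := hm
    obtain ⟨j, hj⟩ : ∃ j, g (ee F j) m ≠ 0 := by
      by_contra h0
      push Not at h0
      have h1 : (LinearMap.proj m : (ι → F) →ₗ[F] F) ∘ₗ (g : (ι → F) →ₗ[F] (ι → F)) = 0 :=
        (Pi.basisFun F ι).ext fun j => by rw [bf_eq]; exact h0 j
      have h2 := LinearMap.congr_fun h1 (g⁻¹ (ee F m))
      rw [LinearMap.comp_apply, LinearEquiv.coe_coe, le_apply_inv] at h2
      simp at h2
    have hkj : k ≠ j := by rintro rfl; exact hj hm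
    have mr : m ≠ r := by rintro rfl; exact hr hm
    have ms : m ≠ s := by rintro rfl; exact hs hm
    have z : ∀ t, t ≠ 0 → t = a ∨ t = b ∨ t = c →
        g (ee F k + t • ee F j) r = 0 ∨ g (ee F k + t • ee F j) s = 0 := fun t t0 ht => by
      by_contra h1
      push Not at h1
      exact (h k j hkj t ht).false hrs mr.symm ms.symm h1.1 h1.2 (by simp [hm, t0, hj])
    rcases z a ha (by simp) with e1 | e1 <;> rcases z b hb (by simp) with e2 | e2 <;>
      rcases z c hc (by simp) with e3 | e3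
    exacts [hr (key _ _ _ _ hab e1 e2), hr (key _ _ _ _ hab e1 e2), hr (key _ _ _ _ hac e1 e3),
      hs (key _ _ _ _ hbc e2 e3), hr (key _ _ _ _ hbc e2 e3), hs (key _ _ _ _ hac e1 e3),
      hs (key _ _ _ _ hab e1 e2), hs (key _ _ _ _ hab e1 e2)]
  · push Not at hm
    obtain ⟨j, hj⟩ := exists_ne k
    obtain ⟨r1, s1, h1⟩ := h k j hj.symm a (by simp)
    obtain ⟨r2, s2, h2⟩ := h k j hj.symm b (by simp)
    obtain ⟨m, hm'⟩ := exists_not_mem_list [r1, s1, r2, s2] (by simp; omega)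
    simp only [List.mem_cons, List.not_mem_nil, or_false, not_or] at hm'
    exact hm m (key _ _ _ _ hab (h1 m hm'.1 hm'.2.1) (h2 m hm'.2.2.1 hm'.2.2.2))

open Classical in
/-- The support of a vector. -/
noncomputable def supp (x : ι → F) : Finset ι := Finset.univ.filter fun i => x i ≠ 0

theorem mem_supp {x : ι → F} {i : ι} : i ∈ supp x ↔ x i ≠ 0 := by simp [supp]

/-- The standard skew-Hermitian form on `ι → F`. -/
structure UF (B : (ι → F) →ₛₗ[σ] (ι → F) →ₗ[F] F) (ζ : F) (q : ℕ) : Prop where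
  uh : UH B
  qf : QF σ q
  z0 : ζ ≠ 0
  hB : ∀ x y, B x y = ζ * ∑ i, σ (x i) * y i

variable {B : (ι → F) →ₛₗ[σ] (ι → F) →ₗ[F] F} {ζ : F} {H : Subgroup ((ι → F) ≃ₗ[F] (ι → F))}

namespace UF

variable (S : UF B ζ q)
include S

theorem sk : SkH B := S.uh.toSkH

theorem B_ee (i : ι) (x : ι → F) : B (ee F i) x = ζ * x i := by
  rw [S.hB, Finset.sum_eq_single i] <;> simp +contextual

theorem B_ee' (i : ι) (x : ι → F) : B x (ee F i) = ζ * σ (x i) := by
  rw [S.hB, Finset.sum_eq_single i] <;> simp +contextual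

theorem zs [Nonempty ι] : σ ζ = -ζ := by
  obtain ⟨i⟩ := ‹Nonempty ι›
  simpa [S.B_ee] using S.sk.norm_skew (ee F i)

theorem B_two (i j : ι) (a b : F) (x : ι → F) :
    B (a • ee F i + b • ee F j) x = ζ * (σ a * x i + σ b * x j) := by
  simp only [map_add, LinearMap.map_smulₛₗ, LinearMap.add_apply, LinearMap.smul_apply, S.B_ee,
    smul_eq_mul]
  ring

theorem B_two' (i j : ι) (a b : F) (x : ι → F) :
    B x (a • ee F i + b • ee F j) = ζ * (σ (x i) * a + σ (x j) * b) := by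
  simp only [map_add, map_smul, S.B_ee', smul_eq_mul]
  ring

theorem B_two_two {i j : ι} (hij : i ≠ j) (a b a' b' : F) :
    B (a • ee F i + b • ee F j) (a' • ee F i + b' • ee F j) = ζ * (σ a * a' + σ b * b') := by
  rw [S.B_two]; simp [hij, hij.symm]

theorem mem_Iso_of_mono {d : (ι → F) ≃ₗ[F] (ι → F)} (π : Equiv.Perm ι) (t : ι → F)
    (ht : ∀ i, t i * σ (t i) = 1) (h : ∀ x i, d x (π i) = t i * x i) : d ∈ Iso B := fun x y => by
  rw [S.hB, S.hB, ← Equiv.sum_comp π]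
  refine congrArg _ (Finset.sum_congr rfl fun i _ => ?_)
  rw [h, h, map_mul]; linear_combination σ (x i) * y i * ht i

theorem exists_diag (t : ι → F) (ht : ∀ i, t i * σ (t i) = 1) : ∃ d ∈ FR F ι ⊓ Iso B,
    LinearMap.det (d : (ι → F) →ₗ[F] (ι → F)) = ∏ i, t i ∧ ∀ x i, d x i = t i * x i := by
  obtain ⟨d, h1, h2⟩ := exists_diagL t fun i => ne_zero_of_mu (ht i)
  exact ⟨d, ⟨mem_FR_of_mono 1 t h2, S.mem_Iso_of_mono 1 t ht h2⟩, h1, h2⟩

theorem exists_mono (π : Equiv.Perm ι) (t : ι → F) (ht : ∀ i, t i * σ (t i) = 1) :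
    ∃ d ∈ FR F ι ⊓ Iso B, LinearMap.det (d : (ι → F) →ₗ[F] (ι → F)) =
      ((Equiv.Perm.sign π : ℤ) : F) * ∏ i, t i ∧ ∀ x i, d x (π i) = t i * x i := by
  obtain ⟨d, h1, h2⟩ := exists_diagL t fun i => ne_zero_of_mu (ht i)
  have h3 : ∀ x i, (permHom (Pi.basisFun F ι) π * d) x (π i) = t i * x i := fun x i => by
    rw [le_mul_apply, ← bf_coord (π i) (permHom _ π _), coord_permHom, bf_coord, h2]
  exact ⟨_, ⟨mem_FR_of_mono π t h3, S.mem_Iso_of_mono π t ht h3⟩,
    by rw [det_mul', det_permHom, h1], h3⟩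

theorem exists_mono_map (π : Equiv.Perm ι) {x y : ι → F}
    (h : ∀ i, σ (x i) * x i = σ (y (π i)) * y (π i)) : ∃ d ∈ FR F ι ⊓ Iso B, d x = y := by
  choose t t1 t2 using fun i => S.qf.exists_rot (h i)
  obtain ⟨d, h1, -, h2⟩ := S.exists_mono π t t1
  refine ⟨d, h1, funext fun i => ?_⟩
  obtain ⟨i, rfl⟩ := π.surjective i
  rw [h2, t2]

theorem exists_refl (l : ι) {a : F} (ha : a * σ a = 1) : ∃ d ∈ FR F ι ⊓ Iso B,
    LinearMap.det (d : (ι → F) →ₗ[F] (ι → F)) = a ∧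
      ∀ x, d x = x + ((a - 1) * x l) • ee F l := by
  obtain ⟨d, h1, h2, h3⟩ := S.exists_diag (Function.update 1 l a) fun i => by
    by_cases h : i = l <;> simp [h, ha]
  refine ⟨d, h1, by rw [h2, Finset.prod_update_of_mem (Finset.mem_univ _)]; simp,
    fun x => funext fun i => ?_⟩
  rw [h3]
  by_cases h : i = l
  · simp [h]; ring
  · simp [h]

theorem exists_spare {n : (ι → F) ≃ₗ[F] (ι → F)} (hn : n ∈ FR F ι ⊓ Iso B) (k : ι) :
    ∃ n' ∈ FR F ι ⊓ GG B, ∀ x, x k = 0 → n' x = n x := by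
  have h := S.uh.det n hn.2
  obtain ⟨d, h1, h2, h3⟩ := S.exists_refl k (S.qf.mu_conj h)
  exact ⟨n * d, ⟨(FR F ι).mul_mem hn.1 h1.1, (Iso B).mul_mem hn.2 h1.2,
    mem_SLV.2 (by rw [det_mul', h2, h])⟩, fun x hx => by simp [le_mul_apply, h3, hx]⟩

theorem exists_mono_map' (π : Equiv.Perm ι) {x y : ι → F} {k : ι} (hk : x k = 0)
    (h : ∀ i, σ (x i) * x i = σ (y (π i)) * y (π i)) : ∃ d ∈ FR F ι ⊓ GG B, d x = y := by
  obtain ⟨d, h1, h2⟩ := S.exists_mono_map π h
  obtain ⟨d', h3, h4⟩ := S.exists_spare h1 k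
  exact ⟨d', h3, by rw [h4 x hk, h2]⟩

theorem coord_of_fix {g : (ι → F) ≃ₗ[F] (ι → F)} (hg : g ∈ Iso B) {l : ι} {c : F}
    (h : g (ee F l) = c • ee F l) (x : ι → F) : g x l = c * x l := by
  have h1 := hg (ee F l) x
  have h2 := hg (ee F l) (ee F l)
  simp only [h, LinearMap.map_smulₛₗ, LinearMap.smul_apply, S.B_ee, smul_eq_mul, Pi.smul_apply,
    ee_self, mul_one] at h1 h2
  exact mul_left_cancel₀ S.z0 (by linear_combination c * h1 - g x l * h2)

theorem exists_two_of_iso {u : ι → F} (hu : B u u = 0) (h0 : u ≠ 0) :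
    ∃ i j, i ≠ j ∧ u i ≠ 0 ∧ u j ≠ 0 := by
  obtain ⟨i, hi⟩ : ∃ i, u i ≠ 0 := Function.ne_iff.1 h0
  by_contra h
  push Not at h
  rw [S.hB, Finset.sum_eq_single i (fun j _ hj => by simp [h i j hj.symm hi]) (by simp)] at hu
  simp [S.z0, hi] at hu

theorem as_two (hH : FR F ι ⊓ Iso B ≤ H) {u : ι → F} (hu : AS B H u) (h0 : u ≠ 0) {k l : ι}
    (hkl : k ≠ l) {a b : F} (hab : σ a * a + σ b * b = 0) :
    AS B H (a • ee F k + b • ee F l) := by
  obtain ⟨i, j, hij, hi, hj⟩ := S.exists_two_of_iso hu.1 h0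
  obtain ⟨θ, θ', t1, t2, t3, t4, t5, t6⟩ := S.qf.exists_pair_sum (norm_eq_zero.not.2 hi)
    (norm_eq_zero.not.2 hj) (S.qf.norm_fix _) (S.qf.norm_fix _)
  obtain ⟨d1, d11, -, d12⟩ := S.exists_refl i t1
  obtain ⟨d2, d21, -, d22⟩ := S.exists_refl j t2
  have h1 := (hu.conj (hH d11) d11.2).conj (hH d21) d21.2
  have h2 : d2 (d1 u) + -u = ((θ - 1) * u i) • ee F i + ((θ' - 1) * u j) • ee F j := by
    rw [d22, d12]; simp [hij.symm]; abel
  have h3 : σ ((θ - 1) * u i) * ((θ - 1) * u i) + σ ((θ' - 1) * u j) * ((θ' - 1) * u j) = 0 := by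
    simp only [map_mul, map_sub, map_one]
    linear_combination t5 + σ (u i) * u i * t1 + σ (u j) * u j * t2
  have h4 := S.sk.as_add (S.sk.as_neg hu) h1 (by
    rw [add_neg_eq_iff_eq_add.1 h2, map_add, S.B_two', map_neg B, LinearMap.neg_apply, hu.1]
    intro h
    exact mul_ne_zero S.z0 t6 (by simp only [Pi.neg_apply, map_neg] at h; linear_combination -h))
    (by rw [h2, S.B_two_two hij, h3, mul_zero])
  rw [h2] at h4
  have α0 : (θ - 1) * u i ≠ 0 := mul_ne_zero (sub_ne_zero.2 t3) hi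
  generalize (θ - 1) * u i = α at *
  generalize (θ' - 1) * u j = β at *
  obtain ⟨π, rfl, rfl⟩ := exists_perm_pair hij hkl
  obtain ⟨d, d3, d4⟩ := S.exists_mono_map π (x := (a / α) • (α • ee F i + β • ee F j))
    (y := a • ee F (π i) + b • ee F (π j)) fun m => by
      have α1 : σ α ≠ 0 := (map_ne_zero σ).2 α0
      by_cases e1 : m = i
      · simp [e1, hij, hkl, α0, α1]
      by_cases e2 : m = j
      · simp only [e2, hij.symm, hkl.symm, Pi.smul_apply, Pi.add_apply, ee_self, ee_ne, ne_eq,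
          not_false_eq_true, smul_eq_mul, mul_zero, mul_one, zero_add, map_mul, map_div₀]
        field_simp
        linear_combination σ a * a * h3 - α * σ α * hab
      · simp [e1, e2]
  exact d4 ▸ (S.sk.as_smul h4 _).conj (hH d3) d3.2

variable (h2 : ∀ k l, k ≠ l → ∀ a b : F, σ a * a + σ b * b = 0 → AS B H (a • ee F k + b • ee F l))
include h2

omit h2 in
theorem moves {u u' y : ι → F} (hu : AS B H u) (hu' : AS B H u') (h1 : B u u' = 1)
    (hy : B u y = 0) (hy' : B u' y = 0) :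
    (∀ α β c, σ c = c → AS B H (α • u + β • u' + y) → AS B H ((α + c * β) • u + β • u' + y)) ∧
    ∀ α β c, σ c = c → AS B H (α • u + β • u' + y) → AS B H (α • u + (β + c * α) • u' + y) := by
  refine ⟨fun α β c hc h => ?_, fun α β c hc h => ?_⟩
  · convert S.sk.as_move hu h hc using 1
    simp only [map_add, map_smul, hu.1, h1, hy, smul_eq_mul]; module
  · convert S.sk.as_move hu' h (c := -c) (by rw [map_neg, hc]) using 1
    simp only [map_add, map_smul, hu'.1, S.sk.one_symm h1, hy', smul_eq_mul]; module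

theorem as_plane {i j : ι} (hij : i ≠ j) {y : ι → F} (yi : y i = 0) (yj : y j = 0)
    {a b a' b' : F} (h0 : σ a * a + σ b * b ≠ 0) (h1 : σ a * a + σ b * b = σ a' * a' + σ b' * b')
    (h : AS B H (a • ee F i + b • ee F j + y)) : AS B H (a' • ee F i + b' • ee F j + y) := by
  obtain ⟨s, hs⟩ := exists_norm_eq S.uh.ne S.qf.inv (t := -1) (by simp)
  obtain ⟨θ, θ1, θ2⟩ := S.qf.exists_mu [1] (by simpa using S.qf.two_le.trans' (by omega))
  have θ3 : 1 - θ ≠ 0 := fun e => θ2 (by simp [(sub_eq_zero.1 e).symm])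
  have s0 : s ≠ 0 := by rintro rfl; simp at hs
  have z0 := S.z0
  set κ := (ζ * (1 - θ))⁻¹ with hκ
  have κ0 : κ ≠ 0 := inv_ne_zero (mul_ne_zero z0 θ3)
  have hu := h2 i j hij 1 s (by simp [hs])
  have hu' := h2 i j hij κ (κ * θ * s) (by
    simp only [map_mul]; linear_combination σ κ * κ * θ * σ θ * hs - σ κ * κ * θ1)
  have h3 : B ((1 : F) • ee F i + s • ee F j) (κ • ee F i + (κ * θ * s) • ee F j) = 1 := by
    rw [S.B_two_two hij, map_one, hκ]; field_simp; linear_combination θ * hs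
  obtain ⟨m1, m2⟩ := S.moves hu hu' h3 (y := y) (by rw [S.B_two]; simp [yi, yj])
    (by rw [S.B_two]; simp [yi, yj])
  have rep : ∀ a b : F, ∃ α β : F, a • ee F i + b • ee F j =
      α • ((1 : F) • ee F i + s • ee F j) + β • (κ • ee F i + (κ * θ * s) • ee F j) ∧
      σ α * β - σ β * α = ζ * (σ a * a + σ b * b) := fun a b => by
    have e : a • ee F i + b • ee F j = (a - (a * s - b) / (s * (1 - θ))) •
        ((1 : F) • ee F i + s • ee F j) + ((a * s - b) / (κ * s * (1 - θ))) •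
          (κ • ee F i + (κ * θ * s) • ee F j) := by
      match_scalars <;> field_simp <;> ring
    refine ⟨_, _, e, ?_⟩
    rw [← S.B_two_two hij, e]
    generalize (1 : F) • ee F i + s • ee F j = u at *
    generalize κ • ee F i + (κ * θ * s) • ee F j = u' at *
    simp only [map_add, LinearMap.map_smulₛₗ, LinearMap.add_apply, LinearMap.smul_apply, hu.1,
      hu'.1, h3, S.sk.one_symm h3, smul_eq_mul, RingHom.id_apply]
    ring
  obtain ⟨α, β, e1, e2⟩ := rep a b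
  obtain ⟨α', β', e1', e2'⟩ := rep a' b'
  rw [e1] at h
  rw [e1']
  exact S.qf.sl2_trans _ m1 m2 (by rw [e2]; exact mul_ne_zero z0 h0) (by rw [e2, e2', h1]) h

omit S h2 in
theorem eq_split {i j : ι} (hij : i ≠ j) (x : ι → F) : ∃ y : ι → F, y i = 0 ∧ y j = 0 ∧
    x = x i • ee F i + x j • ee F j + y ∧ ∀ m, m ≠ i → m ≠ j → y m = x m :=
  ⟨x - (x i • ee F i + x j • ee F j), by simp [hij], by simp [hij.symm], by abel,
    fun m h1 h2 => by simp [h1, h2]⟩

omit h2 in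
theorem B_split {i j : ι} (hij : i ≠ j) {y : ι → F} (yi : y i = 0) (yj : y j = 0) (a b : F) :
    B (a • ee F i + b • ee F j + y) (a • ee F i + b • ee F j + y) =
      ζ * (σ a * a + σ b * b) + B y y := by
  rw [map_add B, LinearMap.add_apply, map_add _ _ y, map_add _ _ y, S.B_two_two hij, S.B_two,
    S.B_two', yi, yj]
  simp

theorem as_red {x : ι → F} (hx : B x x = 0) {i j : ι} (hij : i ≠ j) (hi : x i ≠ 0) (hj : x j ≠ 0)
    (h0 : σ (x i) * x i + σ (x j) * x j ≠ 0) : ∃ x', B x' x' = 0 ∧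
      (supp x').card < (supp x).card ∧ (AS B H x' → AS B H x) := by
  obtain ⟨y, yi, yj, e, hy⟩ := eq_split hij x
  obtain ⟨c, hc⟩ := exists_norm_eq S.uh.ne S.qf.inv (t := σ (x i) * x i + σ (x j) * x j)
    (by rw [map_add, S.qf.norm_fix, S.qf.norm_fix])
  refine ⟨c • ee F i + (0 : F) • ee F j + y, ?_, Finset.card_lt_card ⟨fun m hm => ?_, fun h => ?_⟩,
    fun h => ?_⟩
  · rw [e, S.B_split hij yi yj] at hx
    rw [S.B_split hij yi yj, hc, mul_zero, add_zero, hx]
  · rw [mem_supp] at hm ⊢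
    by_cases e1 : m = i
    · rwa [e1]
    by_cases e2 : m = j
    · rwa [e2]
    simpa [e1, e2, hy m e1 e2] using hm
  · simpa [mem_supp, hij.symm, yj] using h (mem_supp.2 hj)
  · rw [e]
    exact S.as_plane h2 hij yi yj (by simpa [hc] using h0) (by simp [hc]) h

/-- All root groups from the root groups with support two. -/
theorem as_all [Nontrivial ι] (hq : 3 ≤ q) (x : ι → F) (hx : B x x = 0) : AS B H x := by
  induction' hn : (supp x).card using Nat.strong_induction_on with n ih generalizing x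
  subst hn
  by_cases h : Two x
  · obtain ⟨i, j, hij, e⟩ := h.exists_eq
    rw [e, S.B_two_two hij] at hx
    rw [e]
    exact h2 i j hij _ _ ((mul_eq_zero.1 hx).resolve_left S.z0)
  obtain ⟨i, j, k, hij, hik, hjk, hi, hj, hk⟩ := exists_three_of_not_two h
  have fin : ∀ i j, i ≠ j → x i ≠ 0 → x j ≠ 0 → σ (x i) * x i + σ (x j) * x j ≠ 0 → AS B H x :=
    fun i j hij hi hj h0 => by
      obtain ⟨x', h1, h3, h4⟩ := S.as_red h2 hx hij hi hj h0
      exact h4 (ih _ h3 x' h1 rfl)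
  by_cases e1 : σ (x i) * x i + σ (x j) * x j = 0
  swap
  · exact fin i j hij hi hj e1
  by_cases e2 : σ (x i) * x i + σ (x k) * x k = 0
  swap
  · exact fin i k hik hi hk e2
  by_cases e3 : σ (x j) * x j + σ (x k) * x k = 0
  swap
  · exact fin j k hjk hj hk e3
  have n0 := (norm_eq_zero (σ := σ)).not.2 hi
  have two : (2 : F) = 0 := mul_right_cancel₀ n0 (by linear_combination e1 + e2 - e3)
  obtain ⟨l, l1, l2⟩ := S.qf.exists_fix [0, 1] hq
  simp only [List.mem_cons, List.not_mem_nil, or_false, not_or] at l2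
  obtain ⟨y, yi, yj, e, hy⟩ := eq_split hij x
  obtain ⟨θ, θ1, θ2⟩ := S.qf.exists_mu [1] (by simp; omega)
  have θ3 : 1 - θ ≠ 0 := fun e => θ2 (by simp [(sub_eq_zero.1 e).symm])
  have z0 := S.z0
  set κ := (ζ * (σ (x i) * x i) * (1 - θ))⁻¹ with hκ
  have hu := h2 i j hij _ _ e1
  have hu' := h2 i j hij (κ * x i) (κ * θ * x j) (by
    simp only [map_mul]
    linear_combination σ κ * κ * e1 + σ κ * κ * σ (x j) * x j * θ1)
  have h3 : B (x i • ee F i + x j • ee F j) ((κ * x i) • ee F i + (κ * θ * x j) • ee F j) = 1 := by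
    have := (map_ne_zero σ).2 hi
    rw [S.B_two_two hij, hκ]; field_simp; linear_combination θ * e1
  obtain ⟨m1, m2⟩ := S.moves hu hu' h3 (y := y) (by rw [S.B_two]; simp [yi, yj])
    (by rw [S.B_two]; simp [yi, yj])
  have h4 := QF.sl2_torus _ m1 m2 l2.1 l1
  simp only [zero_smul, add_zero, one_smul, ← e] at h4
  refine h4 ?_
  have c1 : (l • (x i • ee F i + x j • ee F j) + y) i = l * x i := by simp [hij, yi]
  have c2 : (l • (x i • ee F i + x j • ee F j) + y) k = x k := by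
    simp [hik.symm, hjk.symm, hy k hik.symm hjk.symm]
  obtain ⟨x', h1, h5, h6⟩ := S.as_red h2 (x := l • (x i • ee F i + x j • ee F j) + y) (by
    rw [e, S.B_split hij yi yj, e1] at hx
    rw [smul_add, smul_smul, smul_smul, S.B_split hij yi yj, map_mul, map_mul]
    linear_combination hx + ζ * σ l * l * e1) hik (by rw [c1]; exact mul_ne_zero l2.1 hi)
    (by rwa [c2]) (by
      rw [c1, c2, map_mul, l1]
      intro h7
      exact mul_ne_zero n0 (mul_self_ne_zero.2 (sub_ne_zero.2 l2.2))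
        (by linear_combination h7 - e2 + (σ (x i) * x i * (1 - l)) * two))
  refine h6 (ih _ (h5.trans_le (Finset.card_le_card fun m hm => ?_)) x' h1 rfl)
  rw [mem_supp] at hm ⊢
  by_cases e1 : m = i
  · rwa [e1]
  by_cases e2 : m = j
  · rwa [e2]
  simpa [e1, e2, hy m e1 e2] using hm

end UF

end Cfsg.Agent.H98
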