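import Cfsg.Agent.H98.UFr1

/-!
Unitary frames, part 2: overgroups of the full monomial group of `GU`, and overgroups of the
monomial group of `SU` with a non-monomial element fixing a frame point.
-/

set_option autoImplicit false
set_option linter.unusedSectionVars false
set_option linter.unusedVariables false
set_option linter.unusedSimpArgs false

namespace Cfsg.Agent.H98

open H27 Module

variable {F : Type*} [Field F] [Fintype F] {σ : F →+* F} {q : ℕ}
variable {ι : Type*} [Fintype ι] [DecidableEq ι]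

/-- All quasi-reflections in the unit vector `v` lie in `H`. -/
def RF (B : (ι → F) →ₛₗ[σ] (ι → F) →ₗ[F] F) (ζ : F) (H : Subgroup ((ι → F) ≃ₗ[F] (ι → F)))
    (v : ι → F) : Prop :=
  B v v = ζ ∧ ∀ l : F, l * σ l = 1 → Has H fun x => x + ((l - 1) / ζ * B v x) • v

variable {B : (ι → F) →ₛₗ[σ] (ι → F) →ₗ[F] F} {ζ : F} {H : Subgroup ((ι → F) ≃ₗ[F] (ι → F))}

theorem RF.exists {v : ι → F} (h : RF B ζ H v) {l : F} (hl : l * σ l = 1) :
    ∃ g ∈ H, ∀ x, g x = x + ((l - 1) / ζ * B v x) • v := h.2 l hl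

theorem RF.conj {v : ι → F} (h : RF B ζ H v) {g : (ι → F) ≃ₗ[F] (ι → F)} (hg : g ∈ H)
    (hi : g ∈ Iso B) : RF B ζ H (g v) :=
  ⟨(hi v v).trans h.1, fun l hl => (Has.conj (h.2 l hl) hg).congr fun z => by
    simp only [map_add, map_smul, le_apply_inv, ← hi v]⟩

theorem RF.smul {v : ι → F} (h : RF B ζ H v) {c : F} (hc : c * σ c = 1) : RF B ζ H (c • v) := by
  refine ⟨?_, fun l hl => (h.2 l hl).congr fun x => ?_⟩
  · simp only [LinearMap.map_smulₛₗ, LinearMap.smul_apply, smul_eq_mul, h.1, RingHom.id_apply]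
    linear_combination ζ * hc
  · simp only [LinearMap.map_smulₛₗ, LinearMap.smul_apply, smul_eq_mul, smul_smul]
    congr 2
    linear_combination -((l - 1) / ζ * B v x) * hc

namespace UF

variable (S : UF B ζ q)
include S

theorem rf_ee (hH : FR F ι ⊓ Iso B ≤ H) (i : ι) : RF B ζ H (ee F i) :=
  ⟨by simp [S.B_ee], fun l hl => by
    obtain ⟨d, h1, -, h2⟩ := S.exists_refl i hl
    exact ⟨d, hH h1, fun x => by
      simp only [h2, S.B_ee, ← mul_assoc, div_mul_cancel₀ _ S.z0]⟩⟩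

theorem as_of_rf [Nonempty ι] (hI : H ≤ Iso B) {u v : ι → F} (hv : RF B ζ H v)
    (hw : RF B ζ H (v + u)) (hu : B u u = 0) (huv : B u v = 0) : AS B H u := by
  have z0 := S.z0
  have hvu := S.sk.zero_symm huv
  let L : AddSubgroup F :=
    { carrier := {c | ∃ t, ES B H u (c • v) t}
      zero_mem' := ⟨0, (has_id H).congr fun x => by simp⟩
      add_mem' := by
        rintro a b ⟨t, ht⟩ ⟨t', ht'⟩
        exact ⟨_, add_smul a b v ▸ S.sk.es_comp hu (by simp [huv]) (by simp [huv]) ht ht'⟩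
      neg_mem' := by
        rintro a ⟨t, ht⟩
        exact ⟨_, neg_smul a v ▸ S.sk.es_neg hu (by simp [huv]) ht⟩ }
  obtain ⟨a, a1, a2⟩ := S.qf.exists_mu [1] (by simpa using S.qf.two_le.trans' (by omega))
  have a3 : a - 1 ≠ 0 := sub_ne_zero.2 (by simpa using a2)
  have hL := S.qf.add_eq_top L (fun l hl c ⟨t, ht⟩ => ⟨t, by
      obtain ⟨g, hg, hgf⟩ := hv.exists hl
      have := ht.conj hg (hI hg)
      rwa [hgf, hgf, hvu, mul_zero, zero_smul, add_zero, map_smul, hv.1, smul_eq_mul, ← add_smul,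
        show c + (l - 1) / ζ * (c * ζ) = l * c by field_simp; ring] at this⟩)
    (x := (a - 1) / ζ) ⟨(a - 1) / ζ, (Has.comp (hw.2 a a1) (hv.2 _ (S.qf.mu_conj a1))).congr
      fun z => by
        simp only [map_add, map_smul, LinearMap.add_apply, LinearMap.map_smulₛₗ, hv.1, huv,
          LinearMap.smul_apply, smul_eq_mul, map_div₀, map_sub, map_one, S.zs, RingHom.id_apply]
        match_scalars
        · ring
        · field_simp; linear_combination ζ * B v z * a1
        · field_simp; linear_combination ζ * B v z * a1⟩ (div_ne_zero a3 z0)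
  obtain ⟨t, ht⟩ := hL 1
  rw [one_smul] at ht
  exact S.sk.as_of_es (exists_trace_eq S.uh.ne S.qf.inv) hu huv huv (by rw [hv.1]; exact z0) hL ht

theorem exists_as_of_blocks (hH : FR F ι ⊓ Iso B ≤ H) (hI : H ≤ Iso B) {v : ι → F}
    (hv : RF B ζ H v) {A A' : Finset ι} (hd : Disjoint A A')
    (h1 : ∑ i ∈ A, σ (v i) * v i ≠ 0) (h2 : ∑ i ∈ A', σ (v i) * v i ≠ 0)
    (h3 : 1 - ∑ i ∈ A, σ (v i) * v i - ∑ i ∈ A', σ (v i) * v i ≠ 0) :
    ∃ u, u ≠ 0 ∧ AS B H u := by
  have fx : ∀ A : Finset ι, σ (∑ i ∈ A, σ (v i) * v i) = ∑ i ∈ A, σ (v i) * v i := fun A => by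
    rw [map_sum]; exact Finset.sum_congr rfl fun i _ => S.qf.norm_fix _
  obtain ⟨a, b, c, a1, b1, c1, hab, e⟩ := S.qf.exists_triple h1 h2 h3 (fx A) (fx A') (by ring)
  obtain ⟨i, hi, hi'⟩ := Finset.exists_ne_zero_of_sum_ne_zero h1
  obtain ⟨j, hj, hj'⟩ := Finset.exists_ne_zero_of_sum_ne_zero h2
  have : Nonempty ι := ⟨i⟩
  obtain ⟨d, d1, -, d2⟩ := S.exists_diag (fun m => if m ∈ A then a else if m ∈ A' then b else 1)
    fun m => by split_ifs <;> simp [a1, b1]
  have e0 : ∑ m, σ (v m) * v m = 1 := mul_left_cancel₀ S.z0 (by rw [← S.hB, hv.1, mul_one])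
  have e1 : B v (d v) = ζ * c := by
    rw [S.hB, ← e, ← e0]
    congr 1
    have : ∀ m, σ (v m) * d v m = σ (v m) * v m + ((if m ∈ A then (a - 1) * (σ (v m) * v m) else 0)
        + if m ∈ A' then (b - 1) * (σ (v m) * v m) else 0) := fun m => by
      rw [d2]
      by_cases h4 : m ∈ A
      · simp [h4, Finset.disjoint_left.1 hd h4]; ring
      · by_cases h5 : m ∈ A'
        · simp [h4, h5]; ring
        · simp [h4, h5]
    simp only [this, Finset.sum_add_distrib, Finset.sum_ite_mem, Finset.univ_inter,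
      ← Finset.mul_sum]
    ring
  have hw := (hv.conj (hH d1) d1.2).smul (S.qf.mu_conj c1)
  have e2 : B v (σ c • d v) = ζ := by rw [map_smul, e1, smul_eq_mul]; linear_combination ζ * c1
  have e3 : B (σ c • d v) v = ζ := by rw [S.sk.skew, e2, S.zs, neg_neg]
  refine ⟨σ c • d v - v, fun h => hab ?_, S.as_of_rf hI hv (by rwa [add_sub_cancel]) (by
    rw [map_sub B, LinearMap.sub_apply, map_sub, map_sub, hw.1, e2, e3, hv.1]; ring)
    (by rw [map_sub B, LinearMap.sub_apply, e3, hv.1, sub_self])⟩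
  have f1 := congrFun h i
  have f2 := congrFun h j
  simp only [Pi.sub_apply, Pi.smul_apply, d2, hi, hj, Finset.disjoint_right.1 hd hj, if_true,
    if_false, smul_eq_mul, Pi.zero_apply] at f1 f2
  have c0 := ne_zero_of_mu (S.qf.mu_conj c1)
  exact mul_left_cancel₀ (mul_ne_zero c0 (mul_ne_zero (right_ne_zero_of_mul hi')
    (right_ne_zero_of_mul hj'))) (by linear_combination v j * f1 - v i * f2)

theorem exists_as_of_three (hH : FR F ι ⊓ Iso B ≤ H) (hI : H ≤ Iso B) {v : ι → F}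
    (hv : RF B ζ H v) {i j k : ι} (hij : i ≠ j) (hik : i ≠ k) (hjk : j ≠ k) (hi : v i ≠ 0)
    (hj : v j ≠ 0) (hk : v k ≠ 0) : ∃ u, u ≠ 0 ∧ AS B H u := by
  have fin : ∀ i j, i ≠ j → v i ≠ 0 → v j ≠ 0 → 1 - σ (v i) * v i - σ (v j) * v j ≠ 0 →
      ∃ u, u ≠ 0 ∧ AS B H u := fun i j hij hi hj h =>
    S.exists_as_of_blocks hH hI hv (A := {i}) (A' := {j}) (by simpa using hij)
      (by simpa using hi) (by simpa using hj) (by simpa using h)
  by_cases e1 : 1 - σ (v i) * v i - σ (v j) * v j = 0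
  swap
  · exact fin i j hij hi hj e1
  by_cases e2 : 1 - σ (v j) * v j - σ (v k) * v k = 0
  swap
  · exact fin j k hjk hj hk e2
  refine S.exists_as_of_blocks hH hI hv (A := {i}) (A' := {j, k}) (by simp [hij, hik])
    (by simpa using hi) (by
      rw [Finset.sum_pair hjk]; intro h; exact one_ne_zero (α := F) (by linear_combination e2 + h))
    ?_
  rw [Finset.sum_pair hjk, Finset.sum_singleton]
  intro h
  exact (norm_eq_zero (σ := σ)).not.2 hi (by linear_combination e2 - h)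

/-- Overgroups of the monomial group of `GU`. -/
theorem GG_le_of_full (h3 : 3 ≤ Fintype.card ι) (hq : 3 ≤ q) (hH : FR F ι ⊓ Iso B ≤ H)
    (hI : H ≤ Iso B) {g : (ι → F) ≃ₗ[F] (ι → F)} (hg : g ∈ H) (hg' : g ∉ FR F ι) : GG B ≤ H := by
  have : Nontrivial ι := Fintype.one_lt_card_iff_nontrivial.1 (by omega)
  suffices h : ∃ u, u ≠ 0 ∧ AS B H u by
    obtain ⟨u, u0, hu⟩ := h
    exact S.sk.gen H fun x hx => (S.as_all (fun k l hkl a b => S.as_two hH hu u0 hkl) hq x hx).2
  obtain ⟨m, i, j, hij, hi, hj⟩ := exists_two_FR hg'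
  have hv := (S.rf_ee hH m).conj hg (hI hg)
  generalize g (ee F m) = v at *
  by_cases h : ∃ k, k ≠ i ∧ k ≠ j ∧ v k ≠ 0
  · obtain ⟨k, h1, h2, hk⟩ := h
    exact S.exists_as_of_three hH hI hv hij h1.symm h2.symm hi hj hk
  push Not at h
  obtain ⟨k, hk⟩ := exists_not_mem_list [i, j] (by simp; omega)
  simp only [List.mem_cons, List.not_mem_nil, or_false, not_or] at hk
  have e : v = v i • ee F i + v j • ee F j := funext fun m => by
    by_cases h1 : m = i
    · simp [h1, hij]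
    · by_cases h2 : m = j
      · simp [h2, hij.symm]
      · simp [h1, h2, h m h1 h2]
  obtain ⟨d, d1, d2⟩ := S.exists_mono_map (Equiv.swap j k) (x := v)
    (y := v i • ee F i + v j • ee F k) fun m => by
      by_cases h1 : m = j
      · simp [h1, hk.1]
      by_cases h2 : m = k
      · simp [h2, hij.symm, Ne.symm hk.2, h k hk.1 hk.2]
      rw [Equiv.swap_apply_of_ne_of_ne h1 h2]
      by_cases h3 : m = i
      · simp [h3, Ne.symm hk.1]
      · simp [h3, h2, h m h3 h1]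
  have hw := hv.conj (hH d1) d1.2
  rw [d2] at hw
  obtain ⟨a, a1, a2⟩ := S.qf.exists_mu_ne
  obtain ⟨r, hr, hrf⟩ := hw.exists a1
  have hv' := hv.conj hr (hI hr)
  have n0 := (norm_eq_zero (σ := σ)).not.2 hi
  have z0 := S.z0
  rw [hrf, S.B_two, h k hk.1 hk.2, mul_zero, add_zero, ← mul_assoc, div_mul_cancel₀ _ z0] at hv'
  refine S.exists_as_of_three hH hI hv' hij (Ne.symm hk.1) (Ne.symm hk.2) (fun h1 => a2 ?_)
    (by simpa [hij.symm, Ne.symm hk.2] using hj) (by
      simpa [hk.1, h k hk.1 hk.2, hi, hj, sub_eq_zero] using (by rintro rfl; simp at a2 : a ≠ 1))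
  simp only [Pi.add_apply, Pi.smul_apply, ee_self, ee_ne (Ne.symm hk.1), smul_eq_mul, mul_one,
    mul_zero, add_zero] at h1
  have h2 : 1 + (a - 1) * (σ (v i) * v i) = 0 := mul_left_cancel₀ hi (by linear_combination h1)
  have h4 := congrArg σ h2
  rw [map_add, map_mul, S.qf.norm_fix, map_sub, map_one, map_zero] at h4
  exact mul_right_cancel₀ n0 (by linear_combination h4 - h2)

omit S in
/-- The quasi-reflections in a frame vector. -/
def reflG (σ : F →+* F) (l : ι) : Subgroup ((ι → F) ≃ₗ[F] (ι → F)) where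
  carrier := {r | ∃ a : F, a * σ a = 1 ∧ ∀ x, r x = x + ((a - 1) * x l) • ee F l}
  one_mem' := ⟨1, by simp, fun x => by simp⟩
  mul_mem' := by
    rintro r s ⟨a, a1, a2⟩ ⟨b, b1, b2⟩
    refine ⟨a * b, by rw [map_mul]; linear_combination b * σ b * a1 + b1, fun x => ?_⟩
    rw [le_mul_apply, a2, b2]
    simp only [Pi.add_apply, Pi.smul_apply, ee_self, smul_eq_mul]
    module
  inv_mem' := by
    rintro r ⟨a, a1, a2⟩
    have a0 := ne_zero_of_mu a1
    refine ⟨a⁻¹, by rw [map_inv₀, ← mul_inv, a1, inv_one], fun x => r.injective ?_⟩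
    rw [le_apply_inv, a2]
    simp only [Pi.add_apply, Pi.smul_apply, ee_self, smul_eq_mul]
    match_scalars
    · ring
    · field_simp; ring

theorem reflG_spec {l : ι} {r : (ι → F) ≃ₗ[F] (ι → F)} (hr : r ∈ reflG σ l) :
    r ∈ FR F ι ⊓ Iso B ∧ (LinearMap.det (r : (ι → F) →ₗ[F] (ι → F)) = 1 → r = 1) := by
  obtain ⟨a, a1, a2⟩ := hr
  obtain ⟨d, d1, d2, d3⟩ := S.exists_refl l a1
  obtain rfl : r = d := LinearEquiv.ext fun x => by rw [a2, d3]
  exact ⟨d1, fun h => LinearEquiv.ext fun x => by rw [d3, ← d2, h]; simp⟩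

/-- Overgroups of the monomial group of `SU` with a non-monomial element fixing a frame point. -/
theorem GG_le_of_fix (h3 : 3 ≤ Fintype.card ι) (hq : 3 ≤ q) (hH : FR F ι ⊓ GG B ≤ H)
    (hG : H ≤ GG B) {g : (ι → F) ≃ₗ[F] (ι → F)} (hg : g ∈ H) (hg' : g ∉ FR F ι) {i j : ι}
    (hij : ∀ m, m ≠ j → g (ee F i) m = 0) : GG B ≤ H := by
  obtain ⟨k, hk⟩ := exists_not_mem_list [j] (by simp; omega)
  simp only [List.mem_cons, List.not_mem_nil, or_false] at hk
  obtain ⟨n, n1, n2⟩ := S.exists_mono_map' (Equiv.swap i j) (x := g (ee F i))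
    (y := g (ee F i) j • ee F i) (hij k hk) fun m => by
      by_cases h1 : m = j
      · simp [h1]
      · rw [hij m h1, Pi.smul_apply, ee_ne, smul_zero]
        rw [Ne, Equiv.swap_apply_eq_iff, Equiv.swap_apply_left]; exact h1
  have hE : GG B ≤ extGrp (reflG σ i) H := S.GG_le_of_full h3 hq (fun x hx => ⟨fun r hr => by
      have h1 := (S.reflG_spec hr).1
      refine hH ⟨(FR F ι).mul_mem ((FR F ι).mul_mem ((FR F ι).mul_mem hx.1 h1.1)
        ((FR F ι).inv_mem hx.1)) ((FR F ι).inv_mem h1.1), (Iso B).mul_mem ((Iso B).mul_mem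
        ((Iso B).mul_mem hx.2 h1.2) ((Iso B).inv_mem hx.2)) ((Iso B).inv_mem h1.2), ?_⟩
      change _ ∈ MonoidHom.ker _
      rw [MonoidHom.mem_ker]
      simp only [map_mul, map_inv]
      rw [mul_comm (LinearEquiv.det x)]; group, by
      have h := S.uh.det x hx.2
      obtain ⟨d, d1, d2, d3⟩ := S.exists_refl i (S.qf.mu_conj h)
      exact ⟨d, ⟨_, S.qf.mu_conj h, d3⟩, hH ⟨(FR F ι).mul_mem hx.1 d1.1,
        (Iso B).mul_mem hx.2 d1.2, mem_SLV.2 (by rw [det_mul', d2, h])⟩⟩⟩)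
    (fun x ⟨_, r, hr, h⟩ => ((Iso B).mul_mem_cancel_right (S.reflG_spec hr).1.2).1 (hG h).1)
    (g := n * g) ⟨fun r ⟨a, a1, a2⟩ => by
      have e : n * g * r = r * (n * g) := LinearEquiv.ext fun x => by
        have h1 : (n * g) (ee F i) = g (ee F i) j • ee F i := n2
        rw [le_mul_apply _ r, le_mul_apply r, a2, a2, map_add, map_smul, h1, S.coord_of_fix
          ((Iso B).mul_mem n1.2.1 (hG hg).1) h1, smul_smul]
        congr 2; ring
      rw [e, mul_inv_cancel_right, mul_inv_cancel]; exact H.one_mem, 1, Subgroup.one_mem _, by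
        rw [mul_one]; exact H.mul_mem (hH n1) hg⟩
    (by rwa [(FR F ι).mul_mem_cancel_left n1.1])
  intro x hx
  obtain ⟨-, r, hr, h⟩ := hE hx
  have h1 := mem_SLV.1 (hG h).2
  rw [det_mul', mem_SLV.1 hx.2, one_mul] at h1
  rwa [(S.reflG_spec hr).2 h1, mul_one] at h

end UF

end Cfsg.Agent.H98
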