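import Cfsg.Agent.H98.UFr2
import Cfsg.Agent.H27.OFr1

/-!
Unitary frames, part 3: an overgroup of the monomial group of `SU` in which every element mapping a
frame point to a frame point is monomial, is monomial (odd characteristic).
-/

set_option autoImplicit false
set_option linter.unusedSectionVars false
set_option linter.unusedVariables false
set_option linter.unusedSimpArgs false

namespace Cfsg.Agent.H98

open H27 Module

section ClaimA

variable {F V : Type*} [Field F] [AddCommGroup V] [Module F V] [FiniteDimensional F V]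
variable {ι : Type*} [Fintype ι] [DecidableEq ι]
variable {H : Subgroup (V ≃ₗ[F] V)} {b : Basis ι F V} {a : F}

/-- `H` contains the elements `diag(a, a⁻¹, 1, …)`, and every element of `H` mapping a frame point
to a frame point is monomial. -/
structure PartA (H : Subgroup (V ≃ₗ[F] V)) (b : Basis ι F V) (a : F) : Prop where
  dg : ∀ i j, i ≠ j → ∃ d ∈ H,
    ∀ x, d x = x + ((a - 1) * b.coord i x) • b i + ((a⁻¹ - 1) * b.coord j x) • b j
  part : ∀ h ∈ H, ∀ i j, h (b i) ∈ frame b j → h ∈ dstab (frame b)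

namespace PartA

variable (P : PartA H b a)
include P

theorem conj_mem {g x : V ≃ₗ[F] V} (hg : g ∈ H) (hx : x ∈ H) {k : ι} {c : F}
    (h : x (g (b k)) = c • g (b k)) : g⁻¹ * x * g ∈ dstab (frame b) :=
  P.part _ (H.mul_mem (H.mul_mem (H.inv_mem hg) hx) hg) k k (mem_frame.2 ⟨c, by
    rw [le_mul_apply, le_mul_apply, h, map_smul, le_inv_apply]⟩)

theorem span_pair (ha0 : a ≠ 0) (ha2 : a * a ≠ 1) (ha3 : a * a + a + 1 ≠ 0)
    {g : V ≃ₗ[F] V} (hg : g ∈ H) {k i j : ι} (hij : i ≠ j) (hi : b.coord i (g (b k)) = 0)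
    (hj : b.coord j (g (b k)) = 0) :
    ∃ r s, Submodule.span F {b r, b s} = Submodule.span F {g⁻¹ (b i), g⁻¹ (b j)} := by
  obtain ⟨d, hd, hdf⟩ := P.dg i j hij
  have := P.conj_mem hg hd (k := k) (c := 1) (by rw [hdf, hi, hj]; simp)
  refine span_eq_of_mono this (φ₁ := b.coord i ∘ₗ (g : V →ₗ[F] V))
    (φ₂ := b.coord j ∘ₗ (g : V →ₗ[F] V)) ha0 ha2 ha3 ?_ ?_ ?_ ?_ fun x => ?_
  · simp
  · simp [hij]
  · simp [hij.symm]
  · simp
  · rw [le_mul_apply, le_mul_apply, hdf, map_add, map_add, map_smul, map_smul, le_inv_apply]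
    rfl

/-- Claim A: a column of a non-monomial element has at most one zero entry. -/
theorem claimA (h5 : 5 ≤ Fintype.card ι) (ha0 : a ≠ 0) (ha2 : a * a ≠ 1)
    (ha3 : a * a + a + 1 ≠ 0) {g : V ≃ₗ[F] V} (hg : g ∈ H) {k i j : ι} (hij : i ≠ j)
    (hi : b.coord i (g (b k)) = 0) (hj : b.coord j (g (b k)) = 0) : g ∈ dstab (frame b) := by
  obtain ⟨r, s, hrs⟩ := P.span_pair ha0 ha2 ha3 hg hij hi hj
  have h1 : ∀ t, t ≠ i → t ≠ j → b.coord t (g (b r)) = 0 := fun t hti htj => by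
    have : b r ∈ Submodule.span F {g⁻¹ (b i), g⁻¹ (b j)} :=
      hrs ▸ Submodule.subset_span (by simp)
    obtain ⟨α, β, h⟩ := Submodule.mem_span_pair.1 this
    rw [← h]
    simp [hti, htj]
  obtain ⟨l, hl⟩ := exists_not_mem_list [i, j] (by simp; omega)
  obtain ⟨l', hl'⟩ := exists_not_mem_list [i, j, l] (by simp; omega)
  obtain ⟨l'', hl''⟩ := exists_not_mem_list [i, j, l, l'] (by simp; omega)
  simp only [List.mem_cons, List.not_mem_nil, or_false, not_or] at hl hl' hl''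
  obtain ⟨r1, s1, e1⟩ := P.span_pair ha0 ha2 ha3 hg (Ne.symm hl'.2.2) (h1 l hl.1 hl.2)
    (h1 l' hl'.1 hl'.2.1)
  obtain ⟨r2, s2, e2⟩ := P.span_pair ha0 ha2 ha3 hg (Ne.symm hl''.2.2.1) (h1 l hl.1 hl.2)
    (h1 l'' hl''.1 hl''.2.1)
  have m1 : g⁻¹ (b l) ∈ Submodule.span F {b r1, b s1} := e1 ▸ Submodule.subset_span (by simp)
  have m2 : g⁻¹ (b l) ∈ Submodule.span F {b r2, b s2} := e2 ▸ Submodule.subset_span (by simp)
  have fin : ∀ t, g⁻¹ (b l) ∈ frame b t → g ∈ dstab (frame b) := fun t ht =>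
    (Subgroup.inv_mem_iff _).1 (P.part _ (H.inv_mem hg) l t ht)
  by_cases c1 : r1 = r2 ∨ r1 = s2
  · by_cases c2 : s1 = r2 ∨ s1 = s2
    · exfalso
      have hle : Submodule.span F {b r1, b s1} ≤ Submodule.span F {b r2, b s2} := by
        rw [Submodule.span_le]
        rintro _ (rfl | rfl)
        · rcases c1 with rfl | rfl <;> exact Submodule.subset_span (by simp)
        · rcases c2 with rfl | rfl <;> exact Submodule.subset_span (by simp)
      have m3 : g⁻¹ (b l') ∈ Submodule.span F {g⁻¹ (b l), g⁻¹ (b l'')} :=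
        e2 ▸ hle (e1 ▸ Submodule.subset_span (by simp))
      obtain ⟨α, β, h⟩ := Submodule.mem_span_pair.1 m3
      have := congrArg (fun x => b.coord l' (g x)) h
      simp [hl'.2.2, Ne.symm hl''.2.2.2] at this
    · push Not at c2
      refine fin r1 (mem_frame_of_coord fun t ht => ?_)
      by_cases hts : t = s1
      · exact coord_eq_zero_of_mem_pair m2 (hts ▸ c2.1) (hts ▸ c2.2)
      · exact coord_eq_zero_of_mem_pair m1 ht hts
  · push Not at c1
    refine fin s1 (mem_frame_of_coord fun t ht => ?_)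
    by_cases hts : t = r1
    · exact coord_eq_zero_of_mem_pair m2 (hts ▸ c1.1) (hts ▸ c1.2)
    · exact coord_eq_zero_of_mem_pair m1 hts ht

end PartA

end ClaimA

variable {F : Type*} [Field F] [Fintype F] {σ : F →+* F} {q : ℕ}
variable {ι : Type*} [Fintype ι] [DecidableEq ι]
variable {B : (ι → F) →ₛₗ[σ] (ι → F) →ₗ[F] F} {ζ : F} {H : Subgroup ((ι → F) ≃ₗ[F] (ι → F))}

/-- The standing hypotheses of the first part. -/
structure PH (B : (ι → F) →ₛₗ[σ] (ι → F) →ₗ[F] F) (H : Subgroup ((ι → F) ≃ₗ[F] (ι → F))) :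
    Prop where
  le : FR F ι ⊓ GG B ≤ H
  gg : H ≤ GG B
  part : ∀ h ∈ H, ∀ i j, (∀ m, m ≠ j → h (ee F i) m = 0) → h ∈ FR F ι

/-- The sign change at two coordinates. -/
def IsD (i j : ι) (d : (ι → F) ≃ₗ[F] (ι → F)) : Prop :=
  ∀ x, d x = x - (2 * x i) • ee F i - (2 * x j) • ee F j

theorem IsD.sq {i j : ι} (hij : i ≠ j) {d : (ι → F) ≃ₗ[F] (ι → F)} (h : IsD i j d) : d * d = 1 :=
  LinearEquiv.ext fun x => by
    rw [le_mul_apply, h, h, le_one_apply]
    simp only [Pi.sub_apply, Pi.smul_apply, ee_self, ee_ne hij, ee_ne hij.symm, smul_eq_mul]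
    module

theorem IsD.pos {i j : ι} {d : (ι → F) ≃ₗ[F] (ι → F)} (h : IsD i j d) {m : ι} (h1 : m ≠ i)
    (h2 : m ≠ j) : d (ee F m) = ee F m := by
  rw [h]; simp [h1.symm, h2.symm]

theorem IsD.neg {i j : ι} (hij : i ≠ j) {d : (ι → F) ≃ₗ[F] (ι → F)} (h : IsD i j d) {m : ι}
    (h1 : m = i ∨ m = j) : d (ee F m) = -ee F m := by
  rw [h]
  rcases h1 with rfl | rfl
  · simp only [ee_self, ee_ne hij.symm]; module
  · simp only [ee_self, ee_ne hij]; module

theorem conj_ee {n y : (ι → F) ≃ₗ[F] (ι → F)} {m m' : ι} {c e : F} (hc : c ≠ 0)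
    (hn : n (ee F m) = c • ee F m') (hy : y (ee F m) = e • ee F m) :
    (n * y * n⁻¹) (ee F m') = e • ee F m' := by
  refine smul_right_injective _ hc ?_
  simp only
  rw [← map_smul, ← hn, le_mul_apply, le_inv_apply, le_mul_apply, hy, map_smul, hn, smul_comm]

namespace UF

variable (S : UF B ζ q)
include S

theorem exists_tt {i j : ι} (hij : i ≠ j) {a : F} (ha : a * σ a = 1) : ∃ d ∈ FR F ι ⊓ GG B,
    ∀ x, d x = x + ((a - 1) * x i) • ee F i + ((a⁻¹ - 1) * x j) • ee F j := by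
  obtain ⟨d, d1, d2, d3⟩ := S.exists_refl i ha
  obtain ⟨d', e1, e2, e3⟩ := S.exists_refl j (a := a⁻¹) (by
    rw [map_inv₀, ← mul_inv, ha, inv_one])
  exact ⟨d' * d, ⟨(FR F ι).mul_mem e1.1 d1.1, (Iso B).mul_mem e1.2 d1.2, mem_SLV.2 (by
    rw [det_mul', d2, e2, inv_mul_cancel₀ (ne_zero_of_mu ha)])⟩, fun x => by
      rw [le_mul_apply, e3, d3]; simp [hij.symm]⟩

theorem exists_isD {i j : ι} (hij : i ≠ j) : ∃ d ∈ FR F ι ⊓ GG B, IsD i j d := by
  obtain ⟨d, d1, d2⟩ := S.exists_tt hij (a := -1) (by simp)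
  exact ⟨d, d1, fun x => by rw [d2, inv_neg_one]; module⟩

variable (P : PH B H) (two : (2 : F) ≠ 0) (h6 : 6 ≤ Fintype.card ι)
include P two h6

theorem claimA {g : (ι → F) ≃ₗ[F] (ι → F)} (hg : g ∈ H) {k i j : ι} (hij : i ≠ j)
    (hi : g (ee F k) i = 0) (hj : g (ee F k) j = 0) : g ∈ FR F ι := by
  obtain ⟨a, a1, a2, a3⟩ : ∃ a : F, a * σ a = 1 ∧ a * a ≠ 1 ∧ a * a + a + 1 ≠ 0 := by
    obtain ⟨a, a1, a2⟩ := S.qf.exists_mu_ne
    have a0 := ne_zero_of_mu a1
    have a3 : a * a ≠ 1 := fun h => a2 (mul_left_cancel₀ a0 (by rw [a1, h]))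
    by_cases h : a * a + a + 1 = 0
    · exact ⟨-a, by simpa using a1, by simpa using a3, fun h' =>
        mul_ne_zero two a0 (by linear_combination h - h')⟩
    · exact ⟨a, a1, a3, h⟩
  refine PartA.claimA (a := a) ⟨fun i j hij => ?_, fun h hh i j e => P.part h hh i j fun m hm => ?_⟩
    (by omega) (ne_zero_of_mu a1) a2 a3 hg (k := k) hij (by rwa [bf_coord, bf_eq])
    (by rwa [bf_coord, bf_eq])
  · obtain ⟨d, d1, d2⟩ := S.exists_tt hij a1
    exact ⟨d, P.le d1, by simpa only [bf_coord, bf_eq] using d2⟩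
  · obtain ⟨c, hc⟩ := mem_frame.1 e
    rw [← bf_eq, ← hc, bf_eq]; simp [hm]

theorem lemC {z c : (ι → F) ≃ₗ[F] (ι → F)} (hz : z ∈ Iso B) (hc : c ∈ H) (h : z * c = c * z)
    {l k k' : ι} (hk : k ≠ k') {e : F} (he : e = 1 ∨ e = -1) (h1 : z (ee F l) = e • ee F l)
    (h2 : z (ee F k) = -e • ee F k) (h3 : z (ee F k') = -e • ee F k') : c ∈ FR F ι := by
  have key : ∀ k, z (ee F k) = -e • ee F k → c (ee F l) k = 0 := fun k hk => by
    have e1 := S.coord_of_fix hz hk (c (ee F l))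
    rw [← le_mul_apply, h, le_mul_apply, h1, map_smul, Pi.smul_apply, smul_eq_mul] at e1
    refine mul_left_cancel₀ (mul_ne_zero two (show e ≠ 0 by rcases he with rfl | rfl <;> simp)) ?_
    linear_combination e1
  exact S.claimA P two h6 hc hk (key k h2) (key k' h3)

omit S P in
theorem exists_fix {h y : (ι → F) ≃ₗ[F] (ι → F)} (y2 : y * y = 1) (e : h * y * h⁻¹ ∈ FR F ι)
    (φ ψ : Dual F (ι → F)) (hy : ∀ x, φ x = 0 → ψ x = 0 → y x = x) :
    ∃ i j, i ≠ j ∧ (h * y * h⁻¹) (ee F i) = ee F i ∧ (h * y * h⁻¹) (ee F j) = ee F j := by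
  have z2 : h * y * h⁻¹ * (h * y * h⁻¹) = 1 := by simp [mul_assoc, ← mul_assoc y y, y2]
  have hL : ∀ x, (∀ χ ∈ [φ ∘ₗ ((h⁻¹ : (ι → F) ≃ₗ[F] (ι → F)) : (ι → F) →ₗ[F] (ι → F)),
      ψ ∘ₗ ((h⁻¹ : (ι → F) ≃ₗ[F] (ι → F)) : (ι → F) →ₗ[F] (ι → F))], χ x = 0) →
      (h * y * h⁻¹) x = x := fun x hx => by
    rw [le_mul_apply, le_mul_apply, hy (h⁻¹ x) (hx _ List.mem_cons_self)
      (hx _ (List.mem_cons_of_mem _ List.mem_cons_self)), le_apply_inv]
  obtain ⟨i, -, hi⟩ := exists_cent1 e z2 (I := Finset.univ) (by simp) _ (by simp; omega) hL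
  obtain ⟨j, hj, hj'⟩ := exists_cent1 e z2 (I := Finset.univ.erase i) (fun j hj => by
    obtain rfl : j = i := by simpa using hj
    rw [hi]; exact self_mem_frame _ _) _ (by simp [Finset.card_erase_of_mem]; omega) hL
  exact ⟨i, j, (Finset.ne_of_mem_erase hj).symm, by rwa [← bf_eq], by rwa [← bf_eq]⟩

theorem of_conj_D {i j : ι} (hij : i ≠ j) {d h : (ι → F) ≃ₗ[F] (ι → F)} (hd : IsD i j d)
    (hh : h ∈ H) (e : h * d * h⁻¹ ∈ FR F ι) : h ∈ FR F ι := by
  obtain ⟨k, -, -, hk, -⟩ := exists_fix two h6 (hd.sq hij) e (LinearMap.proj i) (LinearMap.proj j)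
    fun x h1 h2 => by rw [hd, show x i = 0 from h1, show x j = 0 from h2]; simp
  have h1 : d (h⁻¹ (ee F k)) = h⁻¹ (ee F k) := h.injective (by rwa [le_apply_inv])
  rw [hd] at h1
  have h2 := congrFun h1 i
  have h3 := congrFun h1 j
  simp only [Pi.sub_apply, Pi.smul_apply, ee_self, ee_ne hij, ee_ne hij.symm, smul_eq_mul] at h2 h3
  exact (FR F ι).inv_mem_iff.1 (S.claimA P two h6 (H.inv_mem hh) (k := k) hij
    (mul_left_cancel₀ two (by linear_combination -h2))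
    (mul_left_cancel₀ two (by linear_combination -h3)))

theorem le_FR_odd {g : (ι → F) ≃ₗ[F] (ι → F)} (hg : g ∈ H) : g ∈ FR F ι := by
  have := finite_lequiv (F := F) (V := ι → F)
  have ex : ∀ l : List ι, l.length ≤ 5 → ∃ x, x ∉ l := fun l hl => exists_not_mem_list l (by omega)
  obtain ⟨i1, -⟩ := ex [] (by simp)
  obtain ⟨i2, h2⟩ := ex [i1] (by simp)
  obtain ⟨i3, h3⟩ := ex [i1, i2] (by simp)
  obtain ⟨i4, h4⟩ := ex [i1, i2, i3] (by simp)
  obtain ⟨i5, h5⟩ := ex [i1, i2, i3, i4] (by simp)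
  simp only [List.mem_cons, List.not_mem_nil, or_false, not_or] at h2 h3 h4 h5
  have h12 : i1 ≠ i2 := Ne.symm h2
  obtain ⟨y, y1, hy⟩ := S.exists_isD h12
  obtain ⟨w, w1, w2, w3⟩ := S.exists_mono (Equiv.swap i1 i2) (Function.update 1 i3 (-1)) fun i => by
    by_cases h : i = i3 <;> simp [h]
  have wH : w ∈ H := P.le ⟨w1.1, w1.2, mem_SLV.2 (by
    rw [w2, Finset.prod_update_of_mem (Finset.mem_univ _), Equiv.Perm.sign_swap h12]; simp)⟩
  have hw : ∀ x, w x = x + (x i2 - x i1) • (ee F i1 - ee F i2) - (2 * x i3) • ee F i3 := fun x =>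
    funext fun m => by
      obtain ⟨m, rfl⟩ := (Equiv.swap i1 i2).surjective m
      rw [w3]
      by_cases e1 : m = i1
      · simp [e1, h2, Ne.symm h3.1, Ne.symm h3.2]
      by_cases e2 : m = i2
      · simp [e2, h12, Ne.symm h3.1, Ne.symm h3.2]
      rw [Equiv.swap_apply_of_ne_of_ne e1 e2]
      by_cases e3 : m = i3
      · simp [e3, h3.1, h3.2]; ring
      · simp [e1, e2, e3]
  have wp : ∀ m, m ≠ i1 → m ≠ i2 → m ≠ i3 → w (ee F m) = (1 : F) • ee F m := fun m a b c => by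
    rw [hw]; simp [a.symm, b.symm, c.symm]
  have wn : w (ee F i3) = (-1 : F) • ee F i3 := by
    rw [hw]; simp only [ee_self, ee_ne (Ne.symm h3.1), ee_ne (Ne.symm h3.2)]; module
  have ws : w (ee F i1) = ee F i2 := by rw [hw]; simp [h2, h3.1]
  have ws' : w (ee F i2) = ee F i1 := by rw [hw]; simp [h12, h3.2]
  have w2' : w * w = 1 := LinearEquiv.ext fun x => by
    rw [le_mul_apply, hw, hw, le_one_apply]
    simp only [Pi.sub_apply, Pi.add_apply, Pi.smul_apply, ee_self, ee_ne h12, ee_ne h2,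
      ee_ne h3.1, ee_ne h3.2, ee_ne (Ne.symm h3.1), ee_ne (Ne.symm h3.2), smul_eq_mul]
    module
  have Uw : ∀ h ∈ H, h * w * h⁻¹ ∈ FR F ι → h ∈ FR F ι := fun h hh e => by
    obtain ⟨k, l, hkl, hk, hl⟩ := exists_fix two h6 w2' e
      ((Pi.basisFun F ι).coord i2 - (Pi.basisFun F ι).coord i1) (LinearMap.proj i3)
      fun x h1 h2 => by
        rw [LinearMap.sub_apply, bf_coord, bf_coord] at h1
        rw [hw, h1, show x i3 = 0 from h2]; simp
    obtain ⟨d, d1, hd⟩ := S.exists_isD hkl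
    have hI := (P.gg (H.mul_mem (H.mul_mem hh wH) (H.inv_mem hh))).1
    have c1 : h * w * h⁻¹ * d = d * (h * w * h⁻¹) := LinearEquiv.ext fun x => by
      rw [le_mul_apply _ d, le_mul_apply d, hd, hd, map_sub, map_sub, map_smul, map_smul, hk, hl,
        S.coord_of_fix hI (c := 1) (by rwa [one_smul]), S.coord_of_fix hI (c := 1)
        (by rwa [one_smul]), one_mul, one_mul]
    refine (FR F ι).inv_mem_iff.1 (S.of_conj_D P two h6 hkl hd (H.inv_mem hh)
      (S.lemC P two h6 w1.2 (H.mul_mem (H.mul_mem (H.inv_mem hh) (P.le d1))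
        (H.inv_mem (H.inv_mem hh))) ?_ (Ne.symm h5.2.2.2) (Or.inr rfl) wn
        (by rw [neg_neg]; exact wp _ h4.1 h4.2.1 h4.2.2)
        (by rw [neg_neg]; exact wp _ h5.1 h5.2.1 h5.2.2.1)))
    calc w * (h⁻¹ * d * h⁻¹⁻¹) = h⁻¹ * (h * w * h⁻¹ * d) * h := by group
      _ = _ := by rw [c1]; group
  have yH := P.le y1
  have vH : g * w * g⁻¹ ∈ H := H.mul_mem (H.mul_mem hg wH) (H.inv_mem hg)
  have nd : ∀ n ∈ FR F ι, ∀ y', y' * y = y * y' → y' = n * w * n⁻¹ → ∃ a b c, a ≠ b ∧ c ≠ a ∧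
      c ≠ b ∧ ((a = i1 ∨ a = i2) ↔ (b = i1 ∨ b = i2)) ∧ y' (ee F a) b ≠ 0 ∧
      y' (ee F c) = (-1 : F) • ee F c ∧
      ∀ m, m ≠ a → m ≠ b → m ≠ c → y' (ee F m) = (1 : F) • ee F m := by
    rintro n hn _ hc rfl
    obtain ⟨π, hπ⟩ := exists_of_mem_FR hn
    choose c c0 hc' using hπ
    have sw : ∀ a b, w (ee F a) = ee F b →
        (n * w * n⁻¹) (ee F (π a)) = (c b / c a) • ee F (π b) := fun a b e => by
      refine smul_right_injective _ (c0 a) ?_
      simp only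
      rw [← map_smul, ← hc', le_mul_apply, le_inv_apply, le_mul_apply, e, hc', smul_smul,
        mul_div_cancel₀ _ (c0 a)]
    have key : ∀ a b, w (ee F a) = ee F b → (π a = i1 ∨ π a = i2) → (π b = i1 ∨ π b = i2) := by
      intro a b e h1
      by_contra h6
      push Not at h6
      have := LinearEquiv.congr_fun hc (ee F (π a))
      rw [le_mul_apply _ y, le_mul_apply y, hy.neg h12 h1, map_neg, sw a b e, map_smul,
        hy.pos h6.1 h6.2] at this
      have := congrFun this (π b)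
      simp only [Pi.neg_apply, Pi.smul_apply, ee_self, smul_eq_mul, mul_one] at this
      exact mul_ne_zero two (div_ne_zero (c0 b) (c0 a)) (by linear_combination -this)
    refine ⟨π i1, π i2, π i3, π.injective.ne h12, π.injective.ne h3.1, π.injective.ne h3.2,
      ⟨key _ _ ws, key _ _ ws'⟩, by simp [sw _ _ ws, c0], conj_ee (c0 _) (hc' _) wn,
      fun m a1 a2 a3 => ?_⟩
    obtain ⟨m, rfl⟩ := π.surjective m
    exact conj_ee (c0 _) (hc' _) (wp m (fun e => a1 (by rw [e])) (fun e => a2 (by rw [e]))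
      fun e => a3 (by rw [e]))
  rcases dih_cases yH vH (hy.sq h12) (by simp [mul_assoc, ← mul_assoc w w, w2']) with
    ⟨h, hh, e⟩ | ⟨z, zH, z1, zy, zv, h, hh, e⟩
  · exfalso
    have e' : y = h * g * w * (h * g)⁻¹ := by rw [e]; group
    obtain ⟨a, b, -, hab, -, -, -, h1, -⟩ := nd _ (Uw _ (H.mul_mem hh hg) (e' ▸ y1.1)) y rfl e'
    by_cases h2 : a = i1 ∨ a = i2
    · simp [hy.neg h12 h2, hab.symm] at h1
    · push Not at h2
      simp [hy.pos h2.1 h2.2, hab.symm] at h1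
  have zN : z ∈ FR F ι := S.of_conj_D P two h6 h12 hy zH (by
    rw [zy, mul_inv_cancel_right]; exact y1.1)
  have zyN := (FR F ι).mul_mem zN y1.1
  have zz : z = z * y * y := by rw [mul_assoc, hy.sq h12, mul_one]
  have cy : z * y * y = y * (z * y) := by rw [← mul_assoc, zy]
  suffices hs : ∃ l k k', k ≠ k' ∧ ∃ e : F, (e = 1 ∨ e = -1) ∧ z (ee F l) = e • ee F l ∧
      z (ee F k) = -e • ee F k ∧ z (ee F k') = -e • ee F k' by
    obtain ⟨l, k, k', hk, e, he, a1, a2, a3⟩ := hs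
    exact Uw g hg (S.lemC P two h6 (P.gg zH).1 vH zv hk he a1 a2 a3)
  have zp : ∀ m (e : F), m ≠ i1 → m ≠ i2 → (z * y) (ee F m) = e • ee F m →
      z (ee F m) = e • ee F m := fun m e a1 a2 a3 => by
    rwa [le_mul_apply, hy.pos a1 a2] at a3
  have zn : ∀ m (e : F), m = i1 ∨ m = i2 → (z * y) (ee F m) = e • ee F m →
      z (ee F m) = -e • ee F m := fun m e a1 a3 => by
    rw [le_mul_apply, hy.neg h12 a1, map_neg, neg_eq_iff_eq_neg] at a3
    rw [a3, neg_smul]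
  rcases e with e | e
  · obtain ⟨π, hπ⟩ := exists_of_mem_FR (S.of_conj_D P two h6 h12 hy hh (e ▸ zyN))
    choose c c0 hc using hπ
    have p1 : ∀ m, m = i1 ∨ m = i2 → (z * y) (ee F (π m)) = (-1 : F) • ee F (π m) :=
      fun m hm => e ▸ conj_ee (c0 _) (hc _) (by rw [hy.neg h12 hm, neg_smul, one_smul])
    have p2 : ∀ m, m ≠ π i1 → m ≠ π i2 → (z * y) (ee F m) = (1 : F) • ee F m := fun m a1 a2 => by
      obtain ⟨m, rfl⟩ := π.surjective m
      exact e ▸ conj_ee (c0 _) (hc _) (by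
        rw [hy.pos (fun e => a1 (by rw [e])) (fun e => a2 (by rw [e])), one_smul])
    obtain ⟨k, hk⟩ := ex [i1, i2, π i1, π i2] (by simp)
    obtain ⟨k', hk'⟩ := ex [i1, i2, π i1, π i2, k] (by simp)
    simp only [List.mem_cons, List.not_mem_nil, or_false, not_or] at hk hk'
    obtain ⟨l, l0, l1, l2⟩ : ∃ l, (l = i1 ∨ l = i2) ∧ π l ≠ i1 ∧ π l ≠ i2 := by
      by_contra hl
      push Not at hl
      refine z1 (lequiv_ext (Pi.basisFun F ι) fun m => ?_)
      have q1 := hl i1 (Or.inl rfl)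
      have q2 := hl i2 (Or.inr rfl)
      have q3 := π.injective.ne h12
      rw [bf_eq, le_one_apply]
      by_cases hm : m = π i1 ∨ m = π i2
      · have := zn m (-1) (by rcases hm with rfl | rfl <;> tauto)
          (by rcases hm with rfl | rfl <;> exact p1 _ (by simp))
        rwa [neg_neg, one_smul] at this
      · push Not at hm
        have := zp m 1 (by rintro rfl; grind) (by rintro rfl; grind) (p2 m hm.1 hm.2)
        rwa [one_smul] at this
    exact ⟨π l, k, k', Ne.symm hk'.2.2.2.2, -1, Or.inr rfl, zp _ _ l1 l2 (p1 l l0),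
      by rw [neg_neg]; exact zp _ _ hk.1 hk.2.1 (p2 k hk.2.2.1 hk.2.2.2),
      by rw [neg_neg]; exact zp _ _ hk'.1 hk'.2.1 (p2 k' hk'.2.2.1 hk'.2.2.2.1)⟩
  have e' : z * y = h * g * w * (h * g)⁻¹ := by rw [e]; group
  obtain ⟨a, b, c, hab, hca, hcb, h1, -, p1, p2⟩ :=
    nd _ (Uw _ (H.mul_mem hh hg) (e' ▸ zyN)) _ cy e'
  by_cases ha : a = i1 ∨ a = i2
  · have hb := h1.1 ha
    obtain ⟨k, hk⟩ := ex [a, b, c] (by simp)
    obtain ⟨k', hk'⟩ := ex [a, b, c, k] (by simp)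
    simp only [List.mem_cons, List.not_mem_nil, or_false, not_or] at hk hk'
    exact ⟨c, k, k', Ne.symm hk'.2.2.2, -1, Or.inr rfl, zp _ _ (by grind) (by grind) p1,
      by rw [neg_neg]; exact zp _ _ (by grind) (by grind) (p2 k hk.1 hk.2.1 hk.2.2),
      by rw [neg_neg]; exact zp _ _ (by grind) (by grind) (p2 k' hk'.1 hk'.2.1 hk'.2.2.1)⟩
  have hb := h1.not.1 ha
  push Not at ha hb
  by_cases hc : c = i1 ∨ c = i2
  · obtain ⟨l, l0, l1⟩ : ∃ l, (l = i1 ∨ l = i2) ∧ l ≠ c := by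
      rcases hc with rfl | rfl
      exacts [⟨i2, Or.inr rfl, h2⟩, ⟨i1, Or.inl rfl, h12⟩]
    obtain ⟨k, hk⟩ := ex [a, b, i1, i2] (by simp)
    obtain ⟨k', hk'⟩ := ex [a, b, i1, i2, k] (by simp)
    simp only [List.mem_cons, List.not_mem_nil, or_false, not_or] at hk hk'
    exact ⟨l, k, k', Ne.symm hk'.2.2.2.2, -1, Or.inr rfl,
      zn _ 1 l0 (p2 l (by grind) (by grind) l1),
      by rw [neg_neg]; exact zp _ _ hk.2.2.1 hk.2.2.2 (p2 k hk.1 hk.2.1 (by grind)),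
      by rw [neg_neg]; exact zp _ _ hk'.2.2.1 hk'.2.2.2.1 (p2 k' hk'.1 hk'.2.1 (by grind))⟩
  push Not at hc
  obtain ⟨l, hl⟩ := ex [a, b, c, i1, i2] (by simp)
  simp only [List.mem_cons, List.not_mem_nil, or_false, not_or] at hl
  exact ⟨l, i1, i2, h12, 1, Or.inl rfl, zp _ _ hl.2.2.2.1 hl.2.2.2.2 (p2 l hl.1 hl.2.1 hl.2.2.1),
    zn _ _ (Or.inl rfl) (p2 _ ha.1.symm hb.1.symm hc.1.symm),
    zn _ _ (Or.inr rfl) (p2 _ ha.2.symm hb.2.symm hc.2.symm)⟩

end UF

end Cfsg.Agent.H98
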