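import Cfsg.Agent.H98.UFr3

/-!
Unitary frames, part 4: characteristic two.
-/

set_option autoImplicit false
set_option linter.unusedSectionVars false
set_option linter.unusedVariables false
set_option linter.unusedSimpArgs false

namespace Cfsg.Agent.H98

open H27 Module

variable {F : Type*} [Field F] [Fintype F] {σ : F →+* F} {q : ℕ}
variable {ι : Type*} [Fintype ι] [DecidableEq ι]
variable {B : (ι → F) →ₛₗ[σ] (ι → F) →ₗ[F] F} {ζ : F} {H : Subgroup ((ι → F) ≃ₗ[F] (ι → F))}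

/-- The normalised transvection with centre `u` lies in `H`. -/
def DT (B : (ι → F) →ₛₗ[σ] (ι → F) →ₗ[F] F) (ζ : F) (H : Subgroup ((ι → F) ≃ₗ[F] (ι → F)))
    (u : ι → F) : Prop := B u u = 0 ∧ T1 H u (ζ⁻¹ • B u)

theorem DT.conj {v : ι → F} (h : DT B ζ H v) {g : (ι → F) ≃ₗ[F] (ι → F)} (hg : g ∈ H)
    (hi : g ∈ Iso B) : DT B ζ H (g v) :=
  ⟨(hi v v).trans h.1, T1.of_conj hg (by
    rw [show (ζ⁻¹ • B (g v)) ∘ₗ (g : (ι → F) →ₗ[F] (ι → F)) = ζ⁻¹ • B v from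
      LinearMap.ext fun x => by simp [hi v x]]
    exact h.2)⟩

namespace UF

variable (S : UF B ζ q) (two : (2 : F) = 0)
include S two

theorem dt_two (hH : FR F ι ⊓ GG B ≤ H) {i j : ι} (hij : i ≠ j) {a b : F} (ha : a * σ a = 1)
    (hb : b * σ b = 1) : DT B ζ H (a • ee F i + b • ee F j) := by
  have : Nonempty ι := ⟨i⟩
  have h1 : B (a • ee F i + b • ee F j) (a • ee F i + b • ee F j) = 0 := by
    rw [S.B_two_two hij]; linear_combination ζ * ha + ζ * hb + ζ * two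
  obtain ⟨g, hg, hgf⟩ := S.sk.exists_tvS h1 (c := ζ⁻¹) (by
    rw [map_inv₀, S.zs, show -ζ = ζ by linear_combination -ζ * two])
  refine ⟨h1, g, hH ⟨mem_FR fun m => ?_, hg⟩, hgf⟩
  simp only [hgf, LinearMap.smul_apply, S.B_ee', smul_eq_mul, inv_mul_cancel_left₀ S.z0]
  by_cases e1 : m = i
  · refine ⟨j, fun k hk => ?_⟩
    by_cases e2 : k = i
    · simp [e1, e2, hij]; linear_combination ha + two
    · simp [e1, e2, hk]
  by_cases e2 : m = j
  · refine ⟨i, fun k hk => ?_⟩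
    by_cases e3 : k = j
    · simp [e2, e3, hij.symm]; linear_combination hb + two
    · simp [e2, e3, hk]
  · exact ⟨m, fun k hk => by simp [e1, e2, hk]⟩

theorem mem_FR_of_dt (h5 : 5 ≤ Fintype.card ι) (hH : FR F ι ⊓ GG B ≤ H) (hG : H ≤ GG B)
    (h : ∀ u, DT B ζ H u → Two u) {g : (ι → F) ≃ₗ[F] (ι → F)} (hg : g ∈ H) : g ∈ FR F ι := by
  obtain ⟨a, a1, a2⟩ := S.qf.exists_mu [1] (by simpa using S.qf.two_le.trans' (by omega))
  obtain ⟨b, b1, b2⟩ := S.qf.exists_mu [1, a] S.qf.two_le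
  simp only [List.mem_cons, List.not_mem_nil, or_false, not_or] at a2 b2
  refine mem_FR_of_two h5 one_ne_zero (ne_zero_of_mu a1) (ne_zero_of_mu b1) (Ne.symm a2)
    (Ne.symm b2.1) (Ne.symm b2.2) fun i j hij t ht => h _ ?_
  have := (S.dt_two two hH hij (a := 1) (b := t) (by simp)
    (by rcases ht with rfl | rfl | rfl <;> simp [a1, b1])).conj hg (hG hg).1
  rwa [one_smul] at this

section

variable (P : PH B H) (h6 : 6 ≤ Fintype.card ι)
include P h6

omit two h6 in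
theorem two_of_zero {u : ι → F} (h : DT B ζ H u) {k : ι} (hk : u k = 0) : Two u := by
  obtain ⟨g, hg, hgf⟩ := h.2.exists
  simp only [LinearMap.smul_apply, smul_eq_mul] at hgf
  obtain ⟨π, hπ⟩ := exists_of_mem_FR (P.part g hg k k fun m hm => by
    simp [hgf, S.B_ee', hk, hm])
  by_cases h0 : u = 0
  · exact ⟨k, k, fun m _ _ => by simp [h0]⟩
  obtain ⟨i, hi⟩ : ∃ i, u i ≠ 0 := Function.ne_iff.1 h0
  obtain ⟨c, -, hc⟩ := hπ i
  refine ⟨i, π i, fun m h1 h2 => ?_⟩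
  simpa [hgf, S.B_ee', h1, h2, S.z0, hi] using congrFun hc m

theorem dt_step {u : ι → F} (h : DT B ζ H u) (hu : ∀ m, u m ≠ 0) {i j : ι} (hij : i ≠ j) {θ : F}
    (hθ : θ * σ θ = 1) (h0 : σ (u i) + θ * σ (u j) ≠ 0) : ∃ u', DT B ζ H u' ∧ (∀ m, u' m ≠ 0) ∧
      u' i = 1 + (σ (u i) + θ * σ (u j)) * u i ∧
      ∀ m, m ≠ i → m ≠ j → u' m = (σ (u i) + θ * σ (u j)) * u m := by
  obtain ⟨g, hg, hgf⟩ := h.2.exists
  have h1 := (S.dt_two two P.le hij (a := 1) (by simp) hθ).conj hg (P.gg hg).1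
  rw [hgf, LinearMap.smul_apply, S.B_two', smul_eq_mul, inv_mul_cancel_left₀ S.z0, mul_one,
    mul_comm _ θ] at h1
  have h2 : ∀ m, m ≠ i → m ≠ j → ((1 : F) • ee F i + θ • ee F j +
      (σ (u i) + θ * σ (u j)) • u) m = (σ (u i) + θ * σ (u j)) * u m := fun m a b => by simp [a, b]
  refine ⟨_, h1, fun m hm => ?_, by simp [hij], h2⟩
  obtain ⟨a, ha⟩ := exists_not_mem_list [i, j] (by simp; omega)
  obtain ⟨b, hb⟩ := exists_not_mem_list [i, j, a] (by simp; omega)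
  obtain ⟨c, hc⟩ := exists_not_mem_list [i, j, a, b] (by simp; omega)
  simp only [List.mem_cons, List.not_mem_nil, or_false, not_or] at ha hb hc
  exact (S.two_of_zero P h1 hm).false (Ne.symm hb.2.2) (Ne.symm hc.2.2.1) (Ne.symm hc.2.2.2)
    (by rw [h2 a ha.1 ha.2]; exact mul_ne_zero h0 (hu _))
    (by rw [h2 b hb.1 hb.2.1]; exact mul_ne_zero h0 (hu _))
    (by rw [h2 c hc.1 hc.2.1]; exact mul_ne_zero h0 (hu _))

theorem dt_false1 {u : ι → F} (h : DT B ζ H u) (hu : ∀ m, u m ≠ 0) {k l : ι} (hkl : k ≠ l)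
    (e : (1 + σ (u k) * u k) ^ 2 = σ (u k) * u k * (σ (u l) * u l)) : False := by
  have a1 := hu k
  have a2 := hu l
  have a3 := (map_ne_zero σ).2 a1
  have a4 := (map_ne_zero σ).2 a2
  have e1 : 1 + (σ (u k) + -(1 + σ (u k) * u k) / (σ (u l) * u k) * σ (u l)) * u k = 0 := by
    field_simp; ring
  obtain ⟨u', -, h1, h2, -⟩ := S.dt_step two P h6 h hu hkl
    (θ := -(1 + σ (u k) * u k) / (σ (u l) * u k)) (by
      simp only [map_div₀, map_neg, map_add, map_one, map_mul, S.qf.inv]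
      field_simp; linear_combination e) (fun h0 => by rw [h0] at e1; simp at e1)
  exact h1 k (h2.trans e1)

theorem dt_false2 {u : ι → F} (h : DT B ζ H u) (hu : ∀ m, u m ≠ 0) {k l : ι} (hkl : k ≠ l)
    (e : σ (u k) * u k ≠ σ (u l) * u l) : False := by
  have ex : ∀ l : List ι, l.length ≤ 5 → ∃ x, x ∉ l := fun l hl => exists_not_mem_list l (by omega)
  obtain ⟨i, h1⟩ := ex [k, l] (by simp)
  obtain ⟨j, h2⟩ := ex [k, l, i] (by simp)
  obtain ⟨i', h3⟩ := ex [k, l, i, j] (by simp)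
  obtain ⟨j', h4⟩ := ex [k, l, i, j, i'] (by simp)
  simp only [List.mem_cons, List.not_mem_nil, or_false, not_or] at h1 h2 h3 h4
  have sq : ∀ s t : F, s ^ 2 = t ^ 2 → s = t := fun s t e => sub_eq_zero.1
    (pow_eq_zero_iff two_ne_zero |>.1 (show (s - t) ^ 2 = 0 by
      linear_combination e + (t ^ 2 - s * t) * two))
  obtain ⟨r, hr⟩ := exists_sq_eq_of_two_eq_zero two (σ (u k) * u k * (σ (u l) * u l))
  have r1 : σ r = r := sq _ _ (by rw [← map_pow, ← hr, map_mul, S.qf.norm_fix, S.qf.norm_fix])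
  have n0 := (norm_eq_zero (σ := σ)).not.2 (hu k)
  have r2 : σ (u k) * u k + r ≠ 0 := fun h5 => e (mul_left_cancel₀ n0 (by
    linear_combination (σ (u k) * u k - r) * h5 - hr))
  have ρ0 := inv_ne_zero r2
  have ρ1 : σ (σ (u k) * u k + r)⁻¹ = (σ (u k) * u k + r)⁻¹ := by
    rw [map_inv₀, map_add, S.qf.norm_fix, r1]
  have ρ2 := inv_mul_cancel₀ r2
  generalize (σ (u k) * u k + r)⁻¹ = ρ at ρ0 ρ1 ρ2
  have ns : ∀ m, σ (u m) ≠ 0 := fun m => (map_ne_zero σ).2 (hu m)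
  obtain ⟨θ, θ', t1, t2, t3, t4, t5⟩ := S.qf.pigeon (ns i) (ns j) (ns i') (ns j') (· ^ 2) (ρ / ·)
    (fun s h1 h2 => ⟨pow_ne_zero _ h1, by simp [h2]⟩)
    (fun s h1 h2 => ⟨div_ne_zero ρ0 h1, by simp [h2, ρ1]⟩) (fun s t _ _ => sq s t)
    (fun s t h1 h2 h3 => by field_simp at h3; exact h3.symm)
  obtain ⟨v, v1, v2, -, v3⟩ := S.dt_step two P h6 h hu (Ne.symm h2.2.2) t1 t3
  have e1 : σ (v i') + θ' * σ (v j') =
      σ (σ (u i) + θ * σ (u j)) * (σ (u i') + θ' * σ (u j')) := by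
    rw [v3 i' h3.2.2.1 h3.2.2.2, v3 j' h4.2.2.1 h4.2.2.2.1, map_mul, map_mul]; ring
  obtain ⟨w, w1, w2, -, w3⟩ := S.dt_step two P h6 v1 v2 (Ne.symm h4.2.2.2.2) t2 (by
    rw [e1]; exact mul_ne_zero ((map_ne_zero σ).2 t3) t4)
  have t4' := (map_ne_zero σ).2 t4
  have key : ∀ m, m = k ∨ m = l → σ (w m) * w m = ρ * (σ (u m) * u m) := fun m hm => by
    rw [w3 m (by grind) (by grind), v3 m (by grind) (by grind), e1]
    generalize σ (u i) + θ * σ (u j) = s at *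
    generalize σ (u i') + θ' * σ (u j') = t at *
    simp only [map_mul, S.qf.inv]
    field_simp at t5
    linear_combination σ (u m) * u m * t5
  refine S.dt_false1 two P h6 w1 w2 hkl ?_
  rw [key k (Or.inl rfl), key l (Or.inr rfl)]
  linear_combination (1 + ρ * (σ (u k) * u k) - ρ * r) * (ρ2 + two) - ρ ^ 2 * hr

theorem le_FR_even (hq : 3 ≤ q) {g : (ι → F) ≃ₗ[F] (ι → F)} (hg : g ∈ H) : g ∈ FR F ι := by
  refine S.mem_FR_of_dt two (by omega) P.le P.gg (fun u h => ?_) hg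
  by_cases h0 : ∃ k, u k = 0
  · obtain ⟨k, hk⟩ := h0
    exact S.two_of_zero P h hk
  exfalso
  push Not at h0
  obtain ⟨i, -⟩ := exists_not_mem_list (ι := ι) [] (by simp; omega)
  obtain ⟨j, h1⟩ := exists_not_mem_list [i] (by simp; omega)
  obtain ⟨k, h2⟩ := exists_not_mem_list [i, j] (by simp; omega)
  simp only [List.mem_cons, List.not_mem_nil, or_false, not_or] at h1 h2
  have e1 : σ (u j) * u j = σ (u i) * u i := by_contra (S.dt_false2 two P h6 h h0 h1)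
  have e2 : σ (u k) * u k = σ (u i) * u i := by_contra (S.dt_false2 two P h6 h h0 h2.1)
  obtain ⟨A, hA, a⟩ := S.qf.exists_norms (x := 1) (y := 1) one_ne_zero one_ne_zero
  obtain ⟨s, hs, hs'⟩ := Finset.exists_mem_ne (s := A) (by omega) (σ (u i) * u i)⁻¹
  obtain ⟨θ, t1, t2, rfl⟩ := a s hs
  have a1 := h0 i
  have a2 := h0 j
  have a3 := (map_ne_zero σ).2 a1
  have a4 := (map_ne_zero σ).2 a2
  have e3 : σ (u i) + θ * σ (u i) / σ (u j) * σ (u j) = σ (u i) * (1 + θ * 1) := by field_simp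
  obtain ⟨v, v1, v2, v3, v4⟩ := S.dt_step two P h6 h h0 (Ne.symm h1)
    (θ := θ * σ (u i) / σ (u j)) (by
      simp only [map_div₀, map_mul, S.qf.inv]
      field_simp; linear_combination σ (u i) * u i * t1 - e1)
    (by rw [e3]; exact mul_ne_zero a3 t2)
  refine S.dt_false2 two P h6 v1 v2 (Ne.symm h2.1) fun e4 => hs' (eq_inv_of_mul_eq_one_left ?_)
  rw [v3, v4 k h2.1 h2.2, e3] at e4
  simp only [map_add, map_mul, map_one, S.qf.inv] at e4 ⊢
  linear_combination e4 + (u i * σ (u i) * (1 + σ θ) * (1 + θ)) * e2 + u i * σ (u i) * t1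
    - two

end

end UF

end Cfsg.Agent.H98
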