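import Cfsg.Agent.H98.UFr4

/-!
Unitary frames, part 5: the field of order four, and the maximality of the stabiliser of an
orthogonal frame in `SU_n(q)`, `n ≥ 6`, `(n, q) ≠ (6, 2)`.
-/

set_option autoImplicit false
set_option linter.unusedSectionVars false
set_option linter.unusedVariables false
set_option linter.unusedSimpArgs false
set_option linter.style.haveILetI false

namespace Cfsg.Agent.H98

open H27 Module Cfsg.Geo

variable {F : Type*} [Field F] [Fintype F] {σ : F →+* F} {q : ℕ}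
variable {ι : Type*} [Fintype ι] [DecidableEq ι]
variable {B : (ι → F) →ₛₗ[σ] (ι → F) →ₗ[F] F} {ζ : F} {H : Subgroup ((ι → F) ≃ₗ[F] (ι → F))}

theorem cast_of_even (two : (2 : F) = 0) {n : ℕ} (h : Even n) : (n : F) = 0 := by
  obtain ⟨k, rfl⟩ := h
  push_cast; linear_combination (k : F) * two

theorem cast_of_odd (two : (2 : F) = 0) {n : ℕ} (h : Odd n) : (n : F) = 1 := by
  obtain ⟨k, rfl⟩ := h
  push_cast; linear_combination (k : F) * two

namespace QF

variable (Q : QF σ 2)
include Q

theorem fix01 {a : F} (h : σ a = a) : a = 0 ∨ a = 1 := by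
  classical
  by_contra h1
  push Not at h1
  have h2 := Finset.card_le_card (show ({0, 1, a} : Finset F) ⊆
    Finset.univ.filter fun x : F => σ x = x by simp [Finset.insert_subset_iff, h])
  rw [Q.cf', Finset.card_eq_three.2 ⟨0, 1, a, zero_ne_one, h1.1.symm, h1.2.symm, rfl⟩] at h2
  omega

theorem two : (2 : F) = 0 :=
  (Q.fix01 (map_ofNat σ 2)).resolve_right fun h => one_ne_zero (α := F) (by linear_combination h)

theorem norm1 {a : F} (h : a ≠ 0) : σ a * a = 1 :=
  (Q.fix01 (Q.norm_fix a)).resolve_left (norm_eq_zero.not.2 h)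

theorem exists_omega : ∃ w : F, w * σ w = 1 ∧ w + σ w = 1 := by
  obtain ⟨a, a1, a2⟩ := Q.exists_mu_ne
  exact ⟨a, a1, (Q.fix01 (by rw [map_add, Q.inv, add_comm])).resolve_left fun h =>
    a2 (by linear_combination h - a * Q.two)⟩

end QF

namespace UF

section Four

variable (S : UF B ζ 2) [Nonempty ι] (hH : FR F ι ⊓ GG B ≤ H) (hG : H ≤ GG B)
include S

theorem z1 : ζ = 1 :=
  (S.qf.fix01 (by rw [S.zs]; linear_combination -ζ * S.qf.two)).resolve_left S.z0

theorem as_iff_dt {u : ι → F} : AS B H u ↔ DT B ζ H u :=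
  ⟨fun h => ⟨h.1, h.2 _ (by simp [S.z1])⟩, fun h => ⟨h.1, fun c hc => by
    rcases S.qf.fix01 hc with rfl | rfl
    · simpa using t1_zero_right u
    · simpa [S.z1] using h.2⟩⟩

theorem B_self (x : ι → F) : B x x = (supp x).card := by
  classical
  rw [S.hB, S.z1, one_mul, supp, Finset.card_filter]
  push_cast
  exact Finset.sum_congr rfl fun i _ => by
    by_cases h : x i = 0
    · simp [h]
    · simp [h, S.qf.norm1 h]

include hH hG

theorem as_eqv {u x : ι → F} (h : AS B H u) (e : (supp u).card = (supp x).card) {k : ι}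
    (hk : u k = 0) : AS B H x := by
  obtain ⟨d, d1, d2⟩ := S.exists_mono_map' (Finset.equivOfCardEq e).extendSubtype (y := x) hk
    fun i => by
      by_cases hi : i ∈ supp u
      · rw [S.qf.norm1 (mem_supp.1 hi),
          S.qf.norm1 (mem_supp.1 ((Finset.equivOfCardEq e).extendSubtype_mem i hi))]
      · rw [not_not.1 (mem_supp.not.1 hi), not_not.1 (mem_supp.not.1
          ((Finset.equivOfCardEq e).extendSubtype_not_mem i hi))]
  exact d2 ▸ h.conj (hH d1) d1.2.1

theorem as_cut {u : ι → F} (h : AS B H u) {A A' : Finset ι} (hd : Disjoint A A')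
    (h1 : A ⊆ supp u) (h2 : A' ⊆ supp u) (o1 : Odd A.card) (o2 : Odd A'.card)
    (h3 : A.card = A'.card ∨ ∃ k, u k = 0) :
    ∃ v, AS B H v ∧ (supp v).card = A.card + A'.card := by
  obtain ⟨w, w1, w2⟩ := S.qf.exists_omega
  have two := S.qf.two
  obtain ⟨d, d1, d2, d3⟩ := S.exists_diag
    (fun m => if m ∈ A then w else if m ∈ A' then σ w else 1) fun m => by
      split_ifs <;> simp [w1, S.qf.mu_conj w1]
  have h4 : AS B H (d u) := by
    rcases h3 with h3 | ⟨k, hk⟩
    · refine h.conj (hH ⟨d1.1, d1.2, mem_SLV.2 ?_⟩) d1.2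
      rw [d2, show (fun m => if m ∈ A then w else if m ∈ A' then σ w else 1) = fun m =>
        (if m ∈ A then w else 1) * if m ∈ A' then σ w else 1 from funext fun m => by
          by_cases h4 : m ∈ A <;> simp [h4, Finset.disjoint_left.1 hd]]
      rw [Finset.prod_mul_distrib, Finset.prod_ite_mem, Finset.prod_ite_mem]
      simp [h3, ← mul_pow, w1]
    · obtain ⟨d', e1, e2⟩ := S.exists_spare d1 k
      exact e2 u hk ▸ h.conj (hH e1) e1.2.1
  have h5 : supp (d u + u) = A ∪ A' := by
    ext m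
    rw [mem_supp, Pi.add_apply, d3, Finset.mem_union, ← add_one_mul]
    by_cases h4 : m ∈ A
    · simp only [h4, if_true, true_or, iff_true]
      refine mul_ne_zero (fun e => ?_) (mem_supp.1 (h1 h4))
      exact ne_zero_of_mu (S.qf.mu_conj w1) (by linear_combination w2 - e + two)
    by_cases h5 : m ∈ A'
    · simp only [h4, h5, if_true, if_false, or_true, iff_true]
      refine mul_ne_zero (fun e => ?_) (mem_supp.1 (h2 h5))
      exact ne_zero_of_mu w1 (by linear_combination w2 - e + two)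
    · simp [h4, h5, one_add_one_eq_two, two]
  have h6 : (supp (d u + u)).card = A.card + A'.card := by
    rw [h5, Finset.card_union_of_disjoint hd]
  refine ⟨_, S.sk.as_add h h4 ?_ (by rw [S.B_self, h6, cast_of_even two (o1.add_odd o2)]), h6⟩
  have e0 : ∑ m, σ (u m) * u m = 0 := by simpa [S.hB, S.z0] using h.1
  have : ∀ m, σ (u m) * d u m = σ (u m) * u m + ((if m ∈ A then w - 1 else 0)
      + if m ∈ A' then σ w - 1 else 0) := fun m => by
    rw [d3]
    by_cases h4 : m ∈ A
    · simp only [h4, Finset.disjoint_left.1 hd h4, if_true, if_false]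
      linear_combination (w - 1) * S.qf.norm1 (mem_supp.1 (h1 h4))
    · by_cases h5 : m ∈ A'
      · simp only [h4, h5, if_true, if_false]
        linear_combination (σ w - 1) * S.qf.norm1 (mem_supp.1 (h2 h5))
      · simp [h4, h5]
  simp only [S.hB, this, Finset.sum_add_distrib, Finset.sum_ite_mem, Finset.univ_inter, e0,
    Finset.sum_const, nsmul_eq_mul, cast_of_odd two o1, cast_of_odd two o2, S.z1]
  exact fun e => one_ne_zero (α := F) (by linear_combination e - w2 + two)

theorem GG_le_four (h7 : 7 ≤ Fintype.card ι) {g : (ι → F) ≃ₗ[F] (ι → F)} (hg : g ∈ H)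
    (hg' : g ∉ FR F ι) : GG B ≤ H := by
  have two := S.qf.two
  have : Nontrivial ι := Fintype.one_lt_card_iff_nontrivial.1 (by omega)
  have ev : ∀ x, B x x = 0 → Even (supp x).card := fun x hx => by
    by_contra h
    rw [S.B_self, cast_of_odd two (Nat.not_even_iff_odd.1 h)] at hx
    exact one_ne_zero hx
  have c3 : ∀ x : ι → F, ¬ Two x → 3 ≤ (supp x).card := fun x hx => by
    obtain ⟨i, j, k, h1, h2, h3, h4, h5, h6⟩ := exists_three_of_not_two hx
    exact Finset.two_lt_card_iff.2 ⟨i, j, k, mem_supp.2 h4, mem_supp.2 h5, mem_supp.2 h6, h1, h2, h3⟩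
  have zero : ∀ x : ι → F, (supp x).card < 7 → ∃ k, x k = 0 := fun x hx => by
    obtain ⟨k, -, hk⟩ := Finset.exists_mem_notMem_of_card_lt_card (s := supp x) (t := Finset.univ)
      (by rw [Finset.card_univ]; omega)
    exact ⟨k, not_not.1 (mem_supp.not.1 hk)⟩
  have split : ∀ (T : Finset ι) (a b : ℕ), a + b ≤ T.card → ∃ A A' : Finset ι, Disjoint A A' ∧
      A ⊆ T ∧ A' ⊆ T ∧ A.card = a ∧ A'.card = b := fun T a b h => by
    obtain ⟨A, h1, h2⟩ := Finset.exists_subset_card_eq (s := T) (n := a) (by omega)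
    obtain ⟨A', h3, h4⟩ := Finset.exists_subset_card_eq (s := T \ A) (n := b) (by
      rw [Finset.card_sdiff_of_subset h1]; omega)
    exact ⟨A, A', Finset.disjoint_of_subset_right h3 Finset.disjoint_sdiff, h1,
      h3.trans Finset.sdiff_subset, h2, h4⟩
  obtain ⟨u, hu, hu'⟩ : ∃ u, DT B ζ H u ∧ ¬ Two u := by
    by_contra h
    push Not at h
    exact hg' (S.mem_FR_of_dt two (by omega) hH hG h hg)
  rw [← S.as_iff_dt] at hu
  obtain ⟨u, hu, u4, u0⟩ : ∃ u, AS B H u ∧ 4 ≤ (supp u).card ∧ ∃ k, u k = 0 := by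
    by_cases h : (supp u).card < 7
    · obtain ⟨k, hk⟩ := ev u hu.1
      exact ⟨u, hu, by have := c3 u hu'; omega, zero u h⟩
    obtain ⟨A, A', h1, h2, h3, h4, h5⟩ := split (supp u) 3 3 (by omega)
    obtain ⟨v, v1, v2⟩ := S.as_cut hH hG hu h1 h2 h3 (by rw [h4]; decide) (by rw [h5]; decide)
      (Or.inl (by omega))
    exact ⟨v, v1, by omega, zero v (by omega)⟩
  have A4 : ∀ x, (supp x).card = 4 → AS B H x := fun x hx => by
    obtain ⟨A, A', h1, h2, h3, h4, h5⟩ := split (supp u) 1 3 u4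
    obtain ⟨v, v1, v2⟩ := S.as_cut hH hG hu h1 h2 h3 (by rw [h4]; decide) (by rw [h5]; decide)
      (Or.inr u0)
    obtain ⟨k, hk⟩ := zero v (by omega)
    exact S.as_eqv hH hG v1 (by omega) hk
  refine S.sk.gen H fun x hx => (?_ : AS B H x).2
  induction' hn : (supp x).card using Nat.strong_induction_on with n ih generalizing x
  subst hn
  by_cases h : Two x
  · obtain ⟨i, j, hij, e⟩ := h.exists_eq
    rw [e, S.B_two_two hij, S.z1, one_mul] at hx
    rw [e]
    by_cases hi : x i = 0
    · have hj : x j = 0 := by simpa [hi] using hx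
      simpa [hi, hj] using as_zero
    have hj : x j ≠ 0 := fun hj => hi (by simpa [hj] using hx)
    exact S.as_iff_dt.2 (S.dt_two two hH hij (by rw [mul_comm, S.qf.norm1 hi])
      (by rw [mul_comm, S.qf.norm1 hj]))
  obtain ⟨k, hk⟩ := ev x hx
  obtain ⟨A, h1, h2⟩ := Finset.exists_subset_card_eq (s := supp x) (n := 4) (by
    have := c3 x h; omega)
  obtain ⟨a, b, c, d, hab, hac, had, hbc, hbd, hcd, rfl⟩ := Finset.card_eq_four.1 h2
  simp only [Finset.insert_subset_iff, Finset.singleton_subset_iff] at h1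
  obtain ⟨w, w1, w2⟩ := S.qf.exists_omega
  have w3 := ne_zero_of_mu w1
  have w4 := ne_zero_of_mu (S.qf.mu_conj w1)
  have xa := mem_supp.1 h1.1
  have xb := mem_supp.1 h1.2.1
  obtain ⟨z, hz⟩ : ∃ z, z = (w * x a) • ee F a + (σ w * x b) • ee F b + x c • ee F c +
    x d • ee F d := ⟨_, rfl⟩
  have za : z a = w * x a := by simp [hz, hab, hac, had]
  have zb : z b = σ w * x b := by simp [hz, hab.symm, hbc, hbd]
  have zc : z c = x c := by simp [hz, hac.symm, hbc.symm, hcd]
  have zd : z d = x d := by simp [hz, had.symm, hbd.symm, hcd.symm]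
  have zo : ∀ m, m ≠ a → m ≠ b → m ≠ c → m ≠ d → z m = 0 := fun m _ _ _ _ => by simp [hz, *]
  have s1 : supp z = {a, b, c, d} := by
    ext m
    simp only [mem_supp, Finset.mem_insert, Finset.mem_singleton]
    refine ⟨fun hm => by_contra fun h5 => by push Not at h5; exact hm (zo m h5.1 h5.2.1 h5.2.2.1
      h5.2.2.2), ?_⟩
    rintro (rfl | rfl | rfl | rfl)
    exacts [za ▸ mul_ne_zero w3 xa, zb ▸ mul_ne_zero w4 xb, zc ▸ mem_supp.1 h1.2.2.1,
      zd ▸ mem_supp.1 h1.2.2.2]
  have s2 : supp (x - z) = supp x \ {c, d} := by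
    ext m
    simp only [mem_supp, Finset.mem_insert, Finset.mem_singleton, Finset.mem_sdiff, Pi.sub_apply]
    by_cases e1 : m = a
    · simp only [e1, za, hac, had, xa, ne_eq, not_false_eq_true, or_self, and_self, iff_true]
      exact fun e => mul_ne_zero w4 xa (by linear_combination e + x a * w2)
    by_cases e2 : m = b
    · simp only [e2, zb, hbc, hbd, xb, ne_eq, not_false_eq_true, or_self, and_self, iff_true]
      exact fun e => mul_ne_zero w3 xb (by linear_combination e + x b * w2)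
    by_cases e3 : m = c
    · simp [e3, zc]
    by_cases e4 : m = d
    · simp [e4, zd]
    simp [zo m e1 e2 e3 e4, e3, e4]
  have s3 : (supp (x - z)).card + 2 = (supp x).card := by
    rw [s2, ← Finset.card_pair hcd]
    exact Finset.card_sdiff_add_card_eq_card (by simp [Finset.insert_subset_iff, h1])
  have := S.sk.as_add (A4 z (by rw [s1, h2])) (ih _ (by omega) (x - z) (by
    rw [S.B_self, cast_of_even two ⟨k - 1, by omega⟩]) rfl) (by
      nth_rw 1 [hz]
      simp only [map_add, LinearMap.map_smulₛₗ, LinearMap.add_apply, LinearMap.smul_apply, S.B_ee,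
        smul_eq_mul, Pi.sub_apply, za, zb, zc, zd, map_mul, S.qf.inv, S.z1]
      exact fun e => one_ne_zero (α := F) (by
        linear_combination e - σ w * (1 - w) * S.qf.norm1 xa - w * (1 - σ w) * S.qf.norm1 xb - w2
          + 2 * w1 + two)) (by rwa [sub_add_cancel])
  rwa [sub_add_cancel] at this

end Four

/-- The stabiliser of the standard frame is maximal. -/
theorem isMaximalIn_FR (S : UF B ζ q) (h6 : 6 ≤ Fintype.card ι)
    (h7 : q = 2 → 7 ≤ Fintype.card ι) : IsMaximalIn (GG B) (FR F ι ⊓ GG B) := by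
  have : Nontrivial ι := Fintype.one_lt_card_iff_nontrivial.1 (by omega)
  refine isMaximalIn_of inf_le_right ?_ fun M hM hM' g hg hg' => ?_
  · obtain ⟨i, -⟩ := exists_not_mem_list (ι := ι) [] (by simp; omega)
    obtain ⟨j, h1⟩ := exists_not_mem_list [i] (by simp; omega)
    obtain ⟨k, h2⟩ := exists_not_mem_list [i, j] (by simp; omega)
    obtain ⟨l, h3⟩ := exists_not_mem_list [i, j, k] (by simp; omega)
    simp only [List.mem_cons, List.not_mem_nil, or_false, not_or] at h1 h2 h3
    obtain ⟨s, hs⟩ := exists_norm_eq S.uh.ne S.qf.inv (t := -1) (by simp)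
    have s0 : s ≠ 0 := by rintro rfl; simp at hs
    obtain ⟨g, hg, hgf⟩ := S.sk.exists_tvS
      (v := (1 : F) • ee F i + s • ee F j + ((1 : F) • ee F k + s • ee F l)) (by
        rw [S.B_split (Ne.symm h1) (by simp [Ne.symm h2.1, Ne.symm h3.1])
          (by simp [Ne.symm h2.2, Ne.symm h3.2.1]), S.B_two_two (Ne.symm h3.2.2), hs]
        simp) (map_one σ)
    refine ⟨g, hg, fun h => ?_⟩
    obtain ⟨π, hπ⟩ := exists_of_mem_FR h.1
    obtain ⟨c, -, hc⟩ := hπ i
    rw [hgf, one_smul, S.B_ee'] at hc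
    by_cases e : k = π i
    · simpa [← e, h1, Ne.symm h1, Ne.symm h2.1, Ne.symm h3.1, Ne.symm h2.2, Ne.symm h3.2.1, S.z0,
        s0] using congrFun hc j
    · simpa [e, Ne.symm h1, h2.1, h2.2, Ne.symm h2.1, Ne.symm h3.1, Ne.symm h3.2.2, S.z0]
        using congrFun hc k
  have hg'' : g ∉ FR F ι := fun h => hg' ⟨h, hM' hg⟩
  by_cases h2 : q = 2
  · subst h2
    exact S.GG_le_four hM hM' (h7 rfl) hg hg''
  have hq : 3 ≤ q := by have := S.qf.two_le; omega
  by_contra hc
  have P : PH B M := ⟨hM, hM', fun h hh i j e => by_contra fun h' =>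
    hc (S.GG_le_of_fix (by omega) hq hM hM' hh h' e)⟩
  by_cases two : (2 : F) = 0
  · exact hg'' (S.le_FR_even two P h6 hq hg)
  · exact hg'' (S.le_FR_odd P two h6 hg)

/-- The stabiliser of an orthonormal frame is maximal. -/
theorem isMaximalIn_frame (S : UF B ζ q) (h6 : 6 ≤ Fintype.card ι)
    (h7 : q = 2 → 7 ≤ Fintype.card ι) (b : Basis ι F (ι → F))
    (hb : ∀ i j, B (b i) (b j) = if i = j then ζ else 0) :
    IsMaximalIn (GG B) (dstab (frame b) ⊓ GG B) := by
  let e : (ι → F) ≃ₗ[F] (ι → F) := b.equivFun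
  have he : ∀ i, e (b i) = ee F i := fun i => funext fun j => by
    simp [e, ee_apply, Finsupp.single_apply, eq_comm]
  have he' : ∀ i, e⁻¹ (ee F i) = b i := fun i => by rw [← he, le_inv_apply]
  have hI : e ∈ Iso B := fun x y => by
    have h1 : ∀ i, B (b i) = B (ee F i) ∘ₗ (e : (ι → F) →ₗ[F] (ι → F)) := fun i =>
      b.ext fun j => by
        rw [hb, LinearMap.comp_apply, LinearEquiv.coe_coe, he, S.B_ee, ee_apply]
        simp [eq_comm]
    nth_rw 2 [← b.sum_repr x]
    rw [S.hB, map_sum, LinearMap.sum_apply, Finset.mul_sum]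
    refine Finset.sum_congr rfl fun i _ => ?_
    rw [LinearMap.map_smulₛₗ, LinearMap.smul_apply, h1, LinearMap.comp_apply, S.B_ee, smul_eq_mul,
      mul_left_comm]
    rfl
  have h := isMaximalIn_comap (MulAut.conj e) (S.isMaximalIn_FR h6 h7)
  have h1 : (GG B).comap (MulAut.conj e : _ →* _) = GG B := by
    ext g
    change e * g * e⁻¹ ∈ Iso B ⊓ SLV F _ ↔ g ∈ Iso B ⊓ SLV F _
    rw [Subgroup.mem_inf, Subgroup.mem_inf, (Iso B).mul_mem_cancel_right ((Iso B).inv_mem hI),
      (Iso B).mul_mem_cancel_left hI]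
    exact and_congr_right' ((MonoidHom.normal_ker _).mem_comm_iff.trans (by simp [SLV]))
  have h2 : (FR F ι).comap (MulAut.conj e : _ →* _) = dstab (frame b) := by
    ext g
    change e * g * e⁻¹ ∈ FR F ι ↔ _
    constructor
    · intro h
      obtain ⟨π, hπ⟩ := exists_of_mem_FR h
      refine mem_dstab_frame fun i => ⟨π i, ?_⟩
      obtain ⟨c, -, hc⟩ := hπ i
      rw [le_mul_apply, le_mul_apply, he', ← he, ← map_smul] at hc
      exact mem_frame.2 ⟨c, (e.injective hc).symm⟩
    · intro h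
      obtain ⟨π, hπ⟩ := exists_of_mem_dstab_frame h
      refine mem_FR fun i => ⟨π i, fun m hm => ?_⟩
      obtain ⟨c, -, hc⟩ := hπ i
      rw [le_mul_apply, le_mul_apply, he', hc, map_smul, he]
      simp [hm]
  rwa [Subgroup.comap_inf, h1, h2] at h

end UF

open H10 in
/-- The stabiliser of an orthogonal frame of lines is maximal in `SU_n(q)`. -/
theorem su_frame {F : Type*} [Field F] [Fintype F] {n q t : ℕ} (hF : Fintype.card F = q ^ 2)
    (h6 : 6 ≤ n) (h7 : q = 2 → 7 ≤ n) (D : Fin t → Submodule F (Fin n → F))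
    (hD : IsNondegenerateMDecomposition (Cfsg.hermForm n F q) 1 D) :
    IsMaximalIn (Cfsg.GU n F q ⊓ specialLinear (Fin n) F)
      (decompositionStabilizer D ⊓ (Cfsg.GU n F q ⊓ specialLinear (Fin n) F)) := by
  haveI : Fact (Fintype.card F = q ^ 2) := ⟨hF⟩
  obtain ⟨ζ, h0, hζ⟩ := exists_skew F q
  have S : UF (suB n q ζ) ζ q := ⟨uH_su (by omega) h0 hζ, qf_cj, h0, fun x y => by
    simp only [suB_apply, Cfsg.hermForm, H10.cj_apply, mul_comm]⟩
  obtain rfl : n = t := by
    simpa using Dec.finrank_eq hD.decomp.indep hD.decomp.iSup_eq_top hD.decomp.finrank_eq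
  obtain ⟨d⟩ := exists_dec hD.decomp.indep hD.decomp.iSup_eq_top
  obtain ⟨b, rfl⟩ := exists_basis_frame d hD.decomp.finrank_eq
  have h1 : ∀ i, suB n q ζ (b i) (b i) ≠ 0 := fun i h => by
    obtain ⟨y, hy, hy'⟩ := (hD.nondegenerate i _ (self_mem_frame b i) (b.ne_zero i)).1
    obtain ⟨c, rfl⟩ := mem_frame.1 hy
    exact hy' ((suB_eq_zero h0).1 (by simp [h]))
  choose c hc using fun i => S.uh.exists_scale (h1 i) hζ
  have c0 : ∀ i, c i ≠ 0 := fun i h => h0 (by rw [← hc i, h]; simp)
  have := isMaximalIn_comap (toLE (Fin n) F) (S.isMaximalIn_frame (by simpa using h6)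
    (by simpa using h7) (b.unitsSMul fun i => Units.mk0 _ (c0 i)) fun i j => by
      simp only [Basis.unitsSMul_apply, Units.smul_def, Units.val_mk0]
      split_ifs with h
      · rw [← h, hc]
      · have := (suB_eq_zero h0).2
          (hD.orthogonal j i (Ne.symm h) _ (self_mem_frame b j) _ (self_mem_frame b i))
        simp [this])
  rwa [frame_unitsSMul, Subgroup.comap_inf, comap_GG_su h0, comap_dstab] at this

end Cfsg.Agent.H98
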